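import Mathlib
import Cfsg.Agent.Lib.Lead.Glauberman2

set_option autoImplicit false

namespace Cfsg.Agent.Lib.Lead

open scoped Pointwise commutatorElement

/-- Growth step: an `A`-invariant `p`-subgroup `U` of `K` is either a Sylow `p`-subgroup of `K`
or is properly contained in a larger `A`-invariant `p`-subgroup of `K`. -/
theorem coprime_invariant_pSubgroup_grow {G : Type*} [Group G] [Finite G] (A K : Subgroup G)
    (hAK : A ≤ Subgroup.normalizer (K : Set G))
    (hcop : (Nat.card A).Coprime (Nat.card K)) (hsolv : Group.IsSolvable A ∨ Group.IsSolvable K)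
    (p : ℕ) [hp : Fact p.Prime] (U : Subgroup G) (hUK : U ≤ K) (hU : IsPGroup p U)
    (hUA : A ≤ Subgroup.normalizer (U : Set G)) :
    (∃ P : Sylow p K, (P : Subgroup K).map K.subtype = U) ∨
    (∃ U' : Subgroup G, U ≤ U' ∧ U ≠ U' ∧ U' ≤ K ∧ IsPGroup p U' ∧
      A ≤ Subgroup.normalizer (U' : Set G)) := by
  have hNUK : K ⊓ Subgroup.normalizer (U : Set G) ≤ K := inf_le_left
  have hUNU : U ≤ K ⊓ Subgroup.normalizer (U : Set G) := le_inf hUK Subgroup.le_normalizer
  have hNA : A ≤ Subgroup.normalizer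
      ((K ⊓ Subgroup.normalizer (U : Set G) : Subgroup G) : Set G) := by
    apply le_normalizer_of_conj_mem
    intro a ha n hn
    exact ⟨conj_mem_of_mem_normalizer (hAK ha) hn.1,
      Subgroup.mul_mem _ (Subgroup.mul_mem _ (hUA ha) hn.2) (Subgroup.inv_mem _ (hUA ha))⟩
  have hcopN : (Nat.card A).Coprime
      (Nat.card (K ⊓ Subgroup.normalizer (U : Set G) : Subgroup G)) :=
    Nat.Coprime.coprime_dvd_right (Subgroup.card_dvd_of_le inf_le_left) hcop
  have hNs : Group.IsSolvable A ∨
      Group.IsSolvable (K ⊓ Subgroup.normalizer (U : Set G) : Subgroup G) := by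
    rcases hsolv with hs | hs
    · exact Or.inl hs
    · exact Or.inr (Group.isSolvable_of_isSolvable_injective
        (Subgroup.inclusion_injective hNUK))
  obtain ⟨S, hS⟩ := coprime_exists_invariant_sylow A _ hNA hcopN hNs p
  -- `U ≤ S`
  have hUn : (U.subgroupOf (K ⊓ Subgroup.normalizer (U : Set G))).Normal :=
    Subgroup.normal_subgroupOf_of_le_normalizer inf_le_right
  have hUp : IsPGroup p (U.subgroupOf (K ⊓ Subgroup.normalizer (U : Set G))) :=
    hU.comap_subtype
  have hUS : U.subgroupOf (K ⊓ Subgroup.normalizer (U : Set G)) ≤ (S : Subgroup _) := by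
    have h1 := S.is_maximal' (IsPGroup.to_sup_of_normal_right S.2 hUp) le_sup_left
    rw [← h1]
    exact le_sup_right
  have hUSG : U ≤ (S : Subgroup _).map (K ⊓ Subgroup.normalizer (U : Set G)).subtype := by
    intro u hu
    exact ⟨⟨u, hUNU hu⟩, hUS (by rw [Subgroup.mem_subgroupOf]; exact hu), rfl⟩
  by_cases hEq : U = (S : Subgroup _).map (K ⊓ Subgroup.normalizer (U : Set G)).subtype
  swap
  · right
    exact ⟨_, hUSG, hEq, (Subgroup.map_subtype_le _).trans hNUK, S.2.map _, hS⟩
  left
  obtain ⟨n, hn⟩ := (IsPGroup.iff_card (p := p)).mp hU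
  have e1 : Nat.card (U.subgroupOf K) = Nat.card U :=
    Nat.card_congr (Subgroup.subgroupOfEquivOfLe hUK).toEquiv
  obtain ⟨T, hT⟩ := IsPGroup.exists_le_sylow (hU.comap_subtype (K := K))
  have hTcard := T.card_eq_multiplicity
  have hle : Nat.card (U.subgroupOf K) ∣ Nat.card (T : Subgroup K) := Subgroup.card_dvd_of_le hT
  rw [e1, hn, hTcard] at hle
  have hnm : n ≤ (Nat.card K).factorization p :=
    (Nat.pow_dvd_pow_iff_le_right hp.out.one_lt).mp hle
  rcases Nat.lt_or_ge n ((Nat.card K).factorization p) with hlt | hge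
  · exfalso
    have hdvd : p ^ (n + 1) ∣ Nat.card K := by
      have h2 : p ^ (n + 1) ∣ p ^ (Nat.card K).factorization p := pow_dvd_pow p hlt
      exact h2.trans (Nat.ordProj_dvd _ _)
    obtain ⟨R, hRcard, hUR⟩ := Sylow.exists_subgroup_card_pow_succ hdvd (H := U.subgroupOf K)
      (by rw [e1, hn])
    -- `U` is normal in `R`
    have e2 : Nat.card ((U.subgroupOf K).subgroupOf R) = p ^ n := by
      rw [Nat.card_congr (Subgroup.subgroupOfEquivOfLe hUR).toEquiv, e1, hn]
    have hidx : ((U.subgroupOf K).subgroupOf R).index = (Nat.card R).minFac := by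
      have h3 := Subgroup.card_mul_index ((U.subgroupOf K).subgroupOf R)
      rw [e2, hRcard, pow_succ] at h3
      have h4 : ((U.subgroupOf K).subgroupOf R).index = p :=
        Nat.eq_of_mul_eq_mul_left (pow_pos hp.out.pos n) h3
      rw [h4, hRcard, Nat.Prime.pow_minFac hp.out (Nat.succ_ne_zero n)]
    have hnorm : ((U.subgroupOf K).subgroupOf R).Normal :=
      Subgroup.normal_of_index_eq_minFac_card hidx
    -- `R ≤ N_K(U)` as subgroups of `G`
    have hRN : R.map K.subtype ≤ K ⊓ Subgroup.normalizer (U : Set G) := by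
      refine le_inf (Subgroup.map_subtype_le R) ?_
      apply le_normalizer_of_conj_mem
      rintro r ⟨r', hr', rfl⟩ u hu
      have h5 : (⟨⟨u, hUK hu⟩, hUR (by rw [Subgroup.mem_subgroupOf]; exact hu)⟩ : R) ∈
          (U.subgroupOf K).subgroupOf R := by
        rw [Subgroup.mem_subgroupOf, Subgroup.mem_subgroupOf]
        exact hu
      have h6 := hnorm.conj_mem _ h5 ⟨r', hr'⟩
      rw [Subgroup.mem_subgroupOf, Subgroup.mem_subgroupOf] at h6
      exact h6
    -- hence `R ≤ S`, contradiction with orders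
    have hRp : IsPGroup p ((R.map K.subtype).subgroupOf (K ⊓ Subgroup.normalizer (U : Set G))) := by
      apply IsPGroup.comap_subtype
      apply IsPGroup.map
      exact (IsPGroup.iff_card (p := p)).mpr ⟨n + 1, hRcard⟩
    have hSR : (S : Subgroup _) ≤
        (R.map K.subtype).subgroupOf (K ⊓ Subgroup.normalizer (U : Set G)) := by
      intro s hs
      rw [Subgroup.mem_subgroupOf]
      have h7 : (s : G) ∈ U := hEq.ge ⟨s, hs, rfl⟩
      exact ⟨⟨s, hUK h7⟩, hUR (by rw [Subgroup.mem_subgroupOf]; exact h7), rfl⟩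
    have h8 := S.is_maximal' hRp hSR
    have hRU : R.map K.subtype ≤ U := by
      intro r hr
      have h9 : (⟨r, hRN hr⟩ : (K ⊓ Subgroup.normalizer (U : Set G) : Subgroup G)) ∈
          (R.map K.subtype).subgroupOf (K ⊓ Subgroup.normalizer (U : Set G)) := by
        rw [Subgroup.mem_subgroupOf]; exact hr
      rw [h8] at h9
      exact hEq.ge ⟨_, h9, rfl⟩
    have h10 : Nat.card (R.map K.subtype) ≤ Nat.card U := Subgroup.card_le_of_le hRU
    rw [Subgroup.card_map_of_injective K.subtype_injective, hRcard, hn] at h10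
    have h11 : p ^ n < p ^ (n + 1) := Nat.pow_lt_pow_right hp.out.one_lt (Nat.lt_succ_self n)
    omega
  · have hnm' : n = (Nat.card K).factorization p := le_antisymm hnm hge
    have hTU : U.subgroupOf K = (T : Subgroup K) := by
      have h12 : Nat.card (T : Subgroup K) ≤ Nat.card (U.subgroupOf K) := by
        rw [hTcard, e1, hn, hnm']
      exact Subgroup.eq_of_le_of_card_ge hT h12
    refine ⟨T, ?_⟩
    rw [← hTU]
    exact Subgroup.map_subgroupOf_eq_of_le hUK

/-- Coprime action: an `A`-invariant `p`-subgroup of `K` lies in an `A`-invariant Sylow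
`p`-subgroup of `K`. -/
theorem coprime_invariant_pSubgroup_le_sylow {G : Type*} [Group G] [Finite G] (A K : Subgroup G)
    (hAK : A ≤ Subgroup.normalizer (K : Set G))
    (hcop : (Nat.card A).Coprime (Nat.card K)) (hsolv : Group.IsSolvable A ∨ Group.IsSolvable K)
    (p : ℕ) [hp : Fact p.Prime] :
    ∀ (d : ℕ) (U : Subgroup G), Nat.card K - Nat.card U = d → U ≤ K → IsPGroup p U →
      A ≤ Subgroup.normalizer (U : Set G) →
      ∃ P : Sylow p K, U ≤ (P : Subgroup K).map K.subtype ∧
        A ≤ Subgroup.normalizer ((P : Subgroup K).map K.subtype : Set G) := by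
  intro d
  induction d using Nat.strong_induction_on with
  | _ d ih =>
  intro U hd hUK hU hUA
  rcases coprime_invariant_pSubgroup_grow A K hAK hcop hsolv p U hUK hU hUA with
    ⟨P, hP⟩ | ⟨U', hUU', hne, hU'K, hU'p, hU'A⟩
  · exact ⟨P, by rw [hP], by rw [hP]; exact hUA⟩
  · have h1 : Nat.card U < Nat.card U' := card_lt_of_lt hUU' hne
    have h2 : Nat.card U' ≤ Nat.card K := Subgroup.card_le_of_le hU'K
    obtain ⟨P, hP1, hP2⟩ := ih (Nat.card K - Nat.card U') (by omega) U' rfl hU'K hU'p hU'A
    exact ⟨P, hUU'.trans hP1, hP2⟩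

end Cfsg.Agent.Lib.Lead
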