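import Mathlib

/-! Generation of `SL` by transvections, perfectness for rank at least three, and
simplicity of `PSL` in rank at least three via the Iwasawa criterion. -/

namespace Cfsg.Agent.Lib.Lead

open Matrix Matrix.SpecialLinearGroup

variable {F : Type*} [Field F] {ι : Type*} [DecidableEq ι] [Fintype ι]

theorem diag2n_decompose_aux {i j : ι} (hij : i ≠ j) (a : F) (ha : a ≠ 0) :
    diagonal (fun k ↦ if k = i then a else if k = j then a⁻¹ else 1) =
      ((1 : Matrix ι ι F) + single i j a) * (1 + single j i (-a⁻¹)) * (1 + single i j a) *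
      (1 + single i j (-1)) * (1 + single j i 1) * (1 + single i j (-1)) := by
  have hji : j ≠ i := hij.symm
  simp only [mul_add, add_mul, mul_one, one_mul, Matrix.single_mul_single_same,
    Matrix.single_mul_single_of_ne _ _ _ _ hij, Matrix.single_mul_single_of_ne _ _ _ _ hij.symm,
    add_zero]
  have e1 : a * a⁻¹ = 1 := mul_inv_cancel₀ ha
  have e2 : a⁻¹ * a = 1 := inv_mul_cancel₀ ha
  ext k l
  simp only [Matrix.add_apply, Matrix.single_apply, Matrix.diagonal_apply, Matrix.one_apply]
  grind

theorem diag2n_decompose_gen {i j : ι} (hij : i ≠ j) (a : F) (ha : a ≠ 0) :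
    diag2n hij a ha = transvection hij a * transvection hij.symm (-a⁻¹) * transvection hij a *
      transvection hij (-1) * transvection hij.symm 1 * transvection hij (-1) :=
  Subtype.ext (diag2n_decompose_aux hij a ha)

theorem transvection_induction_gen [Nontrivial ι] (P : SpecialLinearGroup ι F → Prop)
    (htransvec : ∀ (i j : ι) (hij : i ≠ j) (a : F), P (transvection hij a))
    (hmul : ∀ A B, P A → P B → P (A * B)) (M : SpecialLinearGroup ι F) : P M := by
  refine diagonal_transvection_induction' P _ (fun i j hij c hc ↦ ?_) htransvec hmul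
  rw [diag2n_decompose_gen hij c hc]
  refine hmul _ _ (hmul _ _ (hmul _ _ (hmul _ _ (hmul _ _ ?_ ?_) ?_) ?_) ?_) ?_
  all_goals exact htransvec _ _ _ _

open scoped commutatorElement

theorem transvection_comm_aux {i j k : ι} (hij : i ≠ j) (hik : i ≠ k) (hkj : k ≠ j) (c : F) :
    ((1 : Matrix ι ι F) + single i k c) * (1 + single k j 1) * (1 + single i k (-c)) *
      (1 + single k j (-1)) = 1 + single i j c := by
  simp only [mul_add, add_mul, mul_one, one_mul, Matrix.single_mul_single_same,
    Matrix.single_mul_single_of_ne _ _ _ _ hij.symm,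
    Matrix.single_mul_single_of_ne _ _ _ _ hik.symm,
    Matrix.single_mul_single_of_ne _ _ _ _ hkj.symm, add_zero]
  ext a b
  simp only [Matrix.add_apply, Matrix.single_apply, Matrix.one_apply]
  grind

theorem transvection_eq_commutator {i j k : ι} (hij : i ≠ j) (hik : i ≠ k) (hkj : k ≠ j) (c : F) :
    transvection hij c = ⁅transvection hik c, transvection hkj (1 : F)⁆ := by
  rw [commutatorElement_def, transvection_inv, transvection_inv]
  exact Subtype.ext (transvection_comm_aux hij hik hkj c).symm

theorem sl_commutator_eq_top [Nontrivial ι] (h3 : ∀ i j : ι, ∃ k, k ≠ i ∧ k ≠ j) :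
    commutator (SpecialLinearGroup ι F) = ⊤ := by
  refine eq_top_iff.2 fun M _ => ?_
  refine transvection_induction_gen (fun M => M ∈ commutator (SpecialLinearGroup ι F))
    (fun i j hij a => ?_) (fun A B hA hB => mul_mem hA hB) M
  obtain ⟨k, hki, hkj⟩ := h3 i j
  rw [transvection_eq_commutator hij hki.symm hkj a]
  exact Subgroup.commutator_mem_commutator (Subgroup.mem_top _) (Subgroup.mem_top _)

theorem exists_third (n : ℕ) (hn : 3 ≤ n) (i j : Fin n) : ∃ k, k ≠ i ∧ k ≠ j := by
  by_contra hcon
  push Not at hcon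
  have h0 : (⟨0, by omega⟩ : Fin n) ≠ i → (⟨0, by omega⟩ : Fin n) = j := hcon _
  have h1 : (⟨1, by omega⟩ : Fin n) ≠ i → (⟨1, by omega⟩ : Fin n) = j := hcon _
  have h2 : (⟨2, by omega⟩ : Fin n) ≠ i → (⟨2, by omega⟩ : Fin n) = j := hcon _
  simp only [ne_eq, Fin.ext_iff] at h0 h1 h2
  omega

theorem fin_nontrivial_of_two_le (n : ℕ) (hn : 2 ≤ n) : Nontrivial (Fin n) :=
  Fin.nontrivial_iff_two_le.2 hn

open scoped LinearAlgebra.Projectivization

theorem iSup_lineStab_eq_top_gen [Nontrivial ι] :
    (⨆ p : ℙ F (ι → F), lineStab p.submodule) = (⊤ : Subgroup (SpecialLinearGroup ι F)) := by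
  refine eq_top_iff.2 fun M _ => ?_
  refine transvection_induction_gen
    (fun M => M ∈ (⨆ p : ℙ F (ι → F), lineStab p.submodule))
    (fun i j hij a => ?_) (fun A B hA hB => mul_mem hA hB) M
  have h1 : (Pi.single i (1 : F) : ι → F) ≠ 0 := Pi.single_ne_zero_iff.2 one_ne_zero
  have h2 := SL2Gen.transvection_mem_lineStab hij a
  rw [← Projectivization.submodule_mk (K := F) _ h1] at h2
  exact Subgroup.mem_iSup_of_mem _ h2

/-- The Iwasawa structure on `PSL`, any rank at least two. -/
noncomputable def pslIwasawa [Nontrivial ι] :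
    MulAction.IwasawaStructure (Matrix.ProjectiveSpecialLinearGroup ι F) (ℙ F (ι → F)) where
  T := PSL.iwasawaT
  is_comm p := by
    have hSL : IsMulCommutative (lineStab (F := F) (ι := ι) p.submodule) := by
      rw [← Projectivization.mk_rep p, Projectivization.submodule_mk]
      exact lineStab_isMulCommutative_of_span p.rep p.rep_nonzero
    exact Subgroup.map_isMulCommutative _ _
  is_conj g p := by
    obtain ⟨g_SL, rfl⟩ := QuotientGroup.mk_surjective g
    rw [Matrix.ProjectiveSpecialLinearGroup.smul_proj_mk]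
    change Subgroup.map _ _ = _
    rw [PSL.smul_submodule, Matrix.SpecialLinearGroup.lineStab_smul,
      PSL.iwasawaT_map_conj]
  is_generator := by
    have step1 : iSup (PSL.iwasawaT (F := F) (ι := ι)) =
        Subgroup.map (QuotientGroup.mk' (Subgroup.center (Matrix.SpecialLinearGroup ι F)))
          (⨆ p : ℙ F (ι → F),
            Matrix.SpecialLinearGroup.lineStab (F := F) (ι := ι) p.submodule) := by
      rw [Subgroup.map_iSup]
    rw [step1, iSup_lineStab_eq_top_gen]
    exact Subgroup.map_top_of_surjective _ (QuotientGroup.mk'_surjective _)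

theorem psl_commutator_eq_top [Nontrivial ι] (h3 : ∀ i j : ι, ∃ k, k ≠ i ∧ k ≠ j) :
    commutator (Matrix.ProjectiveSpecialLinearGroup ι F) = ⊤ := by
  have : Group.IsPerfect (SpecialLinearGroup ι F) := ⟨sl_commutator_eq_top h3⟩
  have : Group.IsPerfect (Matrix.ProjectiveSpecialLinearGroup ι F) := inferInstance
  exact this.commutator_eq_top

theorem psl_simple_of_three [Nontrivial ι] (h3 : ∀ i j : ι, ∃ k, k ≠ i ∧ k ≠ j) :
    IsSimpleGroup (Matrix.ProjectiveSpecialLinearGroup ι F) :=
  MulAction.IwasawaStructure.isSimpleGroup (psl_commutator_eq_top h3) pslIwasawa inferInstance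

theorem diag_transvection_aux {i j : ι} (hij : i ≠ j) (a b : F) :
    ((1 : Matrix ι ι F) + single i j (a * b)) * diagonal (fun k => if k = i then a else 1) =
      diagonal (fun k => if k = i then a else 1) * (1 + single i j b) := by
  have hji : j ≠ i := hij.symm
  ext k l
  simp only [Matrix.add_apply,
    Matrix.mul_diagonal, Matrix.diagonal_mul, Matrix.single_apply,
    Matrix.one_apply]
  grind

theorem toGL_transvection_mem_commutator_of_ne {i j : ι} (hij : i ≠ j) (a : F) (ha0 : a ≠ 0)
    (ha1 : a ≠ 1) (c : F) :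
    toGL (transvection hij c) ∈ commutator (GL ι F) := by
  have hdet : (diagonal (fun k => if k = i then a else 1) : Matrix ι ι F).det ≠ 0 := by
    rw [Matrix.det_diagonal, Finset.prod_ne_zero_iff]
    intro k _
    split_ifs
    · exact ha0
    · exact one_ne_zero
  set D : GL ι F := Matrix.GeneralLinearGroup.mkOfDetNeZero _ hdet with hD
  set b : F := c / (a - 1) with hb
  have ha1' : a - 1 ≠ 0 := sub_ne_zero.2 ha1
  have key : toGL (transvection hij (a * b)) * D = D * toGL (transvection hij b) := by
    apply Units.ext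
    exact diag_transvection_aux hij a b
  have hc : c = a * b + (-b) := by
    rw [hb]; field_simp; ring
  have e : toGL (transvection hij c) = ⁅D, toGL (transvection hij b)⁆ := by
    rw [commutatorElement_def, ← key, hc, transvection_add, map_mul, ← map_inv, transvection_inv]
    group
  rw [e]
  exact Subgroup.commutator_mem_commutator (Subgroup.mem_top _) (Subgroup.mem_top _)

theorem toGL_transvection_mem_commutator_of_three {i j : ι} (hij : i ≠ j)
    (h3 : ∃ k, k ≠ i ∧ k ≠ j) (c : F) :
    toGL (transvection hij c) ∈ commutator (GL ι F) := by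
  obtain ⟨k, hki, hkj⟩ := h3
  rw [transvection_eq_commutator hij hki.symm hkj c, map_commutatorElement]
  exact Subgroup.commutator_mem_commutator (Subgroup.mem_top _) (Subgroup.mem_top _)

theorem gl_commutator_eq_ker_det [Nontrivial ι]
    (hcomm : ∀ (i j : ι) (hij : i ≠ j) (c : F),
      toGL (transvection hij c) ∈ commutator (GL ι F)) :
    commutator (GL ι F) = (Matrix.GeneralLinearGroup.det : GL ι F →* Fˣ).ker := by
  apply le_antisymm (Abelianization.commutator_subset_ker _)
  intro g hg
  have hdet : (g : Matrix ι ι F).det = 1 := by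
    have := congrArg Units.val (MonoidHom.mem_ker.1 hg)
    simpa using this
  obtain ⟨s, rfl⟩ : ∃ s : SpecialLinearGroup ι F, toGL s = g := ⟨⟨g.1, hdet⟩, Units.ext rfl⟩
  exact transvection_induction_gen (fun s => toGL s ∈ commutator (GL ι F)) hcomm
    (fun A B hA hB => by rw [map_mul]; exact mul_mem hA hB) s


end Cfsg.Agent.Lib.Lead
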