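import Mathlib
import Cfsg.Prelude.Def_Blocks
import Cfsg.Agent.Lib.Lead.BlockMinMax

/-!
# Nilpotent class sums and central characters

If a class sum is nilpotent in the group algebra over `ZMod p`, the central characters at that
class lie in the local ideal.
-/

set_option autoImplicit false

namespace Cfsg.Agent.Lib.Lead

open scoped ComplexConjugate

universe u

section nilp

variable {G : Type u} [Group G] [Fintype G]

/-- the transform of a class function with coefficients in the local ideal has values in the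
local ideal -/
theorem transform_memLocalIdeal_lead {M : Ideal Cfsg.AlgInt} (hM : M.IsPrime)
    (c : G → ℂ) (hc : Cfsg.IsClassFunction G c) (hcM : ∀ g, Cfsg.MemLocalIdeal M (c g))
    (η : Cfsg.IrrCharacter G) (a : ℂ)
    (ha : ∑ g : G, c g * (η : G → ℂ) g = a * (η : G → ℂ) 1) :
    Cfsg.MemLocalIdeal M a := by
  classical
  haveI : Fintype (ConjClasses G) := Fintype.ofFinite _
  have hMtop : M ≠ ⊤ := hM.ne_top
  obtain ⟨d, hd0, hd⟩ := irr_one η.2
  have hη1 : (η : G → ℂ) 1 ≠ 0 := by
    rw [hd]
    exact_mod_cast hd0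
  have hdec : ∀ g : G, c g = ∑ L : ConjClasses G,
      c (Quotient.out L) * (if IsConj g (Quotient.out L) then (1 : ℂ) else 0) := by
    intro g
    rw [Finset.sum_eq_single (ConjClasses.mk g)]
    · have h1 : IsConj g (Quotient.out (ConjClasses.mk g)) := by
        have h2 : ConjClasses.mk (Quotient.out (ConjClasses.mk g)) = ConjClasses.mk g :=
          Quotient.out_eq _
        exact (ConjClasses.mk_eq_mk_iff_isConj.mp h2).symm
      rw [if_pos h1, mul_one]
      obtain ⟨t, ht⟩ := isConj_iff.mp h1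
      rw [← ht]
      exact (hc g t).symm
    · intro L _ hL
      have h1 : ¬ IsConj g (Quotient.out L) := by
        intro h
        exact hL ((Quotient.out_eq L).symm.trans (ConjClasses.mk_eq_mk_iff_isConj.mpr h).symm)
      rw [if_neg h1, mul_zero]
    · intro h
      exact absurd (Finset.mem_univ _) h
  have hsum : ∑ g : G, c g * (η : G → ℂ) g
      = (∑ L : ConjClasses G,
          c (Quotient.out L) * Cfsg.centralChar (η : G → ℂ) (Quotient.out L))
        * (η : G → ℂ) 1 := by
    calc ∑ g : G, c g * (η : G → ℂ) g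
        = ∑ g : G, ∑ L : ConjClasses G, c (Quotient.out L)
            * ((if IsConj g (Quotient.out L) then (1 : ℂ) else 0) * (η : G → ℂ) g) := by
          refine Finset.sum_congr rfl (fun g _ => ?_)
          rw [hdec g, Finset.sum_mul]
          exact Finset.sum_congr rfl (fun L _ => mul_assoc _ _ _)
      _ = ∑ L : ConjClasses G, c (Quotient.out L)
            * ∑ g : G, (if IsConj g (Quotient.out L) then (1 : ℂ) else 0) * (η : G → ℂ) g := by
          rw [Finset.sum_comm]
          refine Finset.sum_congr rfl (fun L _ => ?_)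
          rw [Finset.mul_sum]
      _ = ∑ L : ConjClasses G, c (Quotient.out L)
            * (Cfsg.centralChar (η : G → ℂ) (Quotient.out L) * (η : G → ℂ) 1) := by
          refine Finset.sum_congr rfl (fun L _ => ?_)
          have h := class_transform_lead (Quotient.out L)
            (fun g => if IsConj g (Quotient.out L) then (1 : ℂ) else 0)
            (fun g hg => if_pos hg) (fun g hg => if_neg hg) η
          exact congrArg (fun t => c (Quotient.out L) * t) h
      _ = _ := by
          rw [Finset.sum_mul]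
          refine Finset.sum_congr rfl (fun L _ => ?_)
          rw [mul_assoc]
  have ha' : a = ∑ L : ConjClasses G,
      c (Quotient.out L) * Cfsg.centralChar (η : G → ℂ) (Quotient.out L) :=
    mul_right_cancel₀ hη1 (ha.symm.trans hsum)
  rw [ha']
  refine memLocalIdeal_sum_lead hM _ _ (fun L _ => ?_)
  rw [mul_comm]
  exact memLocalIdeal_mul_ring_lead hM
    (memLocalRing_isIntegral_lead hMtop (isIntegral_centralChar_lead η _)) (hcM _)

/-- if the class sum of `z` is nilpotent in the group algebra over `ZMod p`, then all central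
characters at `z` lie in the local ideal -/
theorem centralChar_mem_of_nilp_lead (p : ℕ) [Fact p.Prime] {M : Ideal Cfsg.AlgInt}
    (hM : M.IsPrime) (hpM : (p : Cfsg.AlgInt) ∈ M) (z : G)
    (hnil : IsNilpotent (∑ᶠ x ∈ ConjClasses.carrier (ConjClasses.mk z),
      MonoidAlgebra.single x (1 : ZMod p) : MonoidAlgebra (ZMod p) G))
    (η : Cfsg.IrrCharacter G) : Cfsg.MemLocalIdeal M (Cfsg.centralChar (η : G → ℂ) z) := by
  classical
  have hMtop : M ≠ ⊤ := hM.ne_top
  obtain ⟨m, hm⟩ := hnil
  have hsum : (∑ᶠ x ∈ ConjClasses.carrier (ConjClasses.mk z),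
      MonoidAlgebra.single x (1 : ZMod p) : MonoidAlgebra (ZMod p) G)
      = ∑ x : G, MonoidAlgebra.single x (if IsConj z x then (1 : ZMod p) else 0) := by
    rw [finsum_mem_def, finsum_eq_sum_of_fintype]
    refine Finset.sum_congr rfl (fun x _ => ?_)
    rw [Set.indicator_apply]
    by_cases h : IsConj z x
    · rw [if_pos h, if_pos]
      rw [ConjClasses.mem_carrier_iff_mk_eq, ConjClasses.mk_eq_mk_iff_isConj]
      exact h.symm
    · rw [if_neg h, MonoidAlgebra.single_zero, if_neg]
      rw [ConjClasses.mem_carrier_iff_mk_eq, ConjClasses.mk_eq_mk_iff_isConj]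
      exact fun h' => h h'.symm
  rw [hsum] at hm
  obtain ⟨c, hc0, hcs⟩ : ∃ c : ℕ → G → ℕ, (∀ g, c 0 g = if g = 1 then 1 else 0) ∧
      ∀ k g, c (k + 1) g = ∑ x : G, (if IsConj z x then 1 else 0) * c k (x⁻¹ * g) :=
    ⟨fun k => Nat.rec (motive := fun _ => G → ℕ) (fun g => if g = 1 then 1 else 0)
      (fun _ f g => ∑ x : G, (if IsConj z x then 1 else 0) * f (x⁻¹ * g)) k,
      fun _ => rfl, fun _ _ => rfl⟩
  have hP1 : ∀ k : ℕ,
      (∑ x : G, MonoidAlgebra.single x (if IsConj z x then (1 : ZMod p) else 0)) ^ k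
      = ∑ g : G, MonoidAlgebra.single g ((c k g : ℕ) : ZMod p) := by
    intro k
    induction k with
    | zero =>
      rw [pow_zero, MonoidAlgebra.one_def]
      symm
      rw [Finset.sum_eq_single (1 : G)]
      · rw [hc0, if_pos rfl, Nat.cast_one]
      · intro g _ hg
        rw [hc0, if_neg hg, Nat.cast_zero, MonoidAlgebra.single_zero]
      · intro h
        exact absurd (Finset.mem_univ _) h
    | succ k ih =>
      rw [pow_succ', ih, Finset.sum_mul]
      have e1 : ∀ x : G, MonoidAlgebra.single x (if IsConj z x then (1 : ZMod p) else 0)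
            * ∑ g : G, MonoidAlgebra.single g ((c k g : ℕ) : ZMod p)
          = ∑ h : G, MonoidAlgebra.single h ((if IsConj z x then (1 : ZMod p) else 0)
            * ((c k (x⁻¹ * h) : ℕ) : ZMod p)) := by
        intro x
        rw [Finset.mul_sum]
        refine Eq.trans ?_ (Equiv.sum_comp (Equiv.mulLeft x)
          (fun h => MonoidAlgebra.single h ((if IsConj z x then (1 : ZMod p) else 0)
            * ((c k (x⁻¹ * h) : ℕ) : ZMod p))))
        refine Finset.sum_congr rfl (fun g _ => ?_)
        show MonoidAlgebra.single x (if IsConj z x then (1 : ZMod p) else 0)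
            * MonoidAlgebra.single g ((c k g : ℕ) : ZMod p)
          = MonoidAlgebra.single (x * g) ((if IsConj z x then (1 : ZMod p) else 0)
            * ((c k (x⁻¹ * (x * g)) : ℕ) : ZMod p))
        rw [MonoidAlgebra.single_mul_single, inv_mul_cancel_left]
      refine (Finset.sum_congr rfl (fun x _ => e1 x)).trans ?_
      rw [Finset.sum_comm]
      refine Finset.sum_congr rfl (fun h _ => ?_)
      have e3 : ∀ x : G, (((if IsConj z x then 1 else 0) * c k (x⁻¹ * h) : ℕ) : ZMod p)
          = (if IsConj z x then (1 : ZMod p) else 0) * ((c k (x⁻¹ * h) : ℕ) : ZMod p) := by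
        intro x
        by_cases hx : IsConj z x
        · rw [if_pos hx, if_pos hx, one_mul, one_mul]
        · rw [if_neg hx, if_neg hx, zero_mul, zero_mul, Nat.cast_zero]
      have e4 : ((c (k + 1) h : ℕ) : ZMod p)
          = ∑ x : G, (if IsConj z x then (1 : ZMod p) else 0)
            * ((c k (x⁻¹ * h) : ℕ) : ZMod p) := by
        rw [hcs, Nat.cast_sum]
        exact Finset.sum_congr rfl (fun x _ => e3 x)
      rw [e4]
      exact (map_sum (MonoidAlgebra.singleAddHom h : ZMod p →+ MonoidAlgebra (ZMod p) G)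
        (fun x => (if IsConj z x then (1 : ZMod p) else 0)
          * ((c k (x⁻¹ * h) : ℕ) : ZMod p)) Finset.univ).symm
  have hP2 : ∀ g : G, p ∣ c m g := by
    intro g
    have h1 : (∑ h : G, MonoidAlgebra.single h ((c m h : ℕ) : ZMod p) :
        MonoidAlgebra (ZMod p) G) = 0 := by
      rw [← hP1 m]
      exact hm
    have h3 : (∑ h : G, MonoidAlgebra.single h ((c m h : ℕ) : ZMod p) :
        MonoidAlgebra (ZMod p) G).coeff g = ((c m g : ℕ) : ZMod p) := by
      rw [MonoidAlgebra.coeff_sum, Finsupp.finsetSum_apply, Finset.sum_eq_single g]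
      · rw [MonoidAlgebra.coeff_single, Finsupp.single_eq_same]
      · intro h _ hh
        rw [MonoidAlgebra.coeff_single, Finsupp.single_apply, if_neg hh]
      · intro h
        exact absurd (Finset.mem_univ _) h
    have h4 : ((c m g : ℕ) : ZMod p) = 0 := by
      rw [← h3, h1]
      rfl
    exact (CharP.cast_eq_zero_iff (ZMod p) p _).mp h4
  obtain ⟨c₁, hc₁⟩ : ∃ c₁ : G → ℂ, ∀ g, c₁ g = if IsConj z g then (1 : ℂ) else 0 :=
    ⟨_, fun _ => rfl⟩
  have hc₁cl : Cfsg.IsClassFunction G c₁ := by
    intro g h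
    rw [hc₁, hc₁]
    refine if_congr ?_ rfl rfl
    constructor
    · intro h1
      exact h1.trans (isConj_iff.mpr ⟨h⁻¹, by group⟩)
    · intro h1
      exact h1.trans (isConj_iff.mpr ⟨h, rfl⟩)
  have hc₁T : ∀ η : Cfsg.IrrCharacter G, ∑ g : G, c₁ g * (η : G → ℂ) g
      = Cfsg.centralChar (η : G → ℂ) z * (η : G → ℂ) 1 := by
    intro η
    exact class_transform_lead z c₁ (fun g hg => by rw [hc₁, if_pos hg.symm])
      (fun g hg => by rw [hc₁, if_neg (fun h => hg h.symm)]) η
  have hrec : ∀ k g, ((c (k + 1) g : ℕ) : ℂ)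
      = ∑ x : G, c₁ x * ((c k (x⁻¹ * g) : ℕ) : ℂ) := by
    intro k g
    rw [hcs, Nat.cast_sum]
    refine Finset.sum_congr rfl (fun x _ => ?_)
    rw [hc₁]
    by_cases hx : IsConj z x
    · rw [if_pos hx, if_pos hx, one_mul, one_mul]
    · rw [if_neg hx, if_neg hx, zero_mul, zero_mul, Nat.cast_zero]
  have hcl : ∀ k, Cfsg.IsClassFunction G (fun g => ((c k g : ℕ) : ℂ)) := by
    intro k
    induction k with
    | zero =>
      intro g h
      show ((c 0 (h * g * h⁻¹) : ℕ) : ℂ) = ((c 0 g : ℕ) : ℂ)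
      rw [hc0, hc0]
      congr 1
      exact if_congr conj_eq_one_iff rfl rfl
    | succ k ih =>
      have e : (fun g => ((c (k + 1) g : ℕ) : ℂ))
          = fun g => ∑ x : G, c₁ x * (fun g' => ((c k g' : ℕ) : ℂ)) (x⁻¹ * g) := by
        funext g
        exact hrec k g
      rw [e]
      exact conv_classFun_lead c₁ (fun g' => ((c k g' : ℕ) : ℂ)) hc₁cl ih
  have hT : ∀ k : ℕ, ∑ g : G, ((c k g : ℕ) : ℂ) * (η : G → ℂ) g
      = Cfsg.centralChar (η : G → ℂ) z ^ k * (η : G → ℂ) 1 := by
    intro k
    obtain ⟨d, hd0, hd⟩ := irr_one η.2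
    have hη1 : (η : G → ℂ) 1 ≠ 0 := by
      rw [hd]
      exact_mod_cast hd0
    induction k with
    | zero =>
      rw [pow_zero, one_mul, Finset.sum_eq_single (1 : G)]
      · rw [hc0, if_pos rfl, Nat.cast_one, one_mul]
      · intro g _ hg
        rw [hc0, if_neg hg, Nat.cast_zero, zero_mul]
      · intro h
        exact absurd (Finset.mem_univ _) h
    | succ k ih =>
      have h1 := conv_transform_lead c₁ (fun g' => ((c k g' : ℕ) : ℂ)) hc₁cl
        (η : G → ℂ) η.2
      have e0 : ∑ g : G, ((c (k + 1) g : ℕ) : ℂ) * (η : G → ℂ) g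
          = ∑ g : G, (∑ x : G, c₁ x * ((c k (x⁻¹ * g) : ℕ) : ℂ)) * (η : G → ℂ) g :=
        Finset.sum_congr rfl (fun g _ => by rw [hrec k g])
      have e : ∑ g : G, ((c (k + 1) g : ℕ) : ℂ) * (η : G → ℂ) g
          = (∑ x : G, c₁ x * (η : G → ℂ) x)
            * (∑ y : G, ((c k y : ℕ) : ℂ) * (η : G → ℂ) y) / (η : G → ℂ) 1 :=
        e0.trans h1
      rw [e, hc₁T η, ih, pow_succ, mul_div_assoc, mul_div_cancel_right₀ _ hη1]
      ring
  have hfin : Cfsg.MemLocalIdeal M (Cfsg.centralChar (η : G → ℂ) z ^ m) := by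
    refine transform_memLocalIdeal_lead hM (fun g => ((c m g : ℕ) : ℂ)) (hcl m) ?_ η _ (hT m)
    intro g
    obtain ⟨t, ht⟩ := hP2 g
    show Cfsg.MemLocalIdeal M (((c m g : ℕ) : ℂ))
    rw [ht, Nat.cast_mul, mul_comm]
    have h1 : Cfsg.MemLocalIdeal M ((p : ℂ)) :=
      memLocalIdeal_of_mem_lead hMtop (p : Cfsg.AlgInt) hpM
    exact memLocalIdeal_smul_lead (t : Cfsg.AlgInt) h1
  have hint := isIntegral_centralChar_lead η z
  have h2 : (⟨_, hint⟩ : Cfsg.AlgInt) ^ m ∈ M :=
    mem_of_memLocalIdeal_lead hM ((⟨_, hint⟩ : Cfsg.AlgInt) ^ m) hfin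
  have h3 : (⟨_, hint⟩ : Cfsg.AlgInt) ∈ M := hM.mem_of_pow_mem m h2
  exact memLocalIdeal_of_mem_lead hMtop _ h3

end nilp

end Cfsg.Agent.Lib.Lead
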