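import Mathlib
import Cfsg.Prelude.Def_Blocks
import Cfsg.Agent.Lib.Lead.BlockNilp

/-!
# Central idempotents and normal subgroups of `p`-power index

A central idempotent of the group algebra with coefficients in the local ring is supported on
every normal subgroup of `p`-power index.
-/

set_option autoImplicit false

namespace Cfsg.Agent.Lib.Lead

open scoped ComplexConjugate

universe u

/-- the transform of a class function in terms of central characters -/
theorem transform_formula_lead {G : Type u} [Group G] [Fintype G] [Fintype (ConjClasses G)]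
    (c : G → ℂ) (hc : Cfsg.IsClassFunction G c)
    (η : Cfsg.IrrCharacter G) (a : ℂ)
    (ha : ∑ g : G, c g * (η : G → ℂ) g = a * (η : G → ℂ) 1) :
    a = ∑ L : ConjClasses G,
      c (Quotient.out L) * Cfsg.centralChar (η : G → ℂ) (Quotient.out L) := by
  classical
  obtain ⟨d, hd0, hd⟩ := irr_one η.2
  have hη1 : (η : G → ℂ) 1 ≠ 0 := by
    rw [hd]
    exact_mod_cast hd0
  have hdec : ∀ g : G, c g = ∑ L : ConjClasses G,
      c (Quotient.out L) * (if IsConj g (Quotient.out L) then (1 : ℂ) else 0) := by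
    intro g
    rw [Finset.sum_eq_single (ConjClasses.mk g)]
    · have h1 : IsConj g (Quotient.out (ConjClasses.mk g)) := by
        have h2 : ConjClasses.mk (Quotient.out (ConjClasses.mk g)) = ConjClasses.mk g :=
          Quotient.out_eq _
        exact (ConjClasses.mk_eq_mk_iff_isConj.mp h2).symm
      rw [if_pos h1, mul_one]
      obtain ⟨t, ht⟩ := isConj_iff.mp h1
      rw [← ht]
      exact (hc g t).symm
    · intro L _ hL
      have h1 : ¬ IsConj g (Quotient.out L) := by
        intro h
        exact hL ((Quotient.out_eq L).symm.trans (ConjClasses.mk_eq_mk_iff_isConj.mpr h).symm)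
      rw [if_neg h1, mul_zero]
    · intro h
      exact absurd (Finset.mem_univ _) h
  have hsum : ∑ g : G, c g * (η : G → ℂ) g
      = (∑ L : ConjClasses G,
          c (Quotient.out L) * Cfsg.centralChar (η : G → ℂ) (Quotient.out L))
        * (η : G → ℂ) 1 := by
    calc ∑ g : G, c g * (η : G → ℂ) g
        = ∑ g : G, ∑ L : ConjClasses G, c (Quotient.out L)
            * ((if IsConj g (Quotient.out L) then (1 : ℂ) else 0) * (η : G → ℂ) g) := by
          refine Finset.sum_congr rfl (fun g _ => ?_)
          rw [hdec g, Finset.sum_mul]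
          exact Finset.sum_congr rfl (fun L _ => mul_assoc _ _ _)
      _ = ∑ L : ConjClasses G, c (Quotient.out L)
            * ∑ g : G, (if IsConj g (Quotient.out L) then (1 : ℂ) else 0) * (η : G → ℂ) g := by
          rw [Finset.sum_comm]
          refine Finset.sum_congr rfl (fun L _ => ?_)
          rw [Finset.mul_sum]
      _ = ∑ L : ConjClasses G, c (Quotient.out L)
            * (Cfsg.centralChar (η : G → ℂ) (Quotient.out L) * (η : G → ℂ) 1) := by
          refine Finset.sum_congr rfl (fun L _ => ?_)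
          have h := class_transform_lead (Quotient.out L)
            (fun g => if IsConj g (Quotient.out L) then (1 : ℂ) else 0)
            (fun g hg => if_pos hg) (fun g hg => if_neg hg) η
          exact congrArg (fun t => c (Quotient.out L) * t) h
      _ = _ := by
          rw [Finset.sum_mul]
          refine Finset.sum_congr rfl (fun L _ => ?_)
          rw [mul_assoc]
  exact mul_right_cancel₀ hη1 (ha.symm.trans hsum)

/-- a root of unity of `p`-power order is congruent to `1` modulo the local ideal -/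
theorem root_sub_one_memLocalIdeal_lead (p : ℕ) (hp : p.Prime) {M : Ideal Cfsg.AlgInt}
    (hM : M.IsPrime) (hpM : (p : Cfsg.AlgInt) ∈ M) (k : ℕ) (ζ : ℂ) (hζ : ζ ^ p ^ k = 1) :
    Cfsg.MemLocalIdeal M (ζ - 1) := by
  have hint : IsIntegral ℤ ζ := by
    refine IsIntegral.of_pow (pow_pos hp.pos k) ?_
    rw [hζ]
    exact isIntegral_one
  have h1 : (⟨ζ, hint⟩ : Cfsg.AlgInt) ^ p ^ k = 1 := Subtype.ext hζ
  obtain ⟨r, hr⟩ := sub_pow_prime_pow_lead p hp k (⟨ζ, hint⟩ : Cfsg.AlgInt) 1
  rw [h1, one_pow, sub_self, zero_add] at hr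
  have h2 : ((⟨ζ, hint⟩ : Cfsg.AlgInt) - 1) ^ p ^ k ∈ M := by
    rw [hr]
    exact M.mul_mem_right r hpM
  have h3 := hM.mem_of_pow_mem _ h2
  exact memLocalIdeal_of_mem_lead hM.ne_top _ h3

/-- a central idempotent with local coefficients vanishes outside every normal subgroup of
`p`-power index -/
theorem idem_support_lead (p : ℕ) (hp : p.Prime) {M : Ideal Cfsg.AlgInt} (hM : M.IsPrime)
    (hpM : (p : Cfsg.AlgInt) ∈ M) :
    ∀ (n : ℕ) (G : Type u) [Group G] [Fintype G] (N : Subgroup G) [N.Normal],
      N.index ≤ n → (∃ k : ℕ, N.index = p ^ k) →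
      ∀ c : G → ℂ, Cfsg.IsClassFunction G c → (∀ g, Cfsg.MemLocalRing M (c g)) →
      (∀ g, ∑ x : G, c x * c (x⁻¹ * g) = c g) → ∀ g : G, g ∉ N → c g = 0 := by
  haveI : Fact p.Prime := ⟨hp⟩
  have hMtop : M ≠ ⊤ := hM.ne_top
  have hone : ¬ Cfsg.MemLocalIdeal M (1 : ℂ) := by
    intro h
    have h1 : (1 : Cfsg.AlgInt) ∈ M := mem_of_memLocalIdeal_lead hM 1 h
    exact hMtop ((Ideal.eq_top_iff_one M).mpr h1)
  intro n
  induction n with
  | zero =>
    intro G _ _ N _ hle _ c _ _ _ g _
    exact absurd (Nat.le_zero.mp hle) Subgroup.index_ne_zero_of_finite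
  | succ n ih =>
    intro G _ _ N hNn hle hidx c hc hcR hidem g hg
    classical
    haveI : Fintype (Cfsg.IrrCharacter G) := Fintype.ofFinite _
    obtain ⟨k, hk⟩ := hidx
    haveI hnt : Nontrivial (G ⧸ N) :=
      ⟨⟨QuotientGroup.mk g, 1, fun h => hg ((QuotientGroup.eq_one_iff g).mp h)⟩⟩
    have hpg : IsPGroup p (G ⧸ N) := IsPGroup.of_card (by rw [← Subgroup.index_eq_card, hk])
    haveI := hpg.isNilpotent
    have hlt := Group.IsSolvable.commutator_lt_top_of_nontrivial (G ⧸ N)
    obtain ⟨f, hf⟩ : ∃ f : G →* Abelianization (G ⧸ N),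
        f = (Abelianization.of).comp (QuotientGroup.mk' N) := ⟨_, rfl⟩
    have hNf : N ≤ f.ker := by
      intro x hx
      rw [MonoidHom.mem_ker, hf]
      show Abelianization.of (QuotientGroup.mk x : G ⧸ N) = 1
      rw [(QuotientGroup.eq_one_iff x).mpr hx, map_one]
    obtain ⟨g₁, hg₁⟩ : ∃ g₁ : G, g₁ ∉ f.ker := by
      obtain ⟨y, -, hy⟩ := SetLike.exists_of_lt hlt
      obtain ⟨g₁, rfl⟩ := QuotientGroup.mk_surjective y
      refine ⟨g₁, fun h => hy ?_⟩
      rw [MonoidHom.mem_ker, hf] at h
      exact (QuotientGroup.eq_one_iff _).mp h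
    have hker : ∀ g₀ : G, g₀ ∉ f.ker → c g₀ = 0 := by
      intro g₀ hg₀
      have hfg : f g₀ ≠ 1 := fun h => hg₀ (MonoidHom.mem_ker.mpr h)
      haveI : Finite (Abelianization (G ⧸ N)) :=
        Finite.of_surjective (Abelianization.of : G ⧸ N → Abelianization (G ⧸ N))
          QuotientGroup.mk_surjective
      haveI : NeZero (Monoid.exponent (Abelianization (G ⧸ N))) :=
        ⟨Monoid.exponent_ne_zero_of_finite⟩
      obtain ⟨φ, hφ⟩ := CommGroup.exists_apply_ne_one_of_hasEnoughRootsOfUnity
        (Abelianization (G ⧸ N)) ℂ hfg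
      obtain ⟨lam, hlam⟩ : ∃ lam : G → ℂ, ∀ x, lam x = ((φ (f x) : ℂˣ) : ℂ) :=
        ⟨_, fun _ => rfl⟩
      have hlmul : ∀ x y : G, lam (x * y) = lam x * lam y := by
        intro x y
        rw [hlam, hlam, hlam, map_mul, map_mul, Units.val_mul]
      have hl1 : lam 1 = 1 := by
        rw [hlam, map_one, map_one, Units.val_one]
      have hlconj : ∀ x h : G, lam (h * x * h⁻¹) = lam x := by
        intro x h
        have e : lam h * lam h⁻¹ = 1 := by rw [← hlmul, mul_inv_cancel, hl1]
        rw [hlmul, hlmul, mul_comm (lam h) (lam x), mul_assoc, e, mul_one]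
      have hlpow : ∀ x : G, lam x ^ p ^ k = 1 := by
        intro x
        have h1 : f (x ^ p ^ k) = 1 := by
          apply MonoidHom.mem_ker.mp
          apply hNf
          rw [← hk]
          exact N.pow_index_mem x
        rw [hlam, ← Units.val_pow_eq_pow_val, ← map_pow, ← map_pow, h1, map_one, Units.val_one]
      have hlM : ∀ x : G, Cfsg.MemLocalIdeal M (lam x - 1) :=
        fun x => root_sub_one_memLocalIdeal_lead p hp hM hpM k (lam x) (hlpow x)
      have hlg : lam g₀ ≠ 1 := by
        rw [hlam]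
        intro h
        exact hφ (Units.val_eq_one.mp h)
      have hη1 : ∀ η : Cfsg.IrrCharacter G, (η : G → ℂ) 1 ≠ 0 := by
        intro η
        obtain ⟨d, hd0, hd⟩ := irr_one η.2
        rw [hd]
        exact_mod_cast hd0
      obtain ⟨a, ha⟩ : ∃ a : Cfsg.IrrCharacter G → ℂ, ∀ η,
          a η = (∑ x : G, c x * (η : G → ℂ) x) / (η : G → ℂ) 1 := ⟨_, fun _ => rfl⟩
      have haT : ∀ η : Cfsg.IrrCharacter G,
          ∑ x : G, c x * (η : G → ℂ) x = a η * (η : G → ℂ) 1 := by
        intro η
        rw [ha, div_mul_cancel₀ _ (hη1 η)]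
      obtain ⟨c', hc'⟩ : ∃ c' : G → ℂ, ∀ x, c' x = lam x * c x := ⟨_, fun _ => rfl⟩
      have hc'cl : Cfsg.IsClassFunction G c' := by
        intro x h
        rw [hc', hc', hlconj, hc x h]
      have hc'idem : ∀ y, ∑ x : G, c' x * c' (x⁻¹ * y) = c' y := by
        intro y
        rw [hc', ← hidem y, Finset.mul_sum]
        refine Finset.sum_congr rfl (fun x _ => ?_)
        have e : lam y = lam x * lam (x⁻¹ * y) := by rw [← hlmul, mul_inv_cancel_left]
        rw [hc', hc', e]
        ring
      obtain ⟨a', ha'⟩ : ∃ a' : Cfsg.IrrCharacter G → ℂ, ∀ η,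
          a' η = (∑ x : G, c' x * (η : G → ℂ) x) / (η : G → ℂ) 1 := ⟨_, fun _ => rfl⟩
      have ha'T : ∀ η : Cfsg.IrrCharacter G,
          ∑ x : G, c' x * (η : G → ℂ) x = a' η * (η : G → ℂ) 1 := by
        intro η
        rw [ha', div_mul_cancel₀ _ (hη1 η)]
      have h01 : ∀ (c₀ : G → ℂ) (a₀ : Cfsg.IrrCharacter G → ℂ), Cfsg.IsClassFunction G c₀ →
          (∀ y, ∑ x : G, c₀ x * c₀ (x⁻¹ * y) = c₀ y) →
          (∀ η : Cfsg.IrrCharacter G,
            ∑ x : G, c₀ x * (η : G → ℂ) x = a₀ η * (η : G → ℂ) 1) →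
          ∀ η : Cfsg.IrrCharacter G, a₀ η = 0 ∨ a₀ η = 1 := by
        intro c₀ a₀ hc₀ hid hT η
        have h1 := conv_transform_lead c₀ c₀ hc₀ (η : G → ℂ) η.2
        have h2 : ∑ y : G, (∑ x : G, c₀ x * c₀ (x⁻¹ * y)) * (η : G → ℂ) y
            = ∑ y : G, c₀ y * (η : G → ℂ) y :=
          Finset.sum_congr rfl (fun y _ => by rw [hid y])
        rw [h2, hT η] at h1
        have h3 : a₀ η * (η : G → ℂ) 1 * (a₀ η * (η : G → ℂ) 1) / (η : G → ℂ) 1
            = a₀ η * a₀ η * (η : G → ℂ) 1 := by
          rw [mul_div_assoc, mul_div_cancel_right₀ _ (hη1 η)]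
          ring
        rw [h3] at h1
        have h4 : a₀ η = a₀ η * a₀ η := mul_right_cancel₀ (hη1 η) h1
        have h5 : a₀ η * (a₀ η - 1) = 0 := by rw [mul_sub, mul_one, ← h4, sub_self]
        rcases mul_eq_zero.mp h5 with h | h
        · exact Or.inl h
        · exact Or.inr (sub_eq_zero.mp h)
      have hdiff : ∀ η : Cfsg.IrrCharacter G, Cfsg.MemLocalIdeal M (a' η - a η) := by
        intro η
        refine transform_memLocalIdeal_lead hM (fun x => c x * (lam x - 1)) ?_ ?_ η _ ?_
        · intro x h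
          show c (h * x * h⁻¹) * (lam (h * x * h⁻¹) - 1) = c x * (lam x - 1)
          rw [hlconj, hc x h]
        · intro x
          exact memLocalIdeal_mul_ring_lead hM (hcR x) (hlM x)
        · have e : ∑ x : G, c x * (lam x - 1) * (η : G → ℂ) x
              = ∑ x : G, c' x * (η : G → ℂ) x - ∑ x : G, c x * (η : G → ℂ) x := by
            rw [← Finset.sum_sub_distrib]
            refine Finset.sum_congr rfl (fun x _ => ?_)
            rw [hc']
            ring
          have e2 : ∑ x : G, c' x * (η : G → ℂ) x - ∑ x : G, c x * (η : G → ℂ) x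
              = (a' η - a η) * (η : G → ℂ) 1 := by
            rw [ha'T η, haT η, sub_mul]
          exact e.trans e2
      have haeq : ∀ η : Cfsg.IrrCharacter G, a' η = a η := by
        intro η
        have hd := hdiff η
        rcases h01 c a hc hidem haT η with h0 | h1
        · rcases h01 c' a' hc'cl hc'idem ha'T η with h0' | h1'
          · rw [h0, h0']
          · exfalso
            rw [h0, h1', sub_zero] at hd
            exact hone hd
        · rcases h01 c' a' hc'cl hc'idem ha'T η with h0' | h1'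
          · exfalso
            rw [h1, h0', zero_sub] at hd
            have hd' := memLocalIdeal_neg_lead hd
            rw [neg_neg] at hd'
            exact hone hd'
          · rw [h1, h1']
      have hcc : c' g₀ = c g₀ := by
        rw [specT_unique_lead c' hc'cl a' ha'T g₀, specT_unique_lead c hc a haT g₀]
        congr 1
        refine Finset.sum_congr rfl (fun φ' _ => ?_)
        rw [haeq φ']
      rw [hc'] at hcc
      have h0 : (lam g₀ - 1) * c g₀ = 0 := by rw [sub_mul, one_mul, hcc, sub_self]
      rcases mul_eq_zero.mp h0 with h | h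
      · exact absurd (sub_eq_zero.mp h) hlg
      · exact h
    obtain ⟨N₁, hN₁⟩ : ∃ N₁ : Subgroup G, N₁ = f.ker := ⟨_, rfl⟩
    haveI hN₁n : N₁.Normal := by
      rw [hN₁]
      exact MonoidHom.normal_ker f
    rw [← hN₁] at hNf hg₁ hker
    by_cases hgN₁ : g ∈ N₁
    · haveI : Fintype N₁ := Fintype.ofFinite _
      haveI hN'n : (N.subgroupOf N₁).Normal := Subgroup.Normal.subgroupOf hNn N₁
      have hrel : (N.subgroupOf N₁).index * N₁.index = N.index :=
        Subgroup.relIndex_mul_index hNf
      have hN₁i : 2 ≤ N₁.index := by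
        have h0 : N₁.index ≠ 0 := Subgroup.index_ne_zero_of_finite
        have h1 : N₁.index ≠ 1 := by
          intro h
          rw [Subgroup.index_eq_one] at h
          exact hg₁ (h ▸ Subgroup.mem_top g₁)
        omega
      have hle' : (N.subgroupOf N₁).index ≤ n := by
        have h2 : (N.subgroupOf N₁).index * 2 ≤ (N.subgroupOf N₁).index * N₁.index :=
          Nat.mul_le_mul_left _ hN₁i
        omega
      have hidx' : ∃ j : ℕ, (N.subgroupOf N₁).index = p ^ j := by
        have hdvd : (N.subgroupOf N₁).index ∣ p ^ k := by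
          rw [← hk, ← hrel]
          exact dvd_mul_right _ _
        obtain ⟨j, -, hj⟩ := (Nat.dvd_prime_pow hp).mp hdvd
        exact ⟨j, hj⟩
      have hres := ih (↥N₁) (N.subgroupOf N₁) hle' hidx' (fun y : N₁ => c (y : G))
        (fun y h => hc (y : G) (h : G))
        (fun y => hcR (y : G))
        (fun y => by
          show ∑ x : N₁, c (x : G) * c ((x⁻¹ * y : N₁) : G) = c (y : G)
          have h1 := hidem (y : G)
          rw [← h1]
          have h2 : ∑ x : N₁, c (x : G) * c ((x⁻¹ * y : N₁) : G)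
              = ∑ x ∈ Finset.univ.filter (fun x : G => x ∈ N₁), c x * c (x⁻¹ * (y : G)) :=
            (Finset.sum_subtype (Finset.univ.filter (fun x : G => x ∈ N₁))
              (fun x => by simp) (fun x => c x * c (x⁻¹ * (y : G)))).symm
          rw [h2]
          apply Finset.sum_filter_of_ne
          intro x _ hx
          by_contra hxN
          apply hx
          rw [hker x hxN, zero_mul])
        ⟨g, hgN₁⟩ (fun h => hg (Subgroup.mem_subgroupOf.mp h))
      exact hres
    · exact hker g hgN₁

end Cfsg.Agent.Lib.Lead
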