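import Mathlib
import Cfsg.Prelude.Def_Blocks
import Cfsg.Agent.Lib.Lead.BlockPQuot

/-!
# Central idempotents vanish on the `p`-singular elements

A central idempotent of the group algebra with coefficients in the local ring vanishes at every
element of order divisible by `p`.  The regular representation is twisted by a diagonal matrix
of `p`-th roots of unity; the twisted idempotent is congruent to the original one, hence
conjugate to it by a matrix commuting with the translation by the element.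
-/

set_option autoImplicit false

namespace Cfsg.Agent.Lib.Lead

open scoped ComplexConjugate

universe u

/-- a matrix congruent to `1` modulo the local ideal is invertible -/
theorem det_ne_zero_of_congr_one_lead {M : Ideal Cfsg.AlgInt} (hM : M.IsPrime)
    {n : Type*} [Fintype n] [DecidableEq n] (U : Matrix n n ℂ)
    (hoff : ∀ i j, i ≠ j → Cfsg.MemLocalIdeal M (U i j))
    (hdiag : ∀ i, Cfsg.MemLocalIdeal M (U i i - 1)) : U.det ≠ 0 := by
  classical
  have hMtop : M ≠ ⊤ := hM.ne_top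
  have hone : ¬ Cfsg.MemLocalIdeal M (1 : ℂ) := by
    intro h
    have h1 : (1 : Cfsg.AlgInt) ∈ M := mem_of_memLocalIdeal_lead hM 1 h
    exact hMtop ((Ideal.eq_top_iff_one M).mpr h1)
  have hR : ∀ i j, Cfsg.MemLocalRing M (U i j) := by
    intro i j
    by_cases hij : i = j
    · subst hij
      have h := memLocalRing_add_lead hM (memLocalRing_of_ideal_lead (hdiag i))
        (memLocalRing_one_lead hMtop)
      rw [sub_add_cancel] at h
      exact h
    · exact memLocalRing_of_ideal_lead (hoff i j hij)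
  have hsgn : ∀ σ : Equiv.Perm n, Cfsg.MemLocalRing M (((Equiv.Perm.sign σ : ℤ) : ℂ)) := by
    intro σ
    rcases Int.units_eq_one_or (Equiv.Perm.sign σ) with h | h
    · rw [h]
      simpa using memLocalRing_one_lead (M := M) hMtop
    · rw [h]
      simpa using memLocalRing_neg_lead (memLocalRing_one_lead (M := M) hMtop)
  have hterm : ∀ σ : Equiv.Perm n, σ ≠ 1 → Cfsg.MemLocalIdeal M
      (((Equiv.Perm.sign σ : ℤ) : ℂ) * ∏ i, U (σ i) i) := by
    intro σ hσ
    obtain ⟨i, hi⟩ : ∃ i, σ i ≠ i := by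
      by_contra hcon
      push_neg at hcon
      exact hσ (Equiv.ext hcon)
    have hprod : ∏ j, U (σ j) j = U (σ i) i * ∏ j ∈ Finset.univ.erase i, U (σ j) j :=
      (Finset.mul_prod_erase Finset.univ (fun j => U (σ j) j) (Finset.mem_univ i)).symm
    rw [hprod]
    have h1 : Cfsg.MemLocalRing M (∏ j ∈ Finset.univ.erase i, U (σ j) j) :=
      Finset.prod_induction _ (fun z => Cfsg.MemLocalRing M z)
        (fun a b ha hb => memLocalRing_mul_lead hM ha hb) (memLocalRing_one_lead hMtop)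
        (fun j _ => hR (σ j) j)
    have h3 := memLocalIdeal_mul_ring_lead hM h1 (hoff (σ i) i hi)
    have h4 := memLocalIdeal_mul_ring_lead hM (hsgn σ) h3
    have e : ((Equiv.Perm.sign σ : ℤ) : ℂ) *
        (U (σ i) i * ∏ j ∈ Finset.univ.erase i, U (σ j) j) =
        ((Equiv.Perm.sign σ : ℤ) : ℂ) *
          ((∏ j ∈ Finset.univ.erase i, U (σ j) j) * U (σ i) i) := by
      ring
    rw [e]
    exact h4
  have hsplit : ((Equiv.Perm.sign (1 : Equiv.Perm n) : ℤ) : ℂ) *
      ∏ i, U ((1 : Equiv.Perm n) i) i +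
      ∑ σ ∈ Finset.univ.erase (1 : Equiv.Perm n),
        ((Equiv.Perm.sign σ : ℤ) : ℂ) * ∏ i, U (σ i) i = U.det := by
    rw [Matrix.det_apply' U]
    exact Finset.add_sum_erase Finset.univ
      (fun σ : Equiv.Perm n => ((Equiv.Perm.sign σ : ℤ) : ℂ) * ∏ i, U (σ i) i)
      (Finset.mem_univ _)
  have hfirst : ((Equiv.Perm.sign (1 : Equiv.Perm n) : ℤ) : ℂ) *
      ∏ i, U ((1 : Equiv.Perm n) i) i = ∏ i, U i i := by
    simp
  have h1 : Cfsg.MemLocalIdeal M (∏ i, U i i - 1) :=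
    memLocalIdeal_prod_sub_one_lead hM Finset.univ (fun i => U i i) (fun i _ => hdiag i)
  have h2 : Cfsg.MemLocalIdeal M (∑ σ ∈ Finset.univ.erase (1 : Equiv.Perm n),
      ((Equiv.Perm.sign σ : ℤ) : ℂ) * ∏ i, U (σ i) i) :=
    memLocalIdeal_sum_lead hM _ _ (fun σ hσ => hterm σ (Finset.ne_of_mem_erase hσ))
  have h3 := memLocalIdeal_add_lead hM h1 h2
  intro h0
  rw [← hsplit, hfirst] at h0
  have e : ∏ i, U i i - 1 + ∑ σ ∈ Finset.univ.erase (1 : Equiv.Perm n),
      ((Equiv.Perm.sign σ : ℤ) : ℂ) * ∏ i, U (σ i) i = -1 := by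
    rw [sub_add_eq_add_sub, h0, zero_sub]
  rw [e] at h3
  have h4 := memLocalIdeal_neg_lead h3
  rw [neg_neg] at h4
  exact hone h4

/-- **Osima**: a central idempotent with local coefficients vanishes on the `p`-singular
elements -/
theorem idem_psingular_lead (p : ℕ) (hp : p.Prime) {M : Ideal Cfsg.AlgInt} (hM : M.IsPrime)
    (hpM : (p : Cfsg.AlgInt) ∈ M) {G : Type u} [Group G] [Fintype G] (c : G → ℂ)
    (hc : Cfsg.IsClassFunction G c) (hcR : ∀ g, Cfsg.MemLocalRing M (c g))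
    (hidem : ∀ g, ∑ x : G, c x * c (x⁻¹ * g) = c g) (y : G) (hy : p ∣ orderOf y) :
    c y = 0 := by
  classical
  have hMtop : M ≠ ⊤ := hM.ne_top
  obtain ⟨ζ, hζprim⟩ : ∃ ζ : ℂ, IsPrimitiveRoot ζ p :=
    ⟨_, Complex.isPrimitiveRoot_exp p hp.ne_zero⟩
  have hζp : ζ ^ p = 1 := hζprim.pow_eq_one
  have hζ1 : ζ ≠ 1 := hζprim.ne_one hp.one_lt
  have hζ0 : ζ ≠ 0 := hζprim.ne_zero hp.ne_zero
  have hζo : ζ ^ (orderOf y : ℤ) = 1 := by
    obtain ⟨m, hm⟩ := hy
    rw [zpow_natCast, hm, pow_mul, hζp, one_pow]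
  have hζz : ∀ j : ℤ, Cfsg.MemLocalIdeal M (ζ ^ j - 1) := by
    intro j
    apply root_sub_one_memLocalIdeal_lead p hp hM hpM 1
    rw [pow_one, ← zpow_natCast, ← zpow_mul, mul_comm, zpow_mul, zpow_natCast, hζp, one_zpow]
  -- the twisting function
  have hex : ∀ g : G, ∃ i : ℤ,
      Quotient.out (QuotientGroup.mk g : G ⧸ Subgroup.zpowers y) = g * y ^ i := by
    intro g
    obtain ⟨h, hh⟩ := QuotientGroup.mk_out_eq_mul (Subgroup.zpowers y) g
    obtain ⟨i, hi⟩ := Subgroup.mem_zpowers_iff.mp h.2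
    exact ⟨i, by rw [hh, ← hi]⟩
  choose ι hι using hex
  have hιy : ∀ g : G, ζ ^ (-ι (g * y)) = ζ * ζ ^ (-ι g) := by
    intro g
    have hmk : (QuotientGroup.mk (g * y) : G ⧸ Subgroup.zpowers y) = QuotientGroup.mk g := by
      rw [QuotientGroup.eq]
      have e : (g * y)⁻¹ * g = y⁻¹ := by group
      rw [e]
      exact (Subgroup.zpowers y).inv_mem (Subgroup.mem_zpowers y)
    have h1 := hι (g * y)
    rw [hmk, hι g] at h1
    have h2 : y ^ ι g = y ^ (1 + ι (g * y)) := by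
      rw [zpow_add, zpow_one]
      have h3 : g * y ^ ι g = g * (y * y ^ ι (g * y)) := by rw [h1, mul_assoc]
      exact mul_left_cancel h3
    obtain ⟨t, ht⟩ := (zpow_eq_zpow_iff_modEq.mp h2).dvd
    have e : -ι (g * y) = 1 + -ι g + (orderOf y : ℤ) * (-t) := by
      rw [mul_neg, ← ht]
      ring
    rw [e, zpow_add₀ hζ0, zpow_add₀ hζ0, zpow_one, zpow_mul, hζo, one_zpow, mul_one]
  obtain ⟨μ, ν, hμν, hμy, hνy, hμm⟩ : ∃ μ ν : G → ℂ, (∀ g, μ g * ν g = 1) ∧
      (∀ g, μ (g * y) = ζ * μ g) ∧ (∀ h, ν (h * y⁻¹) = ζ * ν h) ∧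
      (∀ g h, Cfsg.MemLocalIdeal M (μ g * ν h - 1)) := by
    refine ⟨fun g => ζ ^ (-ι g), fun g => ζ ^ (ι g), ?_, ?_, ?_, ?_⟩
    · intro g
      show ζ ^ (-ι g) * ζ ^ (ι g) = 1
      rw [← zpow_add₀ hζ0, neg_add_cancel, zpow_zero]
    · exact hιy
    · intro h
      show ζ ^ (ι (h * y⁻¹)) = ζ * ζ ^ (ι h)
      have h1 := hιy (h * y⁻¹)
      rw [inv_mul_cancel_right] at h1
      have ha : ζ ^ (ι h) * ζ ^ (-ι h) = 1 := by
        rw [← zpow_add₀ hζ0, add_neg_cancel, zpow_zero]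
      have hb : ζ ^ (ι (h * y⁻¹)) * ζ ^ (-ι (h * y⁻¹)) = 1 := by
        rw [← zpow_add₀ hζ0, add_neg_cancel, zpow_zero]
      calc ζ ^ (ι (h * y⁻¹)) = ζ ^ (ι (h * y⁻¹)) * (ζ ^ (ι h) * ζ ^ (-ι h)) := by
            rw [ha, mul_one]
        _ = ζ ^ (ι (h * y⁻¹)) * (ζ ^ (ι h) * (ζ * ζ ^ (-ι (h * y⁻¹)))) := by rw [h1]
        _ = ζ * ζ ^ (ι h) * (ζ ^ (ι (h * y⁻¹)) * ζ ^ (-ι (h * y⁻¹))) := by
            generalize ζ ^ (ι (h * y⁻¹)) = b
            generalize ζ ^ (-ι (h * y⁻¹)) = b'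
            generalize ζ ^ (ι h) = a
            ring
        _ = ζ * ζ ^ (ι h) := by rw [hb, mul_one]
    · intro g h
      show Cfsg.MemLocalIdeal M (ζ ^ (-ι g) * ζ ^ (ι h) - 1)
      rw [← zpow_add₀ hζ0]
      exact hζz _
  -- the matrices
  obtain ⟨E, hE⟩ : ∃ E : Matrix G G ℂ, ∀ g h, E g h = c (g * h⁻¹) :=
    ⟨fun g h => c (g * h⁻¹), fun _ _ => rfl⟩
  obtain ⟨E', hE'⟩ : ∃ E' : Matrix G G ℂ, ∀ g h, E' g h = μ g * c (g * h⁻¹) * ν h :=
    ⟨fun g h => μ g * c (g * h⁻¹) * ν h, fun _ _ => rfl⟩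
  obtain ⟨Y, hY⟩ : ∃ Y : Matrix G G ℂ, ∀ g h, Y g h = if h = g * y then 1 else 0 :=
    ⟨fun g h => if h = g * y then 1 else 0, fun _ _ => rfl⟩
  have hYl : ∀ (A : Matrix G G ℂ) (g h : G), (Y * A) g h = A (g * y) h := by
    intro A g h
    rw [Matrix.mul_apply]
    simp only [hY, ite_mul, one_mul, zero_mul, Finset.sum_ite_eq', Finset.mem_univ, if_true]
  have hYr : ∀ (A : Matrix G G ℂ) (g h : G), (A * Y) g h = A g (h * y⁻¹) := by
    intro A g h
    rw [Matrix.mul_apply]
    have e : ∀ k : G, Y k h = if k = h * y⁻¹ then 1 else 0 := by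
      intro k
      rw [hY]
      by_cases hk : h = k * y
      · have hk' : k = h * y⁻¹ := by
          rw [hk]
          group
        rw [if_pos hk, if_pos hk']
      · have hk' : ¬ k = h * y⁻¹ := by
          rintro rfl
          exact hk (by group)
        rw [if_neg hk, if_neg hk']
    simp only [e, mul_ite, mul_one, mul_zero, Finset.sum_ite_eq', Finset.mem_univ, if_true]
  have hEE : E * E = E := by
    ext g h
    rw [Matrix.mul_apply, hE g h, ← hidem (g * h⁻¹)]
    symm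
    refine Fintype.sum_equiv ((Equiv.inv G).trans (Equiv.mulRight g)) _ _ ?_
    intro x
    show c x * c (x⁻¹ * (g * h⁻¹)) = E g (x⁻¹ * g) * E (x⁻¹ * g) h
    rw [hE, hE]
    have e1 : g * (x⁻¹ * g)⁻¹ = x := by group
    rw [e1, mul_assoc]
  have hE'E' : E' * E' = E' := by
    ext g h
    rw [Matrix.mul_apply, hE' g h]
    have e : ∀ k : G, E' g k * E' k h = μ g * (E g k * E k h) * ν h := by
      intro k
      rw [hE', hE', hE, hE]
      calc μ g * c (g * k⁻¹) * ν k * (μ k * c (k * h⁻¹) * ν h)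
          = μ g * (c (g * k⁻¹) * c (k * h⁻¹)) * ν h * (μ k * ν k) := by ring
        _ = μ g * (c (g * k⁻¹) * c (k * h⁻¹)) * ν h := by rw [hμν, mul_one]
    rw [Finset.sum_congr rfl (fun k _ => e k), ← Finset.sum_mul, ← Finset.mul_sum,
      ← Matrix.mul_apply, hEE, hE]
  have hEY : E * Y = Y * E := by
    ext g h
    rw [hYr, hYl, hE, hE]
    congr 1
    group
  have hE'Y : E' * Y = Y * E' := by
    ext g h
    rw [hYr, hYl, hE', hE', hμy, hνy]
    have e1 : g * (h * y⁻¹)⁻¹ = g * y * h⁻¹ := by group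
    rw [e1]
    ring
  have hEYc : Commute E Y := hEY
  have hE'Yc : Commute E' Y := hE'Y
  -- the traces
  have htrE : Matrix.trace (Y * E) = (Fintype.card G : ℂ) * c y := by
    show ∑ g : G, (Y * E) g g = _
    rw [Finset.sum_congr rfl (fun g _ => (hYl E g g).trans ((hE (g * y) g).trans (hc y g))),
      Finset.sum_const, Finset.card_univ, nsmul_eq_mul]
  have htrE' : Matrix.trace (Y * E') = ζ * ((Fintype.card G : ℂ) * c y) := by
    have e : ∀ g : G, (Y * E') g g = ζ * c y := by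
      intro g
      rw [hYl, hE', hμy, hc y g]
      calc ζ * μ g * c y * ν g = ζ * c y * (μ g * ν g) := by ring
        _ = ζ * c y := by rw [hμν, mul_one]
    show ∑ g : G, (Y * E') g g = _
    rw [Finset.sum_congr rfl (fun g _ => e g), Finset.sum_const, Finset.card_univ,
      nsmul_eq_mul]
    ring
  -- the conjugating matrix
  obtain ⟨U, hU⟩ : ∃ U : Matrix G G ℂ, U = E * E' + (1 - E) * (1 - E') := ⟨_, rfl⟩
  have h1 : E * (1 - E) = 0 := by rw [mul_sub, mul_one, hEE, sub_self]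
  have h2 : (1 - E') * E' = 0 := by rw [sub_mul, one_mul, hE'E', sub_self]
  have hEU : E * U = E * E' := by
    rw [hU, mul_add, ← mul_assoc E E E', hEE, ← mul_assoc E (1 - E) (1 - E'), h1, zero_mul,
      add_zero]
  have hUE' : U * E' = E * E' := by
    rw [hU, add_mul, mul_assoc E E' E', hE'E', mul_assoc (1 - E) (1 - E') E', h2, mul_zero,
      add_zero]
  have hUY : U * Y = Y * U := by
    rw [hU]
    exact ((hEYc.mul_left hE'Yc).add_left
      (((Commute.one_left Y).sub_left hEYc).mul_left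
        ((Commute.one_left Y).sub_left hE'Yc))).eq
  have hUW : U = 1 + (E + E - 1) * (E' - E) := by
    rw [hU]
    simp only [sub_mul, mul_sub, add_mul, one_mul, mul_one, hEE]
    abel
  have hT : ∀ g h, Cfsg.MemLocalIdeal M ((E' - E) g h) := by
    intro g h
    rw [Matrix.sub_apply, hE', hE]
    have e : μ g * c (g * h⁻¹) * ν h - c (g * h⁻¹) = c (g * h⁻¹) * (μ g * ν h - 1) := by ring
    rw [e]
    exact memLocalIdeal_mul_ring_lead hM (hcR _) (hμm g h)
  have hS : ∀ g h, Cfsg.MemLocalRing M ((E + E - 1) g h) := by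
    intro g h
    rw [Matrix.sub_apply, Matrix.add_apply, hE, Matrix.one_apply]
    apply memLocalRing_sub_lead hM (memLocalRing_add_lead hM (hcR _) (hcR _))
    split_ifs
    · exact memLocalRing_one_lead hMtop
    · exact memLocalRing_zero_lead hMtop
  have hW : ∀ g h, Cfsg.MemLocalIdeal M (((E + E - 1) * (E' - E)) g h) := by
    intro g h
    rw [Matrix.mul_apply]
    exact memLocalIdeal_sum_lead hM _ _
      (fun k _ => memLocalIdeal_mul_ring_lead hM (hS g k) (hT k h))
  have hdet : U.det ≠ 0 := by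
    apply det_ne_zero_of_congr_one_lead hM
    · intro g h hgh
      rw [hUW, Matrix.add_apply, Matrix.one_apply_ne hgh, zero_add]
      exact hW g h
    · intro g
      rw [hUW, Matrix.add_apply, Matrix.one_apply_eq, add_sub_cancel_left]
      exact hW g g
  have hU1 : IsUnit U.det := isUnit_iff_ne_zero.mpr hdet
  have hinv1 : U⁻¹ * U = 1 := Matrix.nonsing_inv_mul U hU1
  have hinv2 : U * U⁻¹ = 1 := Matrix.mul_nonsing_inv U hU1
  have htr : Matrix.trace (Y * E') = Matrix.trace (Y * E) := by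
    have e1 : Y * E' = Y * U⁻¹ * E * U := by
      calc Y * E' = Y * (U⁻¹ * U) * E' := by rw [hinv1, mul_one]
        _ = Y * U⁻¹ * (U * E') := by simp only [mul_assoc]
        _ = Y * U⁻¹ * (E * U) := by rw [hUE', ← hEU]
        _ = Y * U⁻¹ * E * U := by simp only [mul_assoc]
    have e2 : U * (Y * U⁻¹ * E) = Y * E := by
      calc U * (Y * U⁻¹ * E) = U * Y * U⁻¹ * E := by simp only [mul_assoc]
        _ = Y * U * U⁻¹ * E := by rw [hUY]
        _ = Y * (U * U⁻¹) * E := by simp only [mul_assoc]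
        _ = Y * E := by rw [hinv2, mul_one]
    rw [e1, Matrix.trace_mul_comm (Y * U⁻¹ * E) U, e2]
  rw [htrE', htrE] at htr
  have hG0 : (Fintype.card G : ℂ) ≠ 0 := by exact_mod_cast Fintype.card_ne_zero
  have h3 : (ζ - 1) * ((Fintype.card G : ℂ) * c y) = 0 := by
    rw [sub_mul, one_mul, htr, sub_self]
  rcases mul_eq_zero.mp h3 with h | h
  · exact absurd (sub_eq_zero.mp h) hζ1
  · rcases mul_eq_zero.mp h with h' | h'
    · exact absurd h' hG0
    · exact h'

end Cfsg.Agent.Lib.Lead
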