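import Mathlib
import Cfsg.Prelude.Def_Blocks
import Cfsg.Agent.Lib.Lead.BlockOsimaSupp

/-!
# Weak block orthogonality

A central idempotent `e` of the group algebra with coefficients in the local ring satisfies
`∑ g, e (x * g * y * g⁻¹) = 0` for `x` of order prime to `p` and `y` of order divisible by `p`:
this is the trace of `(x, y)` on the bimodule generated by `e`, which is computed by twisting
the regular bimodule along the orbits of `g ↦ x * g * y`.
-/

set_option autoImplicit false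

namespace Cfsg.Agent.Lib.Lead

open scoped ComplexConjugate

universe u

/-- the classical formula `∑ g, φ (x g y g⁻¹) = |G| φ(x) φ(y) / φ(1)` -/
theorem sum_char_conj_mul_lead {G : Type u} [Group G] [Fintype G] (φ : G → ℂ)
    (hφ : Cfsg.IsIrrCharacter G φ) (x y : G) :
    ∑ g : G, φ (x * g * y * g⁻¹) = (Nat.card G : ℂ) * φ x * φ y / φ 1 := by
  classical
  have hcl := isClassFunction_of_irr hφ
  obtain ⟨cy, hcy⟩ : ∃ cy : G → ℂ, ∀ z, cy z = ∑ g : G, if g * y * g⁻¹ = z then 1 else 0 :=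
    ⟨fun z => ∑ g : G, if g * y * g⁻¹ = z then 1 else 0, fun _ => rfl⟩
  have hcycl : Cfsg.IsClassFunction G cy := by
    intro z h
    rw [hcy, hcy]
    symm
    refine Fintype.sum_equiv (Equiv.mulLeft h) _ _ ?_
    intro g
    show (if g * y * g⁻¹ = z then (1 : ℂ) else 0) =
      if h * g * y * (h * g)⁻¹ = h * z * h⁻¹ then 1 else 0
    have hiff : g * y * g⁻¹ = z ↔ h * g * y * (h * g)⁻¹ = h * z * h⁻¹ := by
      constructor
      · intro e
        rw [← e]
        group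
      · intro e
        have e' : h * (g * y * g⁻¹) * h⁻¹ = h * z * h⁻¹ := by
          rw [← e]
          group
        exact mul_left_cancel (mul_right_cancel e')
    exact if_congr hiff rfl rfl
  have hsum : ∀ F : G → ℂ, ∑ z : G, cy z * F z = ∑ g : G, F (g * y * g⁻¹) := by
    intro F
    simp only [hcy, Finset.sum_mul, ite_mul, one_mul, zero_mul]
    rw [Finset.sum_comm]
    simp only [Finset.sum_ite_eq, Finset.mem_univ, if_true]
  have h1 : ∑ g : G, φ (x * g * y * g⁻¹) = ∑ z : G, cy z * φ (z * x) := by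
    rw [hsum (fun z => φ (z * x))]
    apply Finset.sum_congr rfl
    intro g _
    show φ (x * g * y * g⁻¹) = φ (g * y * g⁻¹ * x)
    have e1 : x * g * y * g⁻¹ = x * (g * y * g⁻¹ * x) * x⁻¹ := by group
    rw [e1, hcl]
  have h2 := sum_mul_char_shift_lead cy hcycl φ hφ x
  have h3 : ∑ z : G, cy z * φ z = (Nat.card G : ℂ) * φ y := by
    rw [hsum φ, Finset.sum_congr rfl (fun g _ => hcl y g), Finset.sum_const, Finset.card_univ,
      nsmul_eq_mul, Nat.card_eq_fintype_card]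
  rw [h1, h2, h3]
  ring

/-- the trace of `(x, y)` on the bimodule of a central idempotent with local coefficients
vanishes for `x` of order prime to `p` and `y` of order divisible by `p` -/
theorem idem_twist_lead (p : ℕ) (hp : p.Prime) {M : Ideal Cfsg.AlgInt} (hM : M.IsPrime)
    (hpM : (p : Cfsg.AlgInt) ∈ M) {G : Type u} [Group G] [Fintype G] (c : G → ℂ)
    (hc : Cfsg.IsClassFunction G c) (hcR : ∀ g, Cfsg.MemLocalRing M (c g))
    (hidem : ∀ g, ∑ x : G, c x * c (x⁻¹ * g) = c g) (x y : G) (hx : ¬ p ∣ orderOf x)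
    (hy : p ∣ orderOf y) : ∑ g : G, c (x * g * y * g⁻¹) = 0 := by
  classical
  have hMtop : M ≠ ⊤ := hM.ne_top
  obtain ⟨ζ, hζprim⟩ : ∃ ζ : ℂ, IsPrimitiveRoot ζ p :=
    ⟨_, Complex.isPrimitiveRoot_exp p hp.ne_zero⟩
  have hζp : ζ ^ p = 1 := hζprim.pow_eq_one
  have hζ1 : ζ ≠ 1 := hζprim.ne_one hp.one_lt
  have hζ0 : ζ ≠ 0 := hζprim.ne_zero hp.ne_zero
  have hζz : ∀ j : ℤ, Cfsg.MemLocalIdeal M (ζ ^ j - 1) := by
    intro j
    apply root_sub_one_memLocalIdeal_lead p hp hM hpM 1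
    rw [pow_one, ← zpow_natCast, ← zpow_mul, mul_comm, zpow_mul, zpow_natCast, hζp, one_zpow]
  -- the key property of fixed points
  have hkey : ∀ (k : ℤ) (r : G), x ^ k * r * y ^ k = r → ζ ^ k = 1 := by
    intro k r h
    have h1 : y ^ k = r⁻¹ * (x ^ k)⁻¹ * r := by
      have e0 : y ^ k = (x ^ k * r)⁻¹ * r := by
        rw [eq_inv_mul_iff_mul_eq]
        exact h
      rw [e0, mul_inv_rev]
    have h2 : y ^ (k * (orderOf x : ℤ)) = 1 := by
      rw [zpow_mul, zpow_natCast, h1]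
      have e : (r⁻¹ * (x ^ k)⁻¹ * r) ^ orderOf x = r⁻¹ * ((x ^ k)⁻¹) ^ orderOf x * r := by
        have e' := conj_pow (a := r⁻¹) (b := (x ^ k)⁻¹) (i := orderOf x)
        rw [inv_inv] at e'
        exact e'
      rw [e, inv_pow, ← zpow_natCast (x ^ k), ← zpow_mul, mul_comm k (orderOf x : ℤ), zpow_mul,
        zpow_natCast, pow_orderOf_eq_one, one_zpow, inv_one, mul_one, inv_mul_cancel]
    have h3 : (orderOf y : ℤ) ∣ k * (orderOf x : ℤ) := orderOf_dvd_iff_zpow_eq_one.mpr h2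
    have h4 : (p : ℤ) ∣ k * (orderOf x : ℤ) := dvd_trans (Int.natCast_dvd_natCast.mpr hy) h3
    rcases (Nat.prime_iff_prime_int.mp hp).dvd_or_dvd h4 with h5 | h5
    · obtain ⟨t, ht⟩ := h5
      rw [ht, zpow_mul, zpow_natCast, hζp, one_zpow]
    · exact absurd (Int.natCast_dvd_natCast.mp h5) hx
  -- orbit representatives
  obtain ⟨s, hs⟩ : ∃ s : Setoid G, ∀ g h, s.r g h ↔ ∃ i : ℤ, h = x ^ i * g * y ^ i := by
    refine ⟨⟨fun g h => ∃ i : ℤ, h = x ^ i * g * y ^ i, ⟨?_, ?_, ?_⟩⟩, fun _ _ => Iff.rfl⟩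
    · intro g
      exact ⟨0, by rw [zpow_zero, zpow_zero, one_mul, mul_one]⟩
    · rintro g h ⟨i, hi⟩
      refine ⟨-i, ?_⟩
      rw [hi, zpow_neg, zpow_neg]
      simp only [mul_assoc, inv_mul_cancel_left, mul_inv_cancel, mul_one]
    · rintro g h k ⟨i, hi⟩ ⟨j, hj⟩
      refine ⟨i + j, ?_⟩
      rw [hj, hi, zpow_add y i j, add_comm i j, zpow_add x j i]
      simp only [mul_assoc]
  have hex : ∀ g : G, ∃ i : ℤ, g = x ^ i * Quotient.out (Quotient.mk s g) * y ^ i := fun g =>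
    (hs _ _).mp (Quotient.mk_out g)
  have hrep : ∀ g : G, Quotient.mk s (x * g * y) = Quotient.mk s g := by
    intro g
    apply Quotient.sound
    refine (hs _ _).mpr ⟨-1, ?_⟩
    rw [zpow_neg_one, zpow_neg_one]
    simp only [mul_assoc, inv_mul_cancel_left, mul_inv_cancel, mul_one]
  choose ι hι using hex
  have hιπ : ∀ g : G, ζ ^ (ι (x * g * y)) = ζ * ζ ^ (ι g) := by
    intro g
    have h1 := hι (x * g * y)
    rw [hrep g] at h1
    have h2 := hι g
    obtain ⟨r, hr⟩ : ∃ r : G, r = Quotient.out (Quotient.mk s g) := ⟨_, rfl⟩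
    obtain ⟨i, hi⟩ : ∃ i : ℤ, i = ι (x * g * y) := ⟨_, rfl⟩
    obtain ⟨j, hj⟩ : ∃ j : ℤ, j = ι g := ⟨_, rfl⟩
    rw [← hr, ← hi] at h1
    rw [← hr, ← hj] at h2
    rw [← hi, ← hj]
    have e2 : i + (j + 1 - i) = j + 1 := by ring
    have h3 : x ^ (j + 1 - i) * (x ^ i * r * y ^ i) * y ^ (j + 1 - i) = x ^ i * r * y ^ i := by
      have e1 : j + 1 - i + i = 1 + j := by ring
      calc x ^ (j + 1 - i) * (x ^ i * r * y ^ i) * y ^ (j + 1 - i)
          = (x ^ (j + 1 - i) * x ^ i) * r * (y ^ i * y ^ (j + 1 - i)) := by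
            simp only [mul_assoc]
        _ = x * (x ^ j * r * y ^ j) * y := by
            rw [← zpow_add, ← zpow_add, e1, e2, zpow_one_add, zpow_add_one]
            simp only [mul_assoc]
        _ = x * g * y := by rw [← h2]
        _ = x ^ i * r * y ^ i := h1
    have hk1 := hkey _ _ h3
    calc ζ ^ i = ζ ^ i * ζ ^ (j + 1 - i) := by rw [hk1, mul_one]
      _ = ζ ^ (j + 1) := by rw [← zpow_add₀ hζ0, e2]
      _ = ζ * ζ ^ j := by rw [zpow_add_one₀ hζ0, mul_comm]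
  obtain ⟨μ, ν, hμν, hμy, hνy, hμm⟩ : ∃ μ ν : G → ℂ, (∀ g, μ g * ν g = 1) ∧
      (∀ g, μ (x * g * y) = ζ * μ g) ∧ (∀ h, ν (x⁻¹ * h * y⁻¹) = ζ * ν h) ∧
      (∀ g h, Cfsg.MemLocalIdeal M (μ g * ν h - 1)) := by
    refine ⟨fun g => ζ ^ (ι g), fun g => ζ ^ (-ι g), ?_, ?_, ?_, ?_⟩
    · intro g
      show ζ ^ (ι g) * ζ ^ (-ι g) = 1
      rw [← zpow_add₀ hζ0, add_neg_cancel, zpow_zero]
    · exact hιπ
    · intro h
      show ζ ^ (-ι (x⁻¹ * h * y⁻¹)) = ζ * ζ ^ (-ι h)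
      have h1 := hιπ (x⁻¹ * h * y⁻¹)
      have e0 : x * (x⁻¹ * h * y⁻¹) * y = h := by group
      rw [e0] at h1
      have ha : ζ ^ (ι h) * ζ ^ (-ι h) = 1 := by
        rw [← zpow_add₀ hζ0, add_neg_cancel, zpow_zero]
      have hb : ζ ^ (ι (x⁻¹ * h * y⁻¹)) * ζ ^ (-ι (x⁻¹ * h * y⁻¹)) = 1 := by
        rw [← zpow_add₀ hζ0, add_neg_cancel, zpow_zero]
      calc ζ ^ (-ι (x⁻¹ * h * y⁻¹))
          = ζ ^ (-ι (x⁻¹ * h * y⁻¹)) * (ζ ^ (ι h) * ζ ^ (-ι h)) := by rw [ha, mul_one]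
        _ = ζ ^ (-ι (x⁻¹ * h * y⁻¹)) * (ζ * ζ ^ (ι (x⁻¹ * h * y⁻¹)) * ζ ^ (-ι h)) := by
            rw [h1]
        _ = ζ * ζ ^ (-ι h) * (ζ ^ (ι (x⁻¹ * h * y⁻¹)) * ζ ^ (-ι (x⁻¹ * h * y⁻¹))) := by
            generalize ζ ^ (ι (x⁻¹ * h * y⁻¹)) = b
            generalize ζ ^ (-ι (x⁻¹ * h * y⁻¹)) = b'
            generalize ζ ^ (-ι h) = a'
            ring
        _ = ζ * ζ ^ (-ι h) := by rw [hb, mul_one]
    · intro g h
      show Cfsg.MemLocalIdeal M (ζ ^ (ι g) * ζ ^ (-ι h) - 1)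
      rw [← zpow_add₀ hζ0]
      exact hζz _
  -- the matrices
  obtain ⟨E, hE⟩ : ∃ E : Matrix G G ℂ, ∀ g h, E g h = c (g * h⁻¹) :=
    ⟨fun g h => c (g * h⁻¹), fun _ _ => rfl⟩
  obtain ⟨E', hE'⟩ : ∃ E' : Matrix G G ℂ, ∀ g h, E' g h = μ g * c (g * h⁻¹) * ν h :=
    ⟨fun g h => μ g * c (g * h⁻¹) * ν h, fun _ _ => rfl⟩
  obtain ⟨Y, hY⟩ : ∃ Y : Matrix G G ℂ, ∀ g h, Y g h = if h = x * g * y then 1 else 0 :=
    ⟨fun g h => if h = x * g * y then 1 else 0, fun _ _ => rfl⟩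
  have hYl : ∀ (A : Matrix G G ℂ) (g h : G), (Y * A) g h = A (x * g * y) h := by
    intro A g h
    rw [Matrix.mul_apply]
    simp only [hY, ite_mul, one_mul, zero_mul, Finset.sum_ite_eq', Finset.mem_univ, if_true]
  have hYr : ∀ (A : Matrix G G ℂ) (g h : G), (A * Y) g h = A g (x⁻¹ * h * y⁻¹) := by
    intro A g h
    rw [Matrix.mul_apply]
    have e : ∀ k : G, Y k h = if k = x⁻¹ * h * y⁻¹ then 1 else 0 := by
      intro k
      rw [hY]
      by_cases hk : h = x * k * y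
      · have hk' : k = x⁻¹ * h * y⁻¹ := by
          rw [hk]
          group
        rw [if_pos hk, if_pos hk']
      · have hk' : ¬ k = x⁻¹ * h * y⁻¹ := by
          rintro rfl
          exact hk (by group)
        rw [if_neg hk, if_neg hk']
    simp only [e, mul_ite, mul_one, mul_zero, Finset.sum_ite_eq', Finset.mem_univ, if_true]
  have hEE : E * E = E := by
    ext g h
    rw [Matrix.mul_apply, hE g h, ← hidem (g * h⁻¹)]
    symm
    refine Fintype.sum_equiv ((Equiv.inv G).trans (Equiv.mulRight g)) _ _ ?_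
    intro x
    show c x * c (x⁻¹ * (g * h⁻¹)) = E g (x⁻¹ * g) * E (x⁻¹ * g) h
    rw [hE, hE]
    have e1 : g * (x⁻¹ * g)⁻¹ = x := by group
    rw [e1, mul_assoc]
  have hE'E' : E' * E' = E' := by
    ext g h
    rw [Matrix.mul_apply, hE' g h]
    have e : ∀ k : G, E' g k * E' k h = μ g * (E g k * E k h) * ν h := by
      intro k
      rw [hE', hE', hE, hE]
      calc μ g * c (g * k⁻¹) * ν k * (μ k * c (k * h⁻¹) * ν h)
          = μ g * (c (g * k⁻¹) * c (k * h⁻¹)) * ν h * (μ k * ν k) := by ring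
        _ = μ g * (c (g * k⁻¹) * c (k * h⁻¹)) * ν h := by rw [hμν, mul_one]
    rw [Finset.sum_congr rfl (fun k _ => e k), ← Finset.sum_mul, ← Finset.mul_sum,
      ← Matrix.mul_apply, hEE, hE]
  have hcc : ∀ g h : G, c (g * (x⁻¹ * h * y⁻¹)⁻¹) = c (x * g * y * h⁻¹) := by
    intro g h
    have e1 : x * g * y * h⁻¹ = x * (g * (x⁻¹ * h * y⁻¹)⁻¹) * x⁻¹ := by group
    rw [e1, hc]
  have hEY : E * Y = Y * E := by
    ext g h
    rw [hYr, hYl, hE, hE, hcc]
  have hE'Y : E' * Y = Y * E' := by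
    ext g h
    rw [hYr, hYl, hE', hE', hμy, hνy, hcc]
    ring
  have hEYc : Commute E Y := hEY
  have hE'Yc : Commute E' Y := hE'Y
  -- the traces
  have htrE : Matrix.trace (Y * E) = ∑ g : G, c (x * g * y * g⁻¹) := by
    show ∑ g : G, (Y * E) g g = _
    exact Finset.sum_congr rfl (fun g _ => (hYl E g g).trans (hE (x * g * y) g))
  have htrE' : Matrix.trace (Y * E') = ζ * ∑ g : G, c (x * g * y * g⁻¹) := by
    have e : ∀ g : G, (Y * E') g g = ζ * c (x * g * y * g⁻¹) := by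
      intro g
      rw [hYl, hE', hμy]
      calc ζ * μ g * c (x * g * y * g⁻¹) * ν g
          = ζ * c (x * g * y * g⁻¹) * (μ g * ν g) := by ring
        _ = ζ * c (x * g * y * g⁻¹) := by rw [hμν, mul_one]
    show ∑ g : G, (Y * E') g g = _
    rw [Finset.sum_congr rfl (fun g _ => e g), ← Finset.mul_sum]
  -- the conjugating matrix
  obtain ⟨U, hU⟩ : ∃ U : Matrix G G ℂ, U = E * E' + (1 - E) * (1 - E') := ⟨_, rfl⟩
  have h1 : E * (1 - E) = 0 := by rw [mul_sub, mul_one, hEE, sub_self]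
  have h2 : (1 - E') * E' = 0 := by rw [sub_mul, one_mul, hE'E', sub_self]
  have hEU : E * U = E * E' := by
    rw [hU, mul_add, ← mul_assoc E E E', hEE, ← mul_assoc E (1 - E) (1 - E'), h1, zero_mul,
      add_zero]
  have hUE' : U * E' = E * E' := by
    rw [hU, add_mul, mul_assoc E E' E', hE'E', mul_assoc (1 - E) (1 - E') E', h2, mul_zero,
      add_zero]
  have hUY : U * Y = Y * U := by
    rw [hU]
    exact ((hEYc.mul_left hE'Yc).add_left
      (((Commute.one_left Y).sub_left hEYc).mul_left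
        ((Commute.one_left Y).sub_left hE'Yc))).eq
  have hUW : U = 1 + (E + E - 1) * (E' - E) := by
    rw [hU]
    simp only [sub_mul, mul_sub, add_mul, one_mul, mul_one, hEE]
    abel
  have hT : ∀ g h, Cfsg.MemLocalIdeal M ((E' - E) g h) := by
    intro g h
    rw [Matrix.sub_apply, hE', hE]
    have e : μ g * c (g * h⁻¹) * ν h - c (g * h⁻¹) = c (g * h⁻¹) * (μ g * ν h - 1) := by ring
    rw [e]
    exact memLocalIdeal_mul_ring_lead hM (hcR _) (hμm g h)
  have hS : ∀ g h, Cfsg.MemLocalRing M ((E + E - 1) g h) := by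
    intro g h
    rw [Matrix.sub_apply, Matrix.add_apply, hE, Matrix.one_apply]
    apply memLocalRing_sub_lead hM (memLocalRing_add_lead hM (hcR _) (hcR _))
    split_ifs
    · exact memLocalRing_one_lead hMtop
    · exact memLocalRing_zero_lead hMtop
  have hW : ∀ g h, Cfsg.MemLocalIdeal M (((E + E - 1) * (E' - E)) g h) := by
    intro g h
    rw [Matrix.mul_apply]
    exact memLocalIdeal_sum_lead hM _ _
      (fun k _ => memLocalIdeal_mul_ring_lead hM (hS g k) (hT k h))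
  have hdet : U.det ≠ 0 := by
    apply det_ne_zero_of_congr_one_lead hM
    · intro g h hgh
      rw [hUW, Matrix.add_apply, Matrix.one_apply_ne hgh, zero_add]
      exact hW g h
    · intro g
      rw [hUW, Matrix.add_apply, Matrix.one_apply_eq, add_sub_cancel_left]
      exact hW g g
  have hU1 : IsUnit U.det := isUnit_iff_ne_zero.mpr hdet
  have hinv1 : U⁻¹ * U = 1 := Matrix.nonsing_inv_mul U hU1
  have hinv2 : U * U⁻¹ = 1 := Matrix.mul_nonsing_inv U hU1
  have htr : Matrix.trace (Y * E') = Matrix.trace (Y * E) := by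
    have e1 : Y * E' = Y * U⁻¹ * E * U := by
      calc Y * E' = Y * (U⁻¹ * U) * E' := by rw [hinv1, mul_one]
        _ = Y * U⁻¹ * (U * E') := by simp only [mul_assoc]
        _ = Y * U⁻¹ * (E * U) := by rw [hUE', ← hEU]
        _ = Y * U⁻¹ * E * U := by simp only [mul_assoc]
    have e2 : U * (Y * U⁻¹ * E) = Y * E := by
      calc U * (Y * U⁻¹ * E) = U * Y * U⁻¹ * E := by simp only [mul_assoc]
        _ = Y * U * U⁻¹ * E := by rw [hUY]
        _ = Y * (U * U⁻¹) * E := by simp only [mul_assoc]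
        _ = Y * E := by rw [hinv2, mul_one]
    rw [e1, Matrix.trace_mul_comm (Y * U⁻¹ * E) U, e2]
  rw [htrE', htrE] at htr
  have h3 : (ζ - 1) * ∑ g : G, c (x * g * y * g⁻¹) = 0 := by
    rw [sub_mul, one_mul, htr, sub_self]
  rcases mul_eq_zero.mp h3 with h | h
  · exact absurd (sub_eq_zero.mp h) hζ1
  · exact h

end Cfsg.Agent.Lib.Lead
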