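import Mathlib
import Cfsg.Prelude.Def_Blocks
import Cfsg.Agent.Lib.Lead.BlockOsima
import Cfsg.Agent.Lib.Lead.BlockOsima2
import Cfsg.Agent.Lib.Lead.BlockOsimaSupp
import Cfsg.Agent.Lib.Lead.BlockAux
import Cfsg.Agent.Lib.Lead.BlockAux2
import Cfsg.Agent.Lib.Lead.BrauerR2
import Cfsg.Agent.Lib.Lead.CharRing
import Cfsg.Agent.Lib.Lead.CharCentral
import Cfsg.Agent.Lib.Lead.CharInd3
import Cfsg.Agent.Lib.Lead.CharBurnside
import Cfsg.Agent.Lib.Lead.CharOrtho
import Cfsg.Agent.Lib.Lead.CharZeros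
import Cfsg.Agent.Lib.Lead.CharCongr

/-!
# Order of a defect group

Auxiliary results: the sum of a character over a coset `Q z` of a subgroup by a central element
is `|Q|` times an algebraic integer, and the resulting divisibility of the idempotent coefficient.
-/

set_option autoImplicit false

namespace Cfsg.Agent.Lib.Lead

open scoped ComplexConjugate

universe u

/-- the sum of a character over `Q z`, `z` central, is `|Q|` times an algebraic integer -/
theorem sum_central_shift_lead {C : Type u} [Group C] [Fintype C] (ψ : C → ℂ)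
    (hψ : Cfsg.IsCharacter C ψ) (Q : Subgroup C) [Fintype Q] (z : C)
    (hz : z ∈ Subgroup.center C) :
    ∃ β : ℂ, IsIntegral ℤ β ∧ ∑ u : Q, ψ ((u : C) * z) = (Nat.card Q : ℂ) * β := by
  classical
  haveI : Fintype (Cfsg.IrrCharacter C) := Fintype.ofFinite _
  obtain ⟨n, hexp, -⟩ := isCharacter_expansion hψ
  have hnatint : ∀ k : ℕ, IsIntegral ℤ (k : ℂ) := fun k => isIntegral_natCast k
  have hθ : ∀ θ : Cfsg.IrrCharacter C, ∃ β : ℂ, IsIntegral ℤ β ∧
      ∑ u : Q, (θ : C → ℂ) ((u : C) * z) = (Nat.card Q : ℂ) * β := by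
    intro θ
    have hint := isIntegral_centralChar_lead θ z
    have hcent : Subgroup.centralizer ({z} : Set C) = ⊤ := by
      rw [Subgroup.centralizer_eq_top_iff_subset]
      intro x hx
      rw [Set.mem_singleton_iff] at hx
      rw [hx]
      exact hz
    unfold Cfsg.centralChar at hint
    rw [hcent, Subgroup.index_top, Nat.cast_one, one_mul] at hint
    have hθc := isCharacter_of_isIrrCharacter θ.2
    have hmul : ∀ h : C, (θ : C → ℂ) (h * z) =
        (θ : C → ℂ) z / (θ : C → ℂ) 1 * (θ : C → ℂ) h := by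
      intro h
      obtain ⟨k, ρ, hρ, hρθ⟩ := θ.2
      haveI := hρ
      rw [← hρθ, char_mul_central ρ h z hz, Representation.char_one]
    obtain ⟨m, hm⟩ := classInner_char_irr_nat (isCharacter_restrict Q hθc)
      (isIrrCharacter_one Q)
    have hQ0 : (Nat.card Q : ℂ) ≠ 0 := by exact_mod_cast Nat.card_pos.ne'
    have hsum : ∑ u : Q, (θ : C → ℂ) (u : C) = (Nat.card Q : ℂ) * (m : ℂ) := by
      have h2 : ∑ g : Q, (fun h : Q => (θ : C → ℂ) h) g *
          (starRingEnd ℂ) ((fun _ : Q => (1 : ℂ)) g) = ∑ u : Q, (θ : C → ℂ) (u : C) := by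
        refine Finset.sum_congr rfl (fun u _ => ?_)
        simp
      have h3 : (Nat.card Q : ℂ)⁻¹ * ∑ u : Q, (θ : C → ℂ) (u : C) = (m : ℂ) := by
        rw [← h2]
        exact hm
      rw [← h3, ← mul_assoc, mul_inv_cancel₀ hQ0, one_mul]
    refine ⟨(θ : C → ℂ) z / (θ : C → ℂ) 1 * (m : ℂ), hint.mul (hnatint m), ?_⟩
    calc ∑ u : Q, (θ : C → ℂ) ((u : C) * z)
        = ∑ u : Q, (θ : C → ℂ) z / (θ : C → ℂ) 1 * (θ : C → ℂ) (u : C) :=
          Finset.sum_congr rfl (fun u _ => hmul _)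
      _ = (θ : C → ℂ) z / (θ : C → ℂ) 1 * ∑ u : Q, (θ : C → ℂ) (u : C) := by
          rw [Finset.mul_sum]
      _ = (Nat.card Q : ℂ) * ((θ : C → ℂ) z / (θ : C → ℂ) 1 * (m : ℂ)) := by
          rw [hsum]
          ring
  choose β hβint hβ using hθ
  refine ⟨∑ θ : Cfsg.IrrCharacter C, (n θ : ℂ) * β θ,
    IsIntegral.sum _ (fun θ _ => (hnatint (n θ)).mul (hβint θ)), ?_⟩
  have hψv : ∀ x : C, ψ x = ∑ θ : Cfsg.IrrCharacter C, (n θ : ℂ) * (θ : C → ℂ) x := by
    intro x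
    rw [congrFun hexp x, Finset.sum_apply]
    refine Finset.sum_congr rfl (fun θ _ => ?_)
    rw [Pi.smul_apply, smul_eq_mul]
  calc ∑ u : Q, ψ ((u : C) * z)
      = ∑ u : Q, ∑ θ : Cfsg.IrrCharacter C, (n θ : ℂ) * (θ : C → ℂ) ((u : C) * z) :=
        Finset.sum_congr rfl (fun u _ => hψv _)
    _ = ∑ θ : Cfsg.IrrCharacter C, ∑ u : Q, (n θ : ℂ) * (θ : C → ℂ) ((u : C) * z) :=
        Finset.sum_comm
    _ = ∑ θ : Cfsg.IrrCharacter C, (n θ : ℂ) * ((Nat.card Q : ℂ) * β θ) := by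
        refine Finset.sum_congr rfl (fun θ _ => ?_)
        rw [← Finset.mul_sum, hβ θ]
    _ = (Nat.card Q : ℂ) * ∑ θ : Cfsg.IrrCharacter C, (n θ : ℂ) * β θ := by
        rw [Finset.mul_sum]
        refine Finset.sum_congr rfl (fun θ _ => ?_)
        ring

/-- if the degrees of all members of `B` are divisible by `p` times the `p`-part of the class
size of the `p`-regular element `g`, the idempotent coefficient of `B` at `g` lies in the
local ideal -/
theorem blockCoeff_pdiv_lead (p : ℕ) (hp : p.Prime) {M : Ideal Cfsg.AlgInt} (hM : M.IsPrime)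
    (hpM : (p : Cfsg.AlgInt) ∈ M) {G : Type u} [Group G] [Fintype G]
    [Fintype (Cfsg.IrrCharacter G)]
    (B : Set (Cfsg.IrrCharacter G)) (g : G)
    (P : Subgroup (Subgroup.centralizer ({g} : Set G))) [Fintype P]
    (hvan : ∀ u : P, u ≠ 1 →
      Cfsg.blockCoeff B (((u : Subgroup.centralizer ({g} : Set G)) : G) * g) = 0)
    (δ e c' r : ℕ) (hP : Nat.card P = p ^ δ) (hG : Nat.card G = p ^ δ * c' * (p ^ e * r))
    (hc' : ¬ p ∣ c') (hr : ¬ p ∣ r)
    (hdeg : ∀ χ ∈ B, p ^ (e + 1) ∣ Cfsg.charDegree (χ : G → ℂ)) :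
    Cfsg.MemLocalIdeal M (Cfsg.blockCoeff B g) := by
  classical
  have hMtop : M ≠ ⊤ := hM.ne_top
  haveI : Fintype (Subgroup.centralizer ({g} : Set G)) := Fintype.ofFinite _
  have hnatint : ∀ k : ℕ, IsIntegral ℤ (k : ℂ) := fun k => isIntegral_natCast k
  have hpI : Cfsg.MemLocalIdeal M (p : ℂ) :=
    memLocalIdeal_of_mem_lead hMtop (p : Cfsg.AlgInt) hpM
  have hgC : g ∈ Subgroup.centralizer ({g} : Set G) := by
    rw [Subgroup.mem_centralizer_iff]
    intro h hh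
    rw [Set.mem_singleton_iff] at hh
    rw [hh]
  have hz : (⟨g, hgC⟩ : Subgroup.centralizer ({g} : Set G)) ∈
      Subgroup.center (Subgroup.centralizer ({g} : Set G)) := by
    rw [Subgroup.mem_center_iff]
    intro c
    apply Subtype.ext
    have h1 := c.2
    rw [Subgroup.mem_centralizer_iff] at h1
    exact (h1 g (Set.mem_singleton g)).symm
  have hsumP : ∑ u : P,
      Cfsg.blockCoeff B (((u : Subgroup.centralizer ({g} : Set G)) : G) * g) =
      Cfsg.blockCoeff B g := by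
    rw [Finset.sum_eq_single (1 : P)]
    · simp
    · intro u _ hu
      exact hvan u hu
    · intro h
      exact absurd (Finset.mem_univ _) h
  have hφ : ∀ φ : Cfsg.IrrCharacter G, ∃ Z : ℂ, IsIntegral ℤ Z ∧
      ∑ u : P, (if φ ∈ B then (φ : G → ℂ) 1 * (starRingEnd ℂ)
        ((φ : G → ℂ) (((u : Subgroup.centralizer ({g} : Set G)) : G) * g)) else 0) =
      (p : ℂ) ^ δ * (p : ℂ) ^ (e + 1) * Z := by
    intro φ
    by_cases hφB : φ ∈ B
    · have hφc := isCharacter_of_isIrrCharacter φ.2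
      obtain ⟨β, hβint, hβ⟩ := sum_central_shift_lead
        (fun h : Subgroup.centralizer ({g} : Set G) => (φ : G → ℂ) h)
        (isCharacter_restrict _ hφc) P ⟨g, hgC⟩ hz
      obtain ⟨hd1, hd0⟩ := charDegree_irr φ.2
      obtain ⟨t, ht⟩ := hdeg φ hφB
      refine ⟨(t : ℂ) * (starRingEnd ℂ) β,
        (hnatint t).mul (map_isIntegral_int (starRingEnd ℂ) hβint), ?_⟩
      simp only [if_pos hφB]
      have hβ' : ∑ u : P, (φ : G → ℂ) (((u : Subgroup.centralizer ({g} : Set G)) : G) * g) =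
          (Nat.card P : ℂ) * β := by
        rw [← hβ]
        exact Finset.sum_congr rfl (fun u _ => rfl)
      have hconj : ∑ u : P, (starRingEnd ℂ)
          ((φ : G → ℂ) (((u : Subgroup.centralizer ({g} : Set G)) : G) * g)) =
          (starRingEnd ℂ)
            (∑ u : P, (φ : G → ℂ) (((u : Subgroup.centralizer ({g} : Set G)) : G) * g)) :=
        (map_sum (starRingEnd ℂ) _ _).symm
      rw [← Finset.mul_sum, hconj, hβ', hd1, ht, hP, map_mul, map_natCast]
      push_cast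
      ring
    · refine ⟨0, isIntegral_zero, ?_⟩
      simp only [if_neg hφB]
      rw [Finset.sum_const_zero, mul_zero]
  choose Z hZint hZ using hφ
  have hbg : Cfsg.blockCoeff B g = (Nat.card G : ℂ)⁻¹ *
      ((p : ℂ) ^ δ * (p : ℂ) ^ (e + 1) * ∑ φ : Cfsg.IrrCharacter G, Z φ) := by
    rw [← hsumP]
    calc ∑ u : P, Cfsg.blockCoeff B (((u : Subgroup.centralizer ({g} : Set G)) : G) * g)
        = ∑ u : P, (Nat.card G : ℂ)⁻¹ * ∑ φ : Cfsg.IrrCharacter G,
            (if φ ∈ B then (φ : G → ℂ) 1 * (starRingEnd ℂ)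
              ((φ : G → ℂ) (((u : Subgroup.centralizer ({g} : Set G)) : G) * g)) else 0) :=
          Finset.sum_congr rfl (fun u _ => blockCoeff_eq_sum_lead B _)
      _ = (Nat.card G : ℂ)⁻¹ * ∑ u : P, ∑ φ : Cfsg.IrrCharacter G,
            (if φ ∈ B then (φ : G → ℂ) 1 * (starRingEnd ℂ)
              ((φ : G → ℂ) (((u : Subgroup.centralizer ({g} : Set G)) : G) * g)) else 0) := by
          rw [Finset.mul_sum]
      _ = (Nat.card G : ℂ)⁻¹ * ∑ φ : Cfsg.IrrCharacter G, ∑ u : P,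
            (if φ ∈ B then (φ : G → ℂ) 1 * (starRingEnd ℂ)
              ((φ : G → ℂ) (((u : Subgroup.centralizer ({g} : Set G)) : G) * g)) else 0) := by
          rw [Finset.sum_comm]
      _ = (Nat.card G : ℂ)⁻¹ * ∑ φ : Cfsg.IrrCharacter G,
            (p : ℂ) ^ δ * (p : ℂ) ^ (e + 1) * Z φ := by
          congr 1
          exact Finset.sum_congr rfl (fun φ _ => hZ φ)
      _ = (Nat.card G : ℂ)⁻¹ *
            ((p : ℂ) ^ δ * (p : ℂ) ^ (e + 1) * ∑ φ : Cfsg.IrrCharacter G, Z φ) := by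
          rw [← Finset.mul_sum]
  have hZs : IsIntegral ℤ (∑ φ : Cfsg.IrrCharacter G, Z φ) :=
    IsIntegral.sum _ (fun φ _ => hZint φ)
  have hnd : ¬ p ∣ c' * r := fun h => (hp.dvd_mul.mp h).elim hc' hr
  have hcop : Nat.Coprime (c' * r) p := ((Nat.Prime.coprime_iff_not_dvd hp).mpr hnd).symm
  have hcrM : ((c' * r : ℕ) : Cfsg.AlgInt) ∉ M := natCast_not_mem_lead hMtop p (c' * r) hcop hpM
  have h1 : Cfsg.MemLocalRing M (((c' * r : ℕ) : ℂ)⁻¹) := memLocalRing_inv_lead hcrM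
  have h2 := memLocalIdeal_mul_ring_lead hM
    (memLocalRing_mul_lead hM h1 (memLocalRing_isIntegral_lead hMtop hZs)) hpI
  have hp0 : (p : ℂ) ≠ 0 := by exact_mod_cast hp.ne_zero
  have heq : Cfsg.blockCoeff B g =
      ((c' * r : ℕ) : ℂ)⁻¹ * (∑ φ : Cfsg.IrrCharacter G, Z φ) * (p : ℂ) := by
    rw [hbg, hG]
    have hpδ : ((p : ℂ) ^ δ)⁻¹ * (p : ℂ) ^ δ = 1 := inv_mul_cancel₀ (pow_ne_zero δ hp0)
    have hpe : ((p : ℂ) ^ e)⁻¹ * (p : ℂ) ^ e = 1 := inv_mul_cancel₀ (pow_ne_zero e hp0)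
    push_cast
    linear_combination
      (((p : ℂ) ^ e)⁻¹ * (p : ℂ) ^ e * ((c' : ℂ)⁻¹ * (r : ℂ)⁻¹ *
        (∑ φ : Cfsg.IrrCharacter G, Z φ) * (p : ℂ))) * hpδ +
      ((c' : ℂ)⁻¹ * (r : ℂ)⁻¹ * (∑ φ : Cfsg.IrrCharacter G, Z φ) * (p : ℂ)) * hpe
  rw [heq]
  exact h2

end Cfsg.Agent.Lib.Lead
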