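import Mathlib
import Cfsg.Agent.Lib.Helper4.PCore

set_option autoImplicit false

namespace Cfsg.Agent.Lib.Lead

universe u v

/-- in the group algebra of a finite abelian `p`-group in characteristic `p`, long products of
augmentation generators vanish -/
theorem aug_prod_zero_lead {A : Type u} [CommGroup A] [Finite A] (p : ℕ) [Fact p.Prime]
    (F : Type v) [Field F] [CharP F p] (hA : IsPGroup p A) :
    ∃ n : ℕ, ∀ l : List A, l.length = n →
      (l.map (fun u => MonoidAlgebra.single u (1 : F) - 1)).prod = 0 := by
  classical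
  haveI : CharP (MonoidAlgebra F A) p :=
    charP_of_injective_ringHom
      (f := (MonoidAlgebra.singleOneRingHom : F →+* MonoidAlgebra F A))
      (fun a b h => MonoidAlgebra.single_right_injective h) p
  obtain ⟨e, he⟩ := IsPGroup.iff_card.mp hA
  obtain ⟨I, hI⟩ : ∃ I : Ideal (MonoidAlgebra F A),
      I = Ideal.span (Set.range (fun u : A => MonoidAlgebra.single u (1 : F) - 1)) := ⟨_, rfl⟩
  have hIfg : I.FG := by
    rw [hI]
    exact Submodule.fg_span (Set.finite_range _)
  have hIle : I ≤ nilradical (MonoidAlgebra F A) := by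
    rw [hI]
    refine Ideal.span_le.mpr ?_
    rintro _ ⟨u, rfl⟩
    refine mem_nilradical.mpr ⟨p ^ e, ?_⟩
    rw [sub_pow_char_pow, MonoidAlgebra.single_pow, one_pow, one_pow, ← he, pow_card_eq_one',
      MonoidAlgebra.one_def, sub_self]
  obtain ⟨n, hn⟩ := (Ideal.FG.isNilpotent_iff_le_nilradical hIfg).mpr hIle
  refine ⟨n, ?_⟩
  have key : ∀ l : List A,
      (l.map (fun u => MonoidAlgebra.single u (1 : F) - 1)).prod ∈ I ^ l.length := by
    intro l
    induction l with
    | nil => simp
    | cons u l ih =>
      rw [List.map_cons, List.prod_cons, List.length_cons, pow_succ']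
      refine Ideal.mul_mem_mul ?_ ih
      rw [hI]
      exact Ideal.subset_span ⟨u, rfl⟩
  intro l hl
  have h := key l
  rw [hl, hn, Ideal.zero_eq_bot, Ideal.mem_bot] at h
  exact h

/-- a group-algebra element killed by the projection modulo an abelian normal `p`-subgroup is
nilpotent (characteristic `p`) -/
theorem ker_abelian_nilp_lead {G : Type u} [Group G] [Finite G] (p : ℕ) [Fact p.Prime]
    (F : Type v) [Field F] [CharP F p] (A : Subgroup G) [hAn : A.Normal]
    (hAc : ∀ a ∈ A, ∀ b ∈ A, a * b = b * a) (hAp : IsPGroup p A)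
    (x : MonoidAlgebra F G)
    (hx : MonoidAlgebra.mapDomain (QuotientGroup.mk : G → G ⧸ A) x = 0) : IsNilpotent x := by
  classical
  letI cg : CommGroup A := { (inferInstance : Group A) with
    mul_comm := fun a b => Subtype.ext (hAc a a.2 b b.2) }
  obtain ⟨n, hn⟩ := aug_prod_zero_lead (A := A) p F hAp
  obtain ⟨d, hd⟩ : ∃ d : G → MonoidAlgebra F G,
      ∀ u, d u = MonoidAlgebra.single u (1 : F) - 1 := ⟨_, fun _ => rfl⟩
  have hι : ∀ a : A, (MonoidAlgebra.mapDomainRingHom F A.subtype)
      (MonoidAlgebra.single a (1 : F) - 1) = d (a : G) := by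
    intro a
    rw [map_sub, map_one, hd]
    show MonoidAlgebra.mapDomain A.subtype (MonoidAlgebra.single a (1 : F)) - 1 = _
    rw [MonoidAlgebra.mapDomain_single]
    rfl
  have hd0 : ∀ l : List A, l.length = n → (l.map (fun a : A => d (a : G))).prod = 0 := by
    intro l hl
    have h1 : (l.map (fun a : A => d (a : G))).prod
        = (MonoidAlgebra.mapDomainRingHom F A.subtype)
          ((l.map (fun u : A => MonoidAlgebra.single u (1 : F) - 1)).prod) := by
      rw [map_list_prod, List.map_map]
      congr 1
      apply List.map_congr_left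
      intro a _
      exact (hι a).symm
    rw [h1, hn l hl, map_zero]
  obtain ⟨S, hS⟩ : ∃ S : ℕ → Set (MonoidAlgebra F G), ∀ k, S k =
      {z | ∃ g : G, ∃ l : List A, l.length = k ∧
        z = MonoidAlgebra.single g (1 : F) * (l.map (fun a : A => d (a : G))).prod} :=
    ⟨_, fun _ => rfl⟩
  have hWn : Submodule.span F (S n) = ⊥ := by
    refine Submodule.span_eq_bot.mpr ?_
    intro z hz
    rw [hS] at hz
    obtain ⟨g, l, hl, rfl⟩ := hz
    rw [hd0 l hl, mul_zero]
  have hkey : ∀ (a h : G), d a * MonoidAlgebra.single h (1 : F)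
      = MonoidAlgebra.single h (1 : F) * d (h⁻¹ * a * h) := by
    intro a h
    have e : h * (h⁻¹ * a * h) = a * h := by group
    rw [hd, hd, sub_mul, mul_sub, one_mul, mul_one, MonoidAlgebra.single_mul_single,
      MonoidAlgebra.single_mul_single, e]
  have hmul : ∀ k, ∀ y₁ ∈ Submodule.span F (S 1), ∀ y₂ ∈ Submodule.span F (S k),
      y₁ * y₂ ∈ Submodule.span F (S (k + 1)) := by
    intro k y₁ h1 y₂ h2
    have hle : Submodule.span F (S 1) * Submodule.span F (S k)
        ≤ Submodule.span F (S (k + 1)) := by
      rw [Submodule.span_mul_span]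
      refine Submodule.span_le.mpr ?_
      rintro _ ⟨z₁, hz₁, z₂, hz₂, rfl⟩
      rw [hS] at hz₁ hz₂
      obtain ⟨g, l₁, hl₁, rfl⟩ := hz₁
      obtain ⟨h, l, hl, rfl⟩ := hz₂
      obtain ⟨a, rfl⟩ := List.length_eq_one_iff.mp hl₁
      have ha' : h⁻¹ * (a : G) * h ∈ A := by
        have := hAn.conj_mem (a : G) a.2 h⁻¹
        rwa [inv_inv] at this
      apply Submodule.subset_span
      rw [hS]
      refine ⟨g * h, (⟨h⁻¹ * (a : G) * h, ha'⟩ : A) :: l, by rw [List.length_cons, hl], ?_⟩
      obtain ⟨P, hP⟩ : ∃ P, P = (l.map (fun a : A => d (a : G))).prod := ⟨_, rfl⟩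
      rw [List.map_cons, List.map_nil, List.prod_cons, List.prod_nil, mul_one, List.map_cons,
        List.prod_cons, ← hP]
      calc MonoidAlgebra.single g (1 : F) * d (a : G) * (MonoidAlgebra.single h (1 : F) * P)
          = MonoidAlgebra.single g (1 : F) * (d (a : G) * MonoidAlgebra.single h (1 : F)) * P := by
            simp only [mul_assoc]
        _ = MonoidAlgebra.single g (1 : F)
              * (MonoidAlgebra.single h (1 : F) * d (h⁻¹ * (a : G) * h)) * P := by rw [hkey]
        _ = MonoidAlgebra.single (g * h) (1 : F) * (d (h⁻¹ * (a : G) * h) * P) := by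
            rw [← mul_assoc (MonoidAlgebra.single g (1 : F)), MonoidAlgebra.single_mul_single,
              mul_one, mul_assoc]
    exact hle (Submodule.mul_mem_mul h1 h2)
  obtain ⟨r, hr⟩ : ∃ r : G → G, ∀ g, r g = Quotient.out (QuotientGroup.mk g : G ⧸ A) :=
    ⟨_, fun _ => rfl⟩
  have hrA : ∀ g : G, (r g)⁻¹ * g ∈ A := by
    intro g
    have h1 : (QuotientGroup.mk (r g) : G ⧸ A) = QuotientGroup.mk g := by
      rw [hr]
      exact QuotientGroup.out_eq' _
    exact QuotientGroup.eq.mp h1
  have hW1 : ∀ y : MonoidAlgebra F G,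
      y - MonoidAlgebra.mapDomain r y ∈ Submodule.span F (S 1) := by
    intro y
    induction y using MonoidAlgebra.induction_linear with
    | zero =>
      rw [MonoidAlgebra.mapDomain_zero, sub_zero]
      exact Submodule.zero_mem _
    | add y₁ y₂ h1 h2 =>
      have e : y₁ + y₂ - MonoidAlgebra.mapDomain r (y₁ + y₂)
          = (y₁ - MonoidAlgebra.mapDomain r y₁) + (y₂ - MonoidAlgebra.mapDomain r y₂) := by
        rw [MonoidAlgebra.mapDomain_add]
        abel
      rw [e]
      exact Submodule.add_mem _ h1 h2
    | single g c =>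
      rw [MonoidAlgebra.mapDomain_single]
      have e : MonoidAlgebra.single g c - MonoidAlgebra.single (r g) c
          = c • (MonoidAlgebra.single (r g) (1 : F)
            * ([(⟨(r g)⁻¹ * g, hrA g⟩ : A)].map (fun a : A => d (a : G))).prod) := by
        rw [List.map_cons, List.map_nil, List.prod_cons, List.prod_nil, mul_one, hd, mul_sub,
          mul_one, MonoidAlgebra.single_mul_single, mul_one, mul_inv_cancel_left, smul_sub,
          MonoidAlgebra.smul_single, MonoidAlgebra.smul_single, smul_eq_mul, mul_one]
      rw [e]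
      refine Submodule.smul_mem _ c (Submodule.subset_span ?_)
      rw [hS]
      exact ⟨r g, [⟨(r g)⁻¹ * g, hrA g⟩], rfl, rfl⟩
  have hrx : MonoidAlgebra.mapDomain r x = 0 := by
    have h1 : MonoidAlgebra.mapDomain r x
        = MonoidAlgebra.mapDomain (Quotient.out : G ⧸ A → G)
          (MonoidAlgebra.mapDomain (QuotientGroup.mk : G → G ⧸ A) x) := by
      apply MonoidAlgebra.coeff_injective
      show Finsupp.mapDomain r x.coeff = Finsupp.mapDomain (Quotient.out : G ⧸ A → G)
        (Finsupp.mapDomain (QuotientGroup.mk : G → G ⧸ A) x.coeff)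
      rw [← Finsupp.mapDomain_comp]
      congr 1
      funext g
      exact hr g
    rw [h1, hx, MonoidAlgebra.mapDomain_zero]
  have hx1 : x ∈ Submodule.span F (S 1) := by
    have h := hW1 x
    rw [hrx, sub_zero] at h
    exact h
  have hpow : ∀ k : ℕ, x ^ k ∈ Submodule.span F (S k) := by
    intro k
    induction k with
    | zero =>
      rw [pow_zero]
      apply Submodule.subset_span
      rw [hS]
      refine ⟨1, [], rfl, ?_⟩
      rw [List.map_nil, List.prod_nil, mul_one]
      exact MonoidAlgebra.one_def
    | succ k ih =>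
      rw [pow_succ']
      exact hmul k x hx1 _ ih
  refine ⟨n, ?_⟩
  have h := hpow n
  rw [hWn] at h
  exact (Submodule.mem_bot F).mp h

/-- a group-algebra element killed by the projection modulo a normal `p`-subgroup is nilpotent
(characteristic `p`) -/
theorem nilp_of_map_zero_lead (p : ℕ) [Fact p.Prime] (F : Type v) [Field F] [CharP F p] :
    ∀ (n : ℕ) (G : Type u) [Group G] [Finite G] (N : Subgroup G) [N.Normal],
      IsPGroup p N → Nat.card N ≤ n → ∀ a : MonoidAlgebra F G,
      MonoidAlgebra.mapDomain (QuotientGroup.mk : G → G ⧸ N) a = 0 → IsNilpotent a := by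
  intro n
  induction n with
  | zero =>
    intro G _ _ N _ hN hcard a ha
    have := Nat.card_pos (α := N)
    omega
  | succ n ih =>
    intro G _ _ N hNn hN hcard a ha
    classical
    by_cases htriv : N = ⊥
    · have hinj : Function.Injective (QuotientGroup.mk : G → G ⧸ N) := by
        intro x y hxy
        have h1 : x⁻¹ * y ∈ N := QuotientGroup.eq.mp hxy
        rw [htriv, Subgroup.mem_bot] at h1
        exact inv_mul_eq_one.mp h1
      have h0 : a = 0 :=
        MonoidAlgebra.mapDomain_injective hinj (by rw [ha, MonoidAlgebra.mapDomain_zero])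
      rw [h0]
      exact IsNilpotent.zero
    · haveI : Nontrivial N := (Subgroup.nontrivial_iff_ne_bot N).mpr htriv
      haveI hcn : Nontrivial (Subgroup.center N) := hN.center_nontrivial
      obtain ⟨A, hA⟩ : ∃ A : Subgroup G, A = (Subgroup.center N).map N.subtype := ⟨_, rfl⟩
      haveI hAn : A.Normal := by
        rw [hA]
        exact ConjAct.normal_of_characteristic_of_normal
      have hAc : ∀ a ∈ A, ∀ b ∈ A, a * b = b * a := by
        intro a ha b hb
        rw [hA] at ha hb
        obtain ⟨z, hz, rfl⟩ := ha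
        obtain ⟨w, hw, rfl⟩ := hb
        have h1 := Subgroup.mem_center_iff.mp hz w
        exact (congrArg Subtype.val h1).symm
      have hAp : IsPGroup p A := by
        rw [hA]
        exact (hN.to_subgroup (Subgroup.center N)).map N.subtype
      obtain ⟨N', hN'⟩ : ∃ N' : Subgroup (G ⧸ A), N' = N.map (QuotientGroup.mk' A) := ⟨_, rfl⟩
      haveI hN'n : N'.Normal := by
        rw [hN']
        exact Subgroup.Normal.map hNn _ (QuotientGroup.mk'_surjective A)
      have hN'p : IsPGroup p N' := by
        rw [hN']
        exact hN.map _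
      have hlt : Nat.card N' < Nat.card N := by
        rw [hN']
        haveI : Fintype N := Fintype.ofFinite _
        haveI : Fintype (N.map (QuotientGroup.mk' A)) := Fintype.ofFinite _
        rw [Nat.card_eq_fintype_card, Nat.card_eq_fintype_card]
        refine Fintype.card_lt_of_surjective_not_injective ((QuotientGroup.mk' A).subgroupMap N)
          ((QuotientGroup.mk' A).subgroupMap_surjective N) ?_
        intro hinj
        obtain ⟨z, hz1⟩ := exists_ne (1 : Subgroup.center N)
        have hzA : ((z : N) : G) ∈ A := by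
          rw [hA]
          exact ⟨(z : N), z.2, rfl⟩
        have h1 : (QuotientGroup.mk' A).subgroupMap N (z : N)
            = (QuotientGroup.mk' A).subgroupMap N 1 := by
          apply Subtype.ext
          show (QuotientGroup.mk ((z : N) : G) : G ⧸ A) = QuotientGroup.mk ((1 : N) : G)
          rw [(QuotientGroup.eq_one_iff _).mpr hzA]
          rfl
        have h2 := hinj h1
        exact hz1 (Subtype.ext h2)
      have hcard' : Nat.card N' ≤ n := by omega
      have ha' : MonoidAlgebra.mapDomain (QuotientGroup.mk : G ⧸ A → (G ⧸ A) ⧸ N')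
          (MonoidAlgebra.mapDomain (QuotientGroup.mk : G → G ⧸ A) a) = 0 := by
        have hle : N ≤ N'.comap (QuotientGroup.mk' A) := by
          rw [hN']
          exact Subgroup.le_comap_map _ _
        have hfun : (QuotientGroup.mk : G ⧸ A → (G ⧸ A) ⧸ N') ∘ (QuotientGroup.mk : G → G ⧸ A)
            = (QuotientGroup.map N N' (QuotientGroup.mk' A) hle) ∘
              (QuotientGroup.mk : G → G ⧸ N) := by
          funext g
          rfl
        have h1 : MonoidAlgebra.mapDomain (QuotientGroup.mk : G ⧸ A → (G ⧸ A) ⧸ N')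
            (MonoidAlgebra.mapDomain (QuotientGroup.mk : G → G ⧸ A) a)
            = MonoidAlgebra.mapDomain (QuotientGroup.map N N' (QuotientGroup.mk' A) hle)
              (MonoidAlgebra.mapDomain (QuotientGroup.mk : G → G ⧸ N) a) := by
          apply MonoidAlgebra.coeff_injective
          show Finsupp.mapDomain (QuotientGroup.mk : G ⧸ A → (G ⧸ A) ⧸ N')
              (Finsupp.mapDomain (QuotientGroup.mk : G → G ⧸ A) a.coeff)
            = Finsupp.mapDomain (QuotientGroup.map N N' (QuotientGroup.mk' A) hle)
              (Finsupp.mapDomain (QuotientGroup.mk : G → G ⧸ N) a.coeff)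
          rw [← Finsupp.mapDomain_comp, ← Finsupp.mapDomain_comp, hfun]
        rw [h1, ha, MonoidAlgebra.mapDomain_zero]
      obtain ⟨m, hm⟩ := ih (G ⧸ A) N' hN'p hcard' _ ha'
      have hm' : MonoidAlgebra.mapDomain (QuotientGroup.mk : G → G ⧸ A) (a ^ m) = 0 := by
        have e : MonoidAlgebra.mapDomain (QuotientGroup.mk : G → G ⧸ A) (a ^ m)
            = (MonoidAlgebra.mapDomainRingHom F (QuotientGroup.mk' A)) (a ^ m) := rfl
        rw [e, map_pow]
        exact hm
      exact IsNilpotent.of_pow (ker_abelian_nilp_lead p F A hAc hAp (a ^ m) hm')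

end Cfsg.Agent.Lib.Lead
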