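import Mathlib
import Cfsg.Prelude.Def_Blocks
import Cfsg.Agent.Lib.Lead.BlockOsima
import Cfsg.Agent.Lib.Lead.BlockOsima2
import Cfsg.Agent.Lib.Lead.BlockOsimaSupp
import Cfsg.Agent.Lib.Lead.BlockAux
import Cfsg.Agent.Lib.Lead.BlockAux2
import Cfsg.Agent.Lib.Lead.BrauerR2
import Cfsg.Agent.Lib.Lead.CharRing
import Cfsg.Agent.Lib.Lead.CharComplete
import Cfsg.Agent.Lib.Lead.CharCount
import Cfsg.Agent.Lib.Lead.CharOrtho
import Cfsg.Agent.Lib.Lead.CharZeros
import Cfsg.Agent.Lib.Lead.CharCongr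

/-!
# Counting blocks of large defect

The pairing of block idempotents with central characters, regrouped by conjugacy classes, the
bound of the defect of a block by the defect of a class on which a central character does not
vanish, and the resulting rank argument.
-/

set_option autoImplicit false

namespace Cfsg.Agent.Lib.Lead

open scoped ComplexConjugate

universe u

/-- the pairing of the idempotent of a set of characters with a central character, by classes -/
theorem blockCoeff_class_sum_lead {G : Type u} [Group G] [Fintype G] [Fintype (ConjClasses G)]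
    (A : Set (Cfsg.IrrCharacter G)) [DecidablePred (· ∈ A)] (η : Cfsg.IrrCharacter G) :
    ∑ c : ConjClasses G, Cfsg.blockCoeff A (Quotient.out c) *
      Cfsg.centralChar (η : G → ℂ) (Quotient.out c) = if η ∈ A then 1 else 0 := by
  obtain ⟨dd, hd0, hd⟩ := irr_one η.2
  have hη1 : (η : G → ℂ) 1 ≠ 0 := by
    rw [hd]
    exact_mod_cast hd0
  have hF : ∀ g h : G, Cfsg.blockCoeff A (h * g * h⁻¹) *
      ((η : G → ℂ) (h * g * h⁻¹) / (η : G → ℂ) 1) =
      Cfsg.blockCoeff A g * ((η : G → ℂ) g / (η : G → ℂ) 1) := by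
    intro g h
    rw [blockCoeff_classFun_lead _ g h, isClassFunction_of_irr η.2 g h]
  have hreg : ∑ g : G, Cfsg.blockCoeff A g * ((η : G → ℂ) g / (η : G → ℂ) 1) =
      ∑ c : ConjClasses G, ((Subgroup.centralizer ({Quotient.out c} : Set G)).index : ℂ) *
        (Cfsg.blockCoeff A (Quotient.out c) *
          ((η : G → ℂ) (Quotient.out c) / (η : G → ℂ) 1)) :=
    sum_classFun_regroup_lead (fun g : G => Cfsg.blockCoeff A g *
      ((η : G → ℂ) g / (η : G → ℂ) 1)) hF
  have hsum : ∑ g : G, Cfsg.blockCoeff A g * ((η : G → ℂ) g / (η : G → ℂ) 1) =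
      if η ∈ A then 1 else 0 := by
    have e : ∀ g : G, Cfsg.blockCoeff A g * ((η : G → ℂ) g / (η : G → ℂ) 1) =
        Cfsg.blockCoeff A g * (η : G → ℂ) g / (η : G → ℂ) 1 :=
      fun g => (mul_div_assoc _ _ _).symm
    rw [Finset.sum_congr rfl (fun g _ => e g), ← Finset.sum_div, blockCoeff_sum_lead A η]
    by_cases h : η ∈ A
    · rw [if_pos h, if_pos h, div_self hη1]
    · rw [if_neg h, if_neg h, zero_div]
  rw [← hsum, hreg]
  refine Finset.sum_congr rfl (fun c _ => ?_)
  unfold Cfsg.centralChar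
  ring

/-- if the central character of `χ` at `g` is not in the local ideal, the `p`-part of the class
size of `g` divides the degree of `χ` -/
theorem centralChar_val_lead (p : ℕ) (hp : p.Prime) {M : Ideal Cfsg.AlgInt} (hM : M.IsPrime)
    (hpM : (p : Cfsg.AlgInt) ∈ M) {G : Type u} [Group G] [Finite G]
    (χ : Cfsg.IrrCharacter G) (g : G) (e r : ℕ)
    (her : (Subgroup.centralizer ({g} : Set G)).index = p ^ e * r)
    (hω : ¬ Cfsg.MemLocalIdeal M (Cfsg.centralChar (χ : G → ℂ) g)) :
    e ≤ (Cfsg.charDegree (χ : G → ℂ)).factorization p := by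
  have hMtop : M ≠ ⊤ := hM.ne_top
  have hnatint : ∀ k : ℕ, IsIntegral ℤ (k : ℂ) := fun k => isIntegral_natCast k
  have hpI : Cfsg.MemLocalIdeal M (p : ℂ) :=
    memLocalIdeal_of_mem_lead hMtop (p : Cfsg.AlgInt) hpM
  have hp0 : (p : ℂ) ≠ 0 := by exact_mod_cast hp.ne_zero
  obtain ⟨hd1, hd0⟩ := charDegree_irr χ.2
  have hχc := isCharacter_of_isIrrCharacter χ.2
  obtain ⟨j, d', hd', hdj⟩ := Nat.exists_eq_pow_mul_and_not_dvd hd0 p hp.ne_one
  rw [← Nat.Prime.pow_dvd_iff_le_factorization hp hd0]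
  by_contra hcon
  have hje : j < e := by
    by_contra hje
    apply hcon
    rw [hdj]
    exact Dvd.dvd.mul_right (pow_dvd_pow p (not_lt.mp hje)) d'
  apply hω
  obtain ⟨t, ht⟩ : ∃ t : ℕ, e = j + 1 + t := ⟨e - (j + 1), by omega⟩
  have hcop : Nat.Coprime d' p := ((Nat.Prime.coprime_iff_not_dvd hp).mpr hd').symm
  have hd'M : ((d' : ℕ) : Cfsg.AlgInt) ∉ M := natCast_not_mem_lead hMtop p d' hcop hpM
  have h1 : Cfsg.MemLocalRing M ((d' : ℂ)⁻¹) := memLocalRing_inv_lead hd'M
  have hint : IsIntegral ℤ ((p : ℂ) ^ t * (r : ℂ) * (χ : G → ℂ) g) :=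
    (((hnatint p).pow t).mul (hnatint r)).mul (isIntegral_isCharacter hχc g)
  have h2 : Cfsg.MemLocalRing M
      ((d' : ℂ)⁻¹ * ((p : ℂ) ^ t * (r : ℂ) * (χ : G → ℂ) g)) :=
    memLocalRing_mul_lead hM h1 (memLocalRing_isIntegral_lead hMtop hint)
  have h3 := memLocalIdeal_mul_ring_lead hM h2 hpI
  have heq : Cfsg.centralChar (χ : G → ℂ) g =
      (d' : ℂ)⁻¹ * ((p : ℂ) ^ t * (r : ℂ) * (χ : G → ℂ) g) * (p : ℂ) := by
    unfold Cfsg.centralChar
    rw [hd1, her, hdj, ht]
    have hpj : ((p : ℂ) ^ j)⁻¹ * (p : ℂ) ^ j = 1 := inv_mul_cancel₀ (pow_ne_zero j hp0)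
    push_cast
    rw [div_eq_mul_inv]
    linear_combination
      ((d' : ℂ)⁻¹ * ((p : ℂ) ^ t * (r : ℂ) * (χ : G → ℂ) g) * (p : ℂ)) * hpj
  rw [heq]
  exact h3

/-- if the central character of `χ₀` at `g` is not in the local ideal, the defect of the block
of `χ₀` is at most the defect of the class of `g` -/
theorem blockDefect_le_of_centralChar_lead (p : ℕ) (hp : p.Prime) {M : Ideal Cfsg.AlgInt}
    (hM : M.IsPrime) (hpM : (p : Cfsg.AlgInt) ∈ M) {G : Type u} [Group G] [Finite G]
    (χ₀ : Cfsg.IrrCharacter G) (g : G)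
    (hω : ¬ Cfsg.MemLocalIdeal M (Cfsg.centralChar (χ₀ : G → ℂ) g)) :
    Cfsg.blockDefect p (Cfsg.blockOf M (χ₀ : G → ℂ)) ≤
      (Nat.card (Subgroup.centralizer ({g} : Set G))).factorization p := by
  have hMtop : M ≠ ⊤ := hM.ne_top
  have hidx0 : (Subgroup.centralizer ({g} : Set G)).index ≠ 0 :=
    Subgroup.index_ne_zero_of_finite
  obtain ⟨e, r, hr, her⟩ := Nat.exists_eq_pow_mul_and_not_dvd hidx0 p hp.ne_one
  have hr0 : r ≠ 0 := by
    rintro rfl
    exact hr (dvd_zero p)
  have hC0 : Nat.card (Subgroup.centralizer ({g} : Set G)) ≠ 0 := Nat.card_pos.ne'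
  have hGcard : Nat.card G = Nat.card (Subgroup.centralizer ({g} : Set G)) * (p ^ e * r) := by
    rw [← her]
    exact (Subgroup.card_mul_index _).symm
  have hfac : (Nat.card G).factorization p =
      (Nat.card (Subgroup.centralizer ({g} : Set G))).factorization p + e := by
    rw [hGcard, Nat.factorization_mul hC0 (mul_ne_zero (pow_ne_zero _ hp.ne_zero) hr0),
      Finsupp.add_apply, Nat.factorization_mul (pow_ne_zero _ hp.ne_zero) hr0,
      Finsupp.add_apply, Nat.Prime.factorization_pow hp, Finsupp.single_eq_same,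
      Nat.factorization_eq_zero_of_not_dvd hr, add_zero]
  have hI : ∀ ψ ∈ Cfsg.blockOf M (χ₀ : G → ℂ),
      e ≤ (Cfsg.charDegree (ψ : G → ℂ)).factorization p := by
    intro ψ hψ
    apply centralChar_val_lead p hp hM hpM ψ g e r her
    intro hψg
    apply hω
    have hSB : Cfsg.SameBlock M (χ₀ : G → ℂ) (ψ : G → ℂ) := hψ
    have h3 := memLocalIdeal_add_lead hM (hSB g) hψg
    rw [sub_add_cancel] at h3
    exact h3
  have hinf : e ≤ sInf ((fun χ : Cfsg.IrrCharacter G =>
      (Cfsg.charDegree (χ : G → ℂ)).factorization p) '' Cfsg.blockOf M (χ₀ : G → ℂ)) := by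
    apply le_csInf
    · exact ⟨_, ⟨χ₀, sameBlock_refl_lead hMtop _, rfl⟩⟩
    · rintro _ ⟨ψ, hψ, rfl⟩
      exact hI ψ hψ
  unfold Cfsg.blockDefect
  rw [hfac]
  omega

/-- a family `a` of rows and a family `w` of columns, dual to each other modulo the local ideal
with all the products outside the index set `P` in the local ideal: the rows are at most as
many as the indices in `P` -/
theorem card_subtype_le_of_local_dual_lead {M : Ideal Cfsg.AlgInt} (hM : M.IsPrime)
    {R C : Type*} [Fintype R] [DecidableEq R] [Fintype C] (P : C → Prop) [DecidablePred P]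
    (a : R → C → ℂ) (w : C → R → ℂ)
    (hbad : ∀ (i i' : R) (c : C), ¬ P c → Cfsg.MemLocalIdeal M (a i c * w c i'))
    (hoff : ∀ i i' : R, i ≠ i' → Cfsg.MemLocalIdeal M (∑ c : C, a i c * w c i'))
    (hdiag : ∀ i : R, Cfsg.MemLocalIdeal M (∑ c : C, a i c * w c i - 1)) :
    Fintype.card R ≤ Fintype.card {c : C // P c} := by
  have hsplit : ∀ i i' : R, ∑ j : {c : C // P c}, a i j.1 * w j.1 i' =
      ∑ c : C, a i c * w c i' - ∑ j : {c : C // ¬ P c}, a i j.1 * w j.1 i' := by
    intro i i'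
    exact eq_sub_of_add_eq (Fintype.sum_subtype_add_sum_subtype P (fun c => a i c * w c i'))
  have hY : ∀ i i' : R,
      Cfsg.MemLocalIdeal M (∑ j : {c : C // ¬ P c}, a i j.1 * w j.1 i') := by
    intro i i'
    apply memLocalIdeal_sum_lead hM
    intro j _
    exact hbad i i' j.1 j.2
  have hdet : (Matrix.of (fun (i : R) (j : {c : C // P c}) => a i j.1) *
      Matrix.of (fun (j : {c : C // P c}) (i : R) => w j.1 i)).det ≠ 0 := by
    apply det_ne_zero_of_congr_one_lead hM
    · intro i i' hii'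
      simp only [Matrix.mul_apply, Matrix.of_apply]
      rw [hsplit i i']
      exact memLocalIdeal_sub_lead hM (hoff i i' hii') (hY i i')
    · intro i
      simp only [Matrix.mul_apply, Matrix.of_apply]
      rw [hsplit i i]
      have e : ∑ c : C, a i c * w c i - ∑ j : {c : C // ¬ P c}, a i j.1 * w j.1 i - 1 =
          (∑ c : C, a i c * w c i - 1) - ∑ j : {c : C // ¬ P c}, a i j.1 * w j.1 i := by
        ring
      rw [e]
      exact memLocalIdeal_sub_lead hM (hdiag i) (hY i i)
  have hunit : IsUnit (Matrix.of (fun (i : R) (j : {c : C // P c}) => a i j.1) *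
      Matrix.of (fun (j : {c : C // P c}) (i : R) => w j.1 i)) := by
    rw [Matrix.isUnit_iff_isUnit_det]
    exact isUnit_iff_ne_zero.mpr hdet
  have h1 := Matrix.rank_of_isUnit _ hunit
  have h2 := Matrix.rank_mul_le_left (Matrix.of (fun (i : R) (j : {c : C // P c}) => a i j.1))
    (Matrix.of (fun (j : {c : C // P c}) (i : R) => w j.1 i))
  have h3 := Matrix.rank_le_card_width
    (Matrix.of (fun (i : R) (j : {c : C // P c}) => a i j.1))
  rw [← h1]
  exact le_trans h2 h3

end Cfsg.Agent.Lib.Lead
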