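import Mathlib
import Cfsg.Prelude.Def_Blocks
import Cfsg.Agent.Lib.Lead.BlockOsima2
import Cfsg.Agent.Lib.Lead.CharNormal

/-!
# Blocks and normal subgroups

Conjugation of characters of a normal subgroup and blocks, and the integrality of the
idempotent of a union of blocks.
-/

set_option autoImplicit false

namespace Cfsg.Agent.Lib.Lead

open scoped ComplexConjugate

universe u

section conjsec

variable {G : Type u} [Group G] (N : Subgroup G) [hN : N.Normal]

theorem conjHom_injective_lead (g : G) : Function.Injective (conjHom N g) := by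
  intro a b hab
  have h := congrArg (conjHom N g⁻¹) hab
  rw [conjHom_mul, conjHom_mul, inv_mul_cancel, conjHom_one, conjHom_one] at h
  exact h

theorem centralizer_index_conjHom_lead (g : G) (n : N) :
    (Subgroup.centralizer ({conjHom N g n} : Set N)).index =
      (Subgroup.centralizer ({n} : Set N)).index := by
  have hinj := conjHom_injective_lead N g
  have hcomap : (Subgroup.centralizer ({conjHom N g n} : Set N)).comap (conjHom N g) =
      Subgroup.centralizer ({n} : Set N) := by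
    ext x
    rw [Subgroup.mem_comap, Subgroup.mem_centralizer_iff, Subgroup.mem_centralizer_iff]
    constructor
    · intro h y hy
      rw [Set.mem_singleton_iff.mp hy]
      have h1 := h (conjHom N g n) (Set.mem_singleton _)
      rw [← map_mul, ← map_mul] at h1
      exact hinj h1
    · intro h y hy
      rw [Set.mem_singleton_iff.mp hy]
      have h1 := h n (Set.mem_singleton _)
      rw [← map_mul, ← map_mul, h1]
  rw [← hcomap, Subgroup.index_comap_of_surjective _ (conjHom_surjective N g)]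

theorem centralChar_conjHom_lead (g : G) (φ : N → ℂ) (n : N) :
    Cfsg.centralChar (φ ∘ conjHom N g) n = Cfsg.centralChar φ (conjHom N g n) := by
  unfold Cfsg.centralChar
  rw [centralizer_index_conjHom_lead N g n]
  show _ * φ (conjHom N g n) / φ (conjHom N g 1) = _
  rw [map_one]

theorem sameBlock_conjHom_lead (g : G) {M : Ideal Cfsg.AlgInt} {φ φ' : N → ℂ}
    (h : Cfsg.SameBlock M φ φ') :
    Cfsg.SameBlock M (φ ∘ conjHom N g) (φ' ∘ conjHom N g) := by
  intro n
  rw [centralChar_conjHom_lead, centralChar_conjHom_lead]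
  exact h (conjHom N g n)

/-- the conjugate of an irreducible character of a normal subgroup -/
noncomputable def conjIrr_lead (g : G) (φ : Cfsg.IrrCharacter N) : Cfsg.IrrCharacter N :=
  ⟨(φ : N → ℂ) ∘ conjHom N g, isIrrCharacter_conjHom N g φ.2⟩

theorem conjIrr_conjIrr_lead (g h : G) (φ : Cfsg.IrrCharacter N) :
    conjIrr_lead N g (conjIrr_lead N h φ) = conjIrr_lead N (h * g) φ := by
  apply Subtype.ext
  funext n
  show (φ : N → ℂ) (conjHom N h (conjHom N g n)) = (φ : N → ℂ) (conjHom N (h * g) n)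
  rw [conjHom_mul]

theorem conjIrr_one_lead (φ : Cfsg.IrrCharacter N) : conjIrr_lead N 1 φ = φ := by
  apply Subtype.ext
  funext n
  show (φ : N → ℂ) (conjHom N 1 n) = (φ : N → ℂ) n
  rw [conjHom_one]

end conjsec

/-- the idempotent of a union of blocks has coefficients in the local ring -/
theorem blockCoeff_union_lead {G : Type u} [Group G] [Fintype G] (p : ℕ) (hp : p.Prime)
    (M : Ideal Cfsg.AlgInt) (hMprime : M.IsPrime) (hpM : (p : Cfsg.AlgInt) ∈ M) :
    ∀ (k : ℕ) (A : Set (Cfsg.IrrCharacter G)), A.ncard = k →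
      (∀ φ ∈ A, ∀ φ' : Cfsg.IrrCharacter G,
        Cfsg.SameBlock M (φ : G → ℂ) (φ' : G → ℂ) → φ' ∈ A) →
      ∀ g : G, Cfsg.MemLocalRing M (Cfsg.blockCoeff A g) := by
  classical
  haveI : Fintype (Cfsg.IrrCharacter G) := Fintype.ofFinite _
  have hMtop : M ≠ ⊤ := hMprime.ne_top
  intro k
  induction k using Nat.strong_induction_on with
  | _ k ih =>
  intro A hk hA g
  by_cases hne : A.Nonempty
  · obtain ⟨φ₀, hφ₀⟩ := hne
    have hsub : Cfsg.blockOf M (φ₀ : G → ℂ) ⊆ A := fun φ' hφ' => hA φ₀ hφ₀ φ' hφ'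
    have hφ₀B : φ₀ ∈ Cfsg.blockOf M (φ₀ : G → ℂ) := sameBlock_refl_lead hMtop (φ₀ : G → ℂ)
    have hA' : ∀ φ ∈ A \ Cfsg.blockOf M (φ₀ : G → ℂ), ∀ φ' : Cfsg.IrrCharacter G,
        Cfsg.SameBlock M (φ : G → ℂ) (φ' : G → ℂ) →
          φ' ∈ A \ Cfsg.blockOf M (φ₀ : G → ℂ) := by
      intro φ hφ φ' hφφ'
      refine ⟨hA φ hφ.1 φ' hφφ', ?_⟩
      intro hφ'
      have hφ'' : Cfsg.SameBlock M (φ₀ : G → ℂ) (φ' : G → ℂ) := hφ'
      exact hφ.2 (sameBlock_trans_lead hMprime hφ'' (sameBlock_symm_lead hφφ'))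
    have hlt : (A \ Cfsg.blockOf M (φ₀ : G → ℂ)).ncard < k := by
      rw [← hk]
      exact Set.ncard_lt_ncard
        (Set.ssubset_def.mpr ⟨Set.sdiff_subset, fun h => (h hφ₀).2 hφ₀B⟩) (Set.toFinite A)
    have h1 := ih _ hlt (A \ Cfsg.blockOf M (φ₀ : G → ℂ)) rfl hA' g
    have h2 := osima_lead p hp M hMprime hpM φ₀ g
    have e : Cfsg.blockCoeff A g = Cfsg.blockCoeff (Cfsg.blockOf M (φ₀ : G → ℂ)) g +
        Cfsg.blockCoeff (A \ Cfsg.blockOf M (φ₀ : G → ℂ)) g := by
      rw [blockCoeff_eq_sum_lead A g, blockCoeff_eq_sum_lead (Cfsg.blockOf M (φ₀ : G → ℂ)) g,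
        blockCoeff_eq_sum_lead (A \ Cfsg.blockOf M (φ₀ : G → ℂ)) g, ← mul_add,
        ← Finset.sum_add_distrib]
      congr 1
      apply Finset.sum_congr rfl
      intro φ _
      by_cases hφB : φ ∈ Cfsg.blockOf M (φ₀ : G → ℂ)
      · have hφA : φ ∈ A := hsub hφB
        have hφD : φ ∉ A \ Cfsg.blockOf M (φ₀ : G → ℂ) := fun h => h.2 hφB
        rw [if_pos hφA, if_pos hφB, if_neg hφD, add_zero]
      · by_cases hφA : φ ∈ A
        · have hφD : φ ∈ A \ Cfsg.blockOf M (φ₀ : G → ℂ) := ⟨hφA, hφB⟩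
          rw [if_pos hφA, if_neg hφB, if_pos hφD, zero_add]
        · have hφD : φ ∉ A \ Cfsg.blockOf M (φ₀ : G → ℂ) := fun h => hφA h.1
          rw [if_neg hφA, if_neg hφB, if_neg hφD, add_zero]
    rw [e]
    exact memLocalRing_add_lead hMprime h2 h1
  · have hA0 : A = ∅ := Set.not_nonempty_iff_eq_empty.mp hne
    rw [blockCoeff_eq_sum_lead A g, Finset.sum_eq_zero, mul_zero]
    · exact memLocalRing_zero_lead hMtop
    · intro φ _
      rw [if_neg]
      rw [hA0]
      exact Set.notMem_empty φ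

end Cfsg.Agent.Lib.Lead
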