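import Mathlib
import Cfsg.Prelude.Def_Blocks
import Cfsg.Agent.Lib.Lead.BlockCover
import Cfsg.Agent.Lib.Lead.CharInd

/-!
# Covering of blocks

The union of the conjugates of a block of a normal subgroup and its idempotent, and sums of
induced central characters over the classes of the group.
-/

set_option autoImplicit false

namespace Cfsg.Agent.Lib.Lead

open scoped ComplexConjugate

universe u

/-- the union of the `G`-conjugates of a block of a normal subgroup: it is stable under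
conjugation and its idempotent has `G`-invariant coefficients in the local ring -/
theorem coverSet_lead {G : Type u} [Group G] [Fintype G] (p : ℕ) (hp : p.Prime)
    (M : Ideal Cfsg.AlgInt) (hMprime : M.IsPrime) (hpM : (p : Cfsg.AlgInt) ∈ M)
    (N : Subgroup G) [hN : N.Normal] [Fintype N] (θ₀ : Cfsg.IrrCharacter N) :
    ∃ S : Set (Cfsg.IrrCharacter N),
      (∀ φ : Cfsg.IrrCharacter N, φ ∈ S ↔ ∃ g : G,
        ∃ θ' ∈ Cfsg.blockOf M (θ₀ : N → ℂ), φ = conjIrr_lead N g θ') ∧
      (∀ (g : G) (φ : Cfsg.IrrCharacter N), φ ∈ S → conjIrr_lead N g φ ∈ S) ∧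
      (∀ n : N, Cfsg.MemLocalRing M (Cfsg.blockCoeff S n)) ∧
      (∀ (g : G) (n : N), Cfsg.blockCoeff S (conjHom N g n) = Cfsg.blockCoeff S n) := by
  classical
  obtain ⟨S, hS⟩ : ∃ S : Set (Cfsg.IrrCharacter N), S = {φ | ∃ g : G,
      ∃ θ' ∈ Cfsg.blockOf M (θ₀ : N → ℂ), φ = conjIrr_lead N g θ'} := ⟨_, rfl⟩
  have hSmem : ∀ φ : Cfsg.IrrCharacter N, φ ∈ S ↔ ∃ g : G,
      ∃ θ' ∈ Cfsg.blockOf M (θ₀ : N → ℂ), φ = conjIrr_lead N g θ' := by
    intro φ
    rw [hS]
    exact Iff.rfl
  have hSconj : ∀ (g : G) (φ : Cfsg.IrrCharacter N), φ ∈ S → conjIrr_lead N g φ ∈ S := by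
    intro g φ hφ
    obtain ⟨h, θ', hθ', rfl⟩ := (hSmem φ).mp hφ
    exact (hSmem _).mpr ⟨h * g, θ', hθ', conjIrr_conjIrr_lead N g h θ'⟩
  have hSclosed : ∀ φ ∈ S, ∀ φ' : Cfsg.IrrCharacter N,
      Cfsg.SameBlock M (φ : N → ℂ) (φ' : N → ℂ) → φ' ∈ S := by
    intro φ hφ φ' hφφ'
    obtain ⟨h, θ', hθ', rfl⟩ := (hSmem φ).mp hφ
    have h1 := sameBlock_conjHom_lead N h⁻¹ hφφ'
    have e1 : ((conjIrr_lead N h θ' : Cfsg.IrrCharacter N) : N → ℂ) ∘ conjHom N h⁻¹ =
        (θ' : N → ℂ) := by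
      funext n
      show (θ' : N → ℂ) (conjHom N h (conjHom N h⁻¹ n)) = (θ' : N → ℂ) n
      rw [conjHom_mul, mul_inv_cancel, conjHom_one]
    rw [e1] at h1
    have hθ'' : Cfsg.SameBlock M (θ₀ : N → ℂ) (θ' : N → ℂ) := hθ'
    have h2 : conjIrr_lead N h⁻¹ φ' ∈ Cfsg.blockOf M (θ₀ : N → ℂ) :=
      sameBlock_trans_lead hMprime hθ'' h1
    refine (hSmem φ').mpr ⟨h, conjIrr_lead N h⁻¹ φ', h2, ?_⟩
    rw [conjIrr_conjIrr_lead, inv_mul_cancel, conjIrr_one_lead]
  refine ⟨S, hSmem, hSconj, blockCoeff_union_lead p hp M hMprime hpM _ S rfl hSclosed, ?_⟩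
  intro g n
  unfold Cfsg.blockCoeff
  congr 1
  apply finsum_mem_eq_of_bijOn (conjIrr_lead N g)
  · refine ⟨fun φ hφ => hSconj g φ hφ, ?_, ?_⟩
    · intro φ₁ _ φ₂ _ h12
      have h := congrArg (conjIrr_lead N g⁻¹) h12
      rw [conjIrr_conjIrr_lead, conjIrr_conjIrr_lead, mul_inv_cancel, conjIrr_one_lead,
        conjIrr_one_lead] at h
      exact h
    · intro φ hφ
      refine ⟨conjIrr_lead N g⁻¹ φ, hSconj g⁻¹ φ hφ, ?_⟩
      rw [conjIrr_conjIrr_lead, inv_mul_cancel, conjIrr_one_lead]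
  · intro φ _
    show (φ : N → ℂ) 1 * (starRingEnd ℂ) ((φ : N → ℂ) (conjHom N g n)) =
      (φ : N → ℂ) (conjHom N g 1) * (starRingEnd ℂ) ((φ : N → ℂ) (conjHom N g n))
    rw [map_one]

/-- the extension by zero of a conjugation-invariant function on a normal subgroup is a class
function -/
theorem extendByZero_classFun_lead {G : Type u} [Group G] (N : Subgroup G) [hN : N.Normal]
    (f : N → ℂ) (hf : ∀ (g : G) (n : N), f (conjHom N g n) = f n) (g h : G) :
    Cfsg.extendByZero N f (h * g * h⁻¹) = Cfsg.extendByZero N f g := by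
  by_cases hg : g ∈ N
  · have hg' : h * g * h⁻¹ ∈ N := hN.conj_mem g hg h
    rw [extendByZero_mem N _ hg', extendByZero_mem N _ hg]
    exact hf h ⟨g, hg⟩
  · have hg' : h * g * h⁻¹ ∉ N := by
      intro hc
      apply hg
      have h3 := hN.conj_mem _ hc h⁻¹
      have e : h⁻¹ * (h * g * h⁻¹) * h⁻¹⁻¹ = g := by group
      rw [e] at h3
      exact h3
    rw [extendByZero_not_mem N _ hg', extendByZero_not_mem N _ hg]

theorem extendByZero_memLocalRing_lead {G : Type u} [Group G] (N : Subgroup G)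
    {M : Ideal Cfsg.AlgInt} (hM : M ≠ ⊤) (f : N → ℂ)
    (hf : ∀ n : N, Cfsg.MemLocalRing M (f n)) (g : G) :
    Cfsg.MemLocalRing M (Cfsg.extendByZero N f g) := by
  by_cases hg : g ∈ N
  · rw [extendByZero_mem N _ hg]
    exact hf ⟨g, hg⟩
  · rw [extendByZero_not_mem N _ hg]
    exact memLocalRing_zero_lead hM

/-- a class function against the induced central characters, summed over the classes -/
theorem sum_class_induced_lead {G : Type u} [Group G] [Fintype G] [Fintype (ConjClasses G)]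
    (N : Subgroup G) [Fintype N] (E : G → ℂ) (hE : ∀ g h : G, E (h * g * h⁻¹) = E g)
    (φ : N → ℂ) :
    ∑ c : ConjClasses G, E (Quotient.out c) * Cfsg.inducedCentralChar N φ (Quotient.out c) =
      ∑ m : N, E (m : G) * (φ m / φ 1) := by
  classical
  have h1 : ∀ c : ConjClasses G,
      E (Quotient.out c) * Cfsg.inducedCentralChar N φ (Quotient.out c) =
      ∑ m : N, if IsConj (Quotient.out c) (m : G) then E (Quotient.out c) * (φ m / φ 1)
        else 0 := by
    intro c
    rw [inducedCentralChar_sum_lead, Finset.mul_sum]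
    apply Finset.sum_congr rfl
    intro m _
    by_cases h : IsConj (Quotient.out c) (m : G)
    · rw [if_pos h,
        Set.indicator_of_mem (show m ∈ {h : N | IsConj (Quotient.out c) (h : G)} from h)]
    · rw [if_neg h,
        Set.indicator_of_notMem (show m ∉ {h : N | IsConj (Quotient.out c) (h : G)} from h),
        mul_zero]
  rw [Finset.sum_congr rfl (fun c _ => h1 c), Finset.sum_comm]
  apply Finset.sum_congr rfl
  intro m _
  rw [Finset.sum_eq_single (ConjClasses.mk (m : G))]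
  · have hc : IsConj (Quotient.out (ConjClasses.mk (m : G))) (m : G) :=
      ConjClasses.mk_eq_mk_iff_isConj.mp (Quotient.out_eq (ConjClasses.mk (m : G)))
    rw [if_pos hc]
    obtain ⟨k, hk⟩ := isConj_iff.mp hc
    have h2 := hE (Quotient.out (ConjClasses.mk (m : G))) k
    rw [hk] at h2
    rw [h2]
  · intro c _ hc
    rw [if_neg]
    intro h
    apply hc
    exact (Quotient.out_eq c).symm.trans (ConjClasses.mk_eq_mk_iff_isConj.mpr h)
  · intro h
    exact absurd (Finset.mem_univ _) h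

/-- induced central characters of characters in the same block are congruent -/
theorem induced_sameBlock_lead {G : Type u} [Group G] (N : Subgroup G) [Fintype N]
    {M : Ideal Cfsg.AlgInt} (hM : M.IsPrime) (θ θ' : Cfsg.IrrCharacter N)
    (h : Cfsg.SameBlock M (θ : N → ℂ) (θ' : N → ℂ)) (g : G) :
    Cfsg.MemLocalIdeal M (Cfsg.inducedCentralChar N (θ : N → ℂ) g -
      Cfsg.inducedCentralChar N (θ' : N → ℂ) g) := by
  classical
  haveI : Fintype (ConjClasses N) := Fintype.ofFinite _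
  rw [inducedCentralChar_regroup_lead N (θ : N → ℂ) (isClassFunction_of_irr θ.2) g,
    inducedCentralChar_regroup_lead N (θ' : N → ℂ) (isClassFunction_of_irr θ'.2) g,
    ← Finset.sum_sub_distrib]
  apply memLocalIdeal_sum_lead hM
  intro c _
  beta_reduce
  by_cases hc : IsConj g ((Quotient.out c : N) : G)
  · rw [if_pos hc, if_pos hc]
    exact h (Quotient.out c)
  · rw [if_neg hc, if_neg hc, sub_zero]
    exact memLocalIdeal_zero_lead hM.ne_top

end Cfsg.Agent.Lib.Lead
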