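import Mathlib
import Cfsg.Prelude.Def_Blocks
import Cfsg.Agent.Lib.Lead.BlockMinMax
import Cfsg.Agent.Lib.Lead.BlockAux
import Cfsg.Agent.Lib.Lead.CharCongr
import Cfsg.Agent.Lib.Lead.CharRing

/-!
# Nilpotency of central elements with spectrum in the local ideal

A central element of the group algebra with local coefficients all of whose values on the
irreducible characters lie in the local ideal has a power with coefficients in the local ideal.
-/

set_option autoImplicit false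

namespace Cfsg.Agent.Lib.Lead

open scoped ComplexConjugate

universe u

theorem nilp_conv_lead (p : ℕ) (hp : p.Prime) (M : Ideal Cfsg.AlgInt) (hMprime : M.IsPrime)
    (hpM : (p : Cfsg.AlgInt) ∈ M) {K : Type u} [Group K] [Fintype K]
    [Fintype (Cfsg.IrrCharacter K)] (u : K → ℂ) (hu : Cfsg.IsClassFunction K u)
    (huR : ∀ x, Cfsg.MemLocalRing M (u x)) (a : Cfsg.IrrCharacter K → ℂ)
    (hT : ∀ η : Cfsg.IrrCharacter K, ∑ g : K, u g * (η : K → ℂ) g = a η * (η : K → ℂ) 1)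
    (ha : ∀ η, Cfsg.MemLocalIdeal M (a η)) :
    ∃ q : ℕ → K → ℂ, q 0 = u ∧ (∀ n x, q (n + 1) x = ∑ y : K, q n y * u (y⁻¹ * x)) ∧
      (∀ n, Cfsg.IsClassFunction K (q n)) ∧ (∀ n x, Cfsg.MemLocalRing M (q n x)) ∧
      ∃ N : ℕ, ∀ x, Cfsg.MemLocalIdeal M (q N x) := by
  classical
  have hMtop : M ≠ ⊤ := hMprime.ne_top
  obtain ⟨q, hq0, hqs⟩ : ∃ q : ℕ → K → ℂ, q 0 = u ∧
      ∀ n x, q (n + 1) x = ∑ y : K, q n y * u (y⁻¹ * x) :=
    ⟨fun n => Nat.rec (motive := fun _ => K → ℂ) u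
      (fun _ f x => ∑ y : K, f y * u (y⁻¹ * x)) n, rfl, fun _ _ => rfl⟩
  have hqc : ∀ n, Cfsg.IsClassFunction K (q n) := by
    intro n
    induction n with
    | zero =>
      rw [hq0]
      exact hu
    | succ n ih =>
      have e : q (n + 1) = fun g => ∑ x : K, q n x * u (x⁻¹ * g) := funext (hqs n)
      rw [e]
      exact conv_classFun_lead (q n) u ih hu
  have hqR : ∀ n x, Cfsg.MemLocalRing M (q n x) := by
    intro n
    induction n with
    | zero =>
      intro x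
      rw [hq0]
      exact huR x
    | succ n ih =>
      intro x
      rw [hqs]
      exact memLocalRing_sum_lead hMprime _ _
        (fun y _ => memLocalRing_mul_lead hMprime (ih y) (huR _))
  have hqT : ∀ n (η : Cfsg.IrrCharacter K),
      ∑ g : K, q n g * (η : K → ℂ) g = a η ^ (n + 1) * (η : K → ℂ) 1 := by
    intro n
    induction n with
    | zero =>
      intro η
      rw [hq0, zero_add, pow_one]
      exact hT η
    | succ n ih =>
      intro η
      obtain ⟨d, hd0, hd⟩ := irr_one η.2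
      have hη1 : (η : K → ℂ) 1 ≠ 0 := by
        rw [hd]
        exact_mod_cast hd0
      have h1 := conv_transform_lead (q n) u (hqc n) (η : K → ℂ) η.2
      have e : ∑ g : K, q (n + 1) g * (η : K → ℂ) g =
          ∑ g : K, (∑ x : K, q n x * u (x⁻¹ * g)) * (η : K → ℂ) g :=
        Finset.sum_congr rfl (fun g _ => by rw [hqs])
      rw [e, h1, ih η, hT η, div_eq_iff hη1]
      ring
  obtain ⟨e, k', hk', hcard⟩ :=
    Nat.exists_eq_pow_mul_and_not_dvd (Nat.card_pos (α := K)).ne' p hp.ne_one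
  choose m r hrR hmr using
    fun η : Cfsg.IrrCharacter K => exists_pow_eq_p_mul_lead hMprime p hp (ha η)
  obtain ⟨T, hTdef⟩ : ∃ T : ℕ, T = ∑ η : Cfsg.IrrCharacter K, m η := ⟨_, rfl⟩
  have hmT : ∀ η, m η ≤ T := by
    intro η
    rw [hTdef]
    exact Finset.single_le_sum (fun i _ => Nat.zero_le (m i)) (Finset.mem_univ η)
  have haR : ∀ η, Cfsg.MemLocalRing M (a η) := fun η => memLocalRing_of_ideal_lead (ha η)
  have hpow : ∀ η, ∃ t : ℂ, Cfsg.MemLocalRing M t ∧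
      a η ^ (T * (e + 1) + 1) = (p : ℂ) ^ (e + 1) * t := by
    intro η
    refine ⟨r η ^ (e + 1) * a η ^ (T * (e + 1) + 1 - m η * (e + 1)), ?_, ?_⟩
    · exact memLocalRing_mul_lead hMprime (memLocalRing_pow_lead hMprime (hrR η) _)
        (memLocalRing_pow_lead hMprime (haR η) _)
    · have hle : m η * (e + 1) ≤ T * (e + 1) + 1 :=
        le_trans (Nat.mul_le_mul_right _ (hmT η)) (Nat.le_succ _)
      calc a η ^ (T * (e + 1) + 1)
          = a η ^ (m η * (e + 1)) * a η ^ (T * (e + 1) + 1 - m η * (e + 1)) := by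
            rw [← pow_add, Nat.add_sub_cancel' hle]
        _ = (p : ℂ) ^ (e + 1) *
              (r η ^ (e + 1) * a η ^ (T * (e + 1) + 1 - m η * (e + 1))) := by
            rw [pow_mul, hmr η, mul_pow, mul_assoc]
  refine ⟨q, hq0, hqs, hqc, hqR, T * (e + 1), ?_⟩
  intro x
  have hx : q (T * (e + 1)) x = (Nat.card K : ℂ)⁻¹ * ∑ φ : Cfsg.IrrCharacter K,
      a φ ^ (T * (e + 1) + 1) * ((φ : K → ℂ) 1 * conj ((φ : K → ℂ) x)) :=
    specT_unique_lead (q (T * (e + 1))) (hqc _) (fun η => a η ^ (T * (e + 1) + 1))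
      (fun η => hqT (T * (e + 1)) η) x
  rw [hx]
  have hp0 : (p : ℂ) ≠ 0 := by exact_mod_cast hp.ne_zero
  have hk'M : ((k' : ℕ) : Cfsg.AlgInt) ∉ M :=
    natCast_not_mem_lead hMtop p k' ((Nat.Prime.coprime_iff_not_dvd hp).mpr hk').symm hpM
  have hpI : Cfsg.MemLocalIdeal M (p : ℂ) :=
    memLocalIdeal_of_mem_lead hMtop (p : Cfsg.AlgInt) hpM
  have hkinv : Cfsg.MemLocalRing M ((k' : ℂ)⁻¹) := memLocalRing_inv_lead hk'M
  have hcoef : Cfsg.MemLocalIdeal M ((Nat.card K : ℂ)⁻¹ * (p : ℂ) ^ (e + 1)) := by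
    have e1 : (Nat.card K : ℂ)⁻¹ * (p : ℂ) ^ (e + 1) = (k' : ℂ)⁻¹ * (p : ℂ) := by
      rw [hcard, Nat.cast_mul, Nat.cast_pow, mul_inv, pow_succ]
      calc ((p : ℂ) ^ e)⁻¹ * (k' : ℂ)⁻¹ * ((p : ℂ) ^ e * (p : ℂ))
          = (k' : ℂ)⁻¹ * (p : ℂ) * (((p : ℂ) ^ e)⁻¹ * (p : ℂ) ^ e) := by ring
        _ = (k' : ℂ)⁻¹ * (p : ℂ) := by rw [inv_mul_cancel₀ (pow_ne_zero e hp0), mul_one]
    rw [e1]
    exact memLocalIdeal_mul_ring_lead hMprime hkinv hpI
  rw [Finset.mul_sum]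
  refine memLocalIdeal_sum_lead hMprime _ _ (fun φ _ => ?_)
  obtain ⟨t, htR, hte⟩ := hpow φ
  rw [hte]
  have hφc := isCharacter_of_isIrrCharacter φ.2
  have hint1 : Cfsg.MemLocalRing M ((φ : K → ℂ) 1) :=
    memLocalRing_isIntegral_lead hMtop (isIntegral_isCharacter hφc 1)
  have hint2 : Cfsg.MemLocalRing M (conj ((φ : K → ℂ) x)) := by
    rw [← isCharacter_inv hφc x]
    exact memLocalRing_isIntegral_lead hMtop (isIntegral_isCharacter hφc x⁻¹)
  have e2 : (Nat.card K : ℂ)⁻¹ *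
      ((p : ℂ) ^ (e + 1) * t * ((φ : K → ℂ) 1 * conj ((φ : K → ℂ) x)))
      = (t * ((φ : K → ℂ) 1 * conj ((φ : K → ℂ) x))) *
        ((Nat.card K : ℂ)⁻¹ * (p : ℂ) ^ (e + 1)) := by ring
  rw [e2]
  exact memLocalIdeal_mul_ring_lead hMprime
    (memLocalRing_mul_lead hMprime htR (memLocalRing_mul_lead hMprime hint1 hint2)) hcoef

end Cfsg.Agent.Lib.Lead
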