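import Mathlib
import Cfsg.Prelude.Def_Blocks
import Cfsg.Agent.Lib.Lead.BlockMinMax
import Cfsg.Agent.Lib.Lead.BlockAux

/-!
# The Brauer map in matrix form

Restriction to the centralizer of a `p`-element is multiplicative modulo the local ideal on
functions invariant under that element; an idempotent whose restriction agrees with a nilpotent
element restricts to zero.
-/

set_option autoImplicit false

namespace Cfsg.Agent.Lib.Lead

open scoped ComplexConjugate

universe u

open Classical in
/-- the indicator function of the centralizer of `z` -/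
noncomputable def centInd_lead {G : Type u} [Group G] (z g : G) : ℂ :=
  if z * g = g * z then 1 else 0

theorem centInd_pos_lead {G : Type u} [Group G] {z g : G} (h : z * g = g * z) :
    centInd_lead z g = 1 := by
  unfold centInd_lead
  exact if_pos h

theorem centInd_neg_lead {G : Type u} [Group G] {z g : G} (h : ¬ z * g = g * z) :
    centInd_lead z g = 0 := by
  unfold centInd_lead
  exact if_neg h

open Classical in
/-- the projection onto the centralizer of `z` -/
noncomputable def centProj_lead {G : Type u} [Group G] (z : G) : Matrix G G ℂ :=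
  Matrix.diagonal (centInd_lead z)

/-- the matrix of the left multiplication by a function on the group -/
noncomputable def convMat_lead {G : Type u} [Group G] (f : G → ℂ) : Matrix G G ℂ :=
  fun r s => f (r * s⁻¹)

theorem centProj_mul_lead {G : Type u} [Group G] [Fintype G] (z : G) (X : Matrix G G ℂ)
    (r s : G) : (centProj_lead z * X) r s = centInd_lead z r * X r s := by
  classical
  unfold centProj_lead
  rw [Matrix.mul_apply]
  rw [Finset.sum_eq_single r]
  · rw [Matrix.diagonal_apply_eq]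
  · intro b _ hb
    rw [Matrix.diagonal_apply_ne _ (Ne.symm hb), zero_mul]
  · intro h
    exact absurd (Finset.mem_univ r) h

theorem mul_centProj_lead {G : Type u} [Group G] [Fintype G] (z : G) (X : Matrix G G ℂ)
    (r s : G) : (X * centProj_lead z) r s = X r s * centInd_lead z s := by
  classical
  unfold centProj_lead
  rw [Matrix.mul_apply]
  rw [Finset.sum_eq_single s]
  · rw [Matrix.diagonal_apply_eq]
  · intro b _ hb
    rw [Matrix.diagonal_apply_ne _ hb, mul_zero]
  · intro h
    exact absurd (Finset.mem_univ s) h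

theorem convMat_mul_lead {G : Type u} [Group G] [Fintype G] (f₁ f₂ : G → ℂ) :
    convMat_lead f₁ * convMat_lead f₂ =
      convMat_lead (fun c => ∑ x : G, f₁ x * f₂ (x⁻¹ * c)) := by
  ext r s
  rw [Matrix.mul_apply]
  show ∑ t : G, f₁ (r * t⁻¹) * f₂ (t * s⁻¹) = ∑ x : G, f₁ x * f₂ (x⁻¹ * (r * s⁻¹))
  symm
  refine Fintype.sum_equiv ((Equiv.inv G).trans (Equiv.mulRight r)) _ _ ?_
  intro x
  show f₁ x * f₂ (x⁻¹ * (r * s⁻¹)) = f₁ (r * (x⁻¹ * r)⁻¹) * f₂ (x⁻¹ * r * s⁻¹)
  have e1 : r * (x⁻¹ * r)⁻¹ = x := by group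
  rw [e1, mul_assoc]

/-- the Brauer map is multiplicative modulo the local ideal -/
theorem brauer_mul_lead (p : ℕ) (hp : p.Prime) (M : Ideal Cfsg.AlgInt) (hMprime : M.IsPrime)
    (hpM : (p : Cfsg.AlgInt) ∈ M) {G : Type u} [Group G] [Fintype G] (z : G)
    (hz : IsPGroup p (Subgroup.zpowers z)) (f₁ f₂ : G → ℂ)
    (h₁R : ∀ x, Cfsg.MemLocalRing M (f₁ x)) (h₂R : ∀ x, Cfsg.MemLocalRing M (f₂ x))
    (h₁ : ∀ d ∈ Subgroup.zpowers z, ∀ x, f₁ (d * x * d⁻¹) = f₁ x)
    (h₂ : ∀ d ∈ Subgroup.zpowers z, ∀ x, f₂ (d * x * d⁻¹) = f₂ x)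
    (c : G) (hc : z * c = c * z) :
    Cfsg.MemLocalIdeal M (∑ g : G, f₁ g * f₂ (g⁻¹ * c) -
      ∑ g : G, centInd_lead z g * (f₁ g * f₂ (g⁻¹ * c))) := by
  have hMtop : M ≠ ⊤ := hMprime.ne_top
  have e : ∑ g : G, f₁ g * f₂ (g⁻¹ * c) - ∑ g : G, centInd_lead z g * (f₁ g * f₂ (g⁻¹ * c))
      = ∑ g : G, (1 - centInd_lead z g) * (f₁ g * f₂ (g⁻¹ * c)) := by
    rw [← Finset.sum_sub_distrib]
    refine Finset.sum_congr rfl (fun g _ => ?_)
    ring
  rw [e]
  refine pgroup_sum_lead p hp M hMprime hpM (Subgroup.zpowers z) hz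
    (fun g => (1 - centInd_lead z g) * (f₁ g * f₂ (g⁻¹ * c))) ?_ ?_ ?_
  · intro d hd x
    show (1 - centInd_lead z (d * x * d⁻¹)) * (f₁ (d * x * d⁻¹) * f₂ ((d * x * d⁻¹)⁻¹ * c)) =
      (1 - centInd_lead z x) * (f₁ x * f₂ (x⁻¹ * c))
    obtain ⟨m, hm⟩ := Subgroup.mem_zpowers_iff.mp hd
    have hzc : Commute z c := hc
    have hdc : Commute d c := by
      rw [← hm]
      exact hzc.zpow_left m
    have hzd : Commute z d := by
      rw [← hm]
      exact (Commute.refl z).zpow_right m
    have hiff : (z * (d * x * d⁻¹) = d * x * d⁻¹ * z) ↔ (z * x = x * z) := by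
      constructor
      · intro h
        have h' : Commute z (d * x * d⁻¹) := h
        have h1 : Commute z (d⁻¹ * (d * x * d⁻¹) * d) :=
          (hzd.inv_right.mul_right h').mul_right hzd
        have e1 : d⁻¹ * (d * x * d⁻¹) * d = x := by
          simp only [mul_assoc, inv_mul_cancel, mul_one, inv_mul_cancel_left]
        rw [e1] at h1
        exact h1.eq
      · intro h
        have h' : Commute z x := h
        exact ((hzd.mul_right h').mul_right hzd.inv_right).eq
    have hci : centInd_lead z (d * x * d⁻¹) = centInd_lead z x := by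
      by_cases hx : z * x = x * z
      · rw [centInd_pos_lead hx, centInd_pos_lead (hiff.mpr hx)]
      · rw [centInd_neg_lead hx, centInd_neg_lead (fun h => hx (hiff.mp h))]
    have e2 : (d * x * d⁻¹)⁻¹ * c = d * (x⁻¹ * c) * d⁻¹ := by
      have hdc' : d⁻¹ * c = c * d⁻¹ := hdc.inv_left.eq
      calc (d * x * d⁻¹)⁻¹ * c = d * x⁻¹ * (d⁻¹ * c) := by group
        _ = d * x⁻¹ * (c * d⁻¹) := by rw [hdc']
        _ = d * (x⁻¹ * c) * d⁻¹ := by group
    rw [hci, e2, h₁ d hd x, h₂ d hd (x⁻¹ * c)]
  · intro x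
    show Cfsg.MemLocalRing M ((1 - centInd_lead z x) * (f₁ x * f₂ (x⁻¹ * c)))
    refine memLocalRing_mul_lead hMprime ?_ (memLocalRing_mul_lead hMprime (h₁R x) (h₂R _))
    by_cases hx : z * x = x * z
    · rw [centInd_pos_lead hx, sub_self]
      exact memLocalRing_zero_lead hMtop
    · rw [centInd_neg_lead hx, sub_zero]
      exact memLocalRing_one_lead hMtop
  · intro x hx
    have hzx : ¬ z * x = x * z := by
      intro h
      apply hx
      show (1 - centInd_lead z x) * (f₁ x * f₂ (x⁻¹ * c)) = 0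
      rw [centInd_pos_lead h, sub_self, zero_mul]
    exact ⟨z, Subgroup.mem_zpowers z, fun h => hzx (mul_inv_eq_iff_eq_mul.mp h)⟩

/-- the Brauer map is multiplicative modulo the local ideal, in matrix form -/
theorem brauer_mat_lead (p : ℕ) (hp : p.Prime) (M : Ideal Cfsg.AlgInt) (hMprime : M.IsPrime)
    (hpM : (p : Cfsg.AlgInt) ∈ M) {G : Type u} [Group G] [Fintype G] (z : G)
    (hz : IsPGroup p (Subgroup.zpowers z)) (f₁ f₂ : G → ℂ)
    (h₁R : ∀ x, Cfsg.MemLocalRing M (f₁ x)) (h₂R : ∀ x, Cfsg.MemLocalRing M (f₂ x))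
    (h₁ : ∀ d ∈ Subgroup.zpowers z, ∀ x, f₁ (d * x * d⁻¹) = f₁ x)
    (h₂ : ∀ d ∈ Subgroup.zpowers z, ∀ x, f₂ (d * x * d⁻¹) = f₂ x) (r s : G) :
    Cfsg.MemLocalIdeal M
      ((centProj_lead z * convMat_lead f₁ * convMat_lead f₂ * centProj_lead z -
        centProj_lead z * convMat_lead f₁ * centProj_lead z * convMat_lead f₂ *
          centProj_lead z) r s) := by
  have hMtop : M ≠ ⊤ := hMprime.ne_top
  have hmat : centProj_lead z * convMat_lead f₁ * convMat_lead f₂ * centProj_lead z -
      centProj_lead z * convMat_lead f₁ * centProj_lead z * convMat_lead f₂ * centProj_lead z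
      = centProj_lead z * (convMat_lead f₁ * convMat_lead f₂ -
          convMat_lead f₁ * centProj_lead z * convMat_lead f₂) * centProj_lead z := by
    simp only [mul_sub, sub_mul, mul_assoc]
  rw [hmat, mul_centProj_lead, centProj_mul_lead, Matrix.sub_apply, Matrix.mul_apply,
    Matrix.mul_apply]
  simp only [mul_centProj_lead]
  by_cases hr : z * r = r * z
  · by_cases hs : z * s = s * z
    · rw [centInd_pos_lead hr, centInd_pos_lead hs, one_mul, mul_one]
      have hzr : Commute z r := hr
      have hzs : Commute z s := hs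
      have hc : z * (r * s⁻¹) = r * s⁻¹ * z := (hzr.mul_right hzs.inv_right).eq
      have key := brauer_mul_lead p hp M hMprime hpM z hz f₁ f₂ h₁R h₂R h₁ h₂ (r * s⁻¹) hc
      have e1 : ∑ t : G, convMat_lead f₁ r t * convMat_lead f₂ t s =
          ∑ g : G, f₁ g * f₂ (g⁻¹ * (r * s⁻¹)) := by
        symm
        refine Fintype.sum_equiv ((Equiv.inv G).trans (Equiv.mulRight r)) _ _ ?_
        intro x
        show f₁ x * f₂ (x⁻¹ * (r * s⁻¹)) = f₁ (r * (x⁻¹ * r)⁻¹) * f₂ (x⁻¹ * r * s⁻¹)
        have e1' : r * (x⁻¹ * r)⁻¹ = x := by group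
        rw [e1', mul_assoc]
      have e2 : ∑ t : G, convMat_lead f₁ r t * centInd_lead z t * convMat_lead f₂ t s =
          ∑ g : G, centInd_lead z g * (f₁ g * f₂ (g⁻¹ * (r * s⁻¹))) := by
        symm
        refine Fintype.sum_equiv ((Equiv.inv G).trans (Equiv.mulRight r)) _ _ ?_
        intro x
        show centInd_lead z x * (f₁ x * f₂ (x⁻¹ * (r * s⁻¹))) =
          f₁ (r * (x⁻¹ * r)⁻¹) * centInd_lead z (x⁻¹ * r) * f₂ (x⁻¹ * r * s⁻¹)
        have e1' : r * (x⁻¹ * r)⁻¹ = x := by group
        have hci : centInd_lead z (x⁻¹ * r) = centInd_lead z x := by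
          by_cases hx : z * x = x * z
          · have hzx : Commute z x := hx
            rw [centInd_pos_lead hx, centInd_pos_lead (hzx.inv_right.mul_right hzr).eq]
          · have hne : ¬ z * (x⁻¹ * r) = x⁻¹ * r * z := by
              intro h
              apply hx
              have h' : Commute z (x⁻¹ * r) := h
              have h2 : Commute z (x⁻¹ * r * r⁻¹) := h'.mul_right hzr.inv_right
              have e3 : x⁻¹ * r * r⁻¹ = x⁻¹ := by
                simp only [mul_assoc, mul_inv_cancel, mul_one]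
              rw [e3] at h2
              have h3 := h2.inv_right
              rw [inv_inv] at h3
              exact h3.eq
            rw [centInd_neg_lead hx, centInd_neg_lead hne]
        rw [e1', hci, mul_assoc x⁻¹ r s⁻¹]
        ring
      rw [e1, e2]
      exact key
    · rw [centInd_neg_lead hs, mul_zero]
      exact memLocalIdeal_zero_lead hMtop
  · rw [centInd_neg_lead hr, zero_mul, zero_mul]
    exact memLocalIdeal_zero_lead hMtop

/-- an idempotent whose Brauer image agrees with the Brauer image of a nilpotent element has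
Brauer image zero -/
theorem brauer_nilp_idem_lead (p : ℕ) (hp : p.Prime) (M : Ideal Cfsg.AlgInt)
    (hMprime : M.IsPrime) (hpM : (p : Cfsg.AlgInt) ∈ M) {G : Type u} [Group G] [Fintype G]
    (z : G) (hz : IsPGroup p (Subgroup.zpowers z))
    (w : G → ℂ) (hwR : ∀ x, Cfsg.MemLocalRing M (w x))
    (hwz : ∀ d ∈ Subgroup.zpowers z, ∀ x, w (d * x * d⁻¹) = w x)
    (hXX : convMat_lead w * convMat_lead w = convMat_lead w)
    (pw : ℕ → G → ℂ) (hpwR : ∀ n x, Cfsg.MemLocalRing M (pw n x))
    (hpwz : ∀ n, ∀ d ∈ Subgroup.zpowers z, ∀ x, pw n (d * x * d⁻¹) = pw n x)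
    (hpws : ∀ n, convMat_lead (pw (n + 1)) = convMat_lead (pw n) * convMat_lead (pw 0))
    (hwD : ∀ c, z * c = c * z → w c = pw 0 c)
    (N : ℕ) (hN : ∀ x, Cfsg.MemLocalIdeal M (pw N x)) :
    ∀ c, z * c = c * z → Cfsg.MemLocalIdeal M (w c) := by
  classical
  have hMtop : M ≠ ⊤ := hMprime.ne_top
  obtain ⟨P, hP⟩ : ∃ P : Matrix G G ℂ, P = centProj_lead z := ⟨_, rfl⟩
  obtain ⟨X, hX⟩ : ∃ X : Matrix G G ℂ, X = convMat_lead w := ⟨_, rfl⟩
  have hPP : P * P = P := by
    ext r s
    rw [hP, centProj_mul_lead]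
    unfold centProj_lead
    rw [Matrix.diagonal_apply]
    by_cases hrs : r = s
    · rw [if_pos hrs]
      by_cases h : z * r = r * z
      · rw [centInd_pos_lead h, one_mul]
      · rw [centInd_neg_lead h, zero_mul]
    · rw [if_neg hrs, mul_zero]
  have hPe : ∀ (Z : Matrix G G ℂ) (r s : G),
      (P * Z * P) r s = centInd_lead z r * Z r s * centInd_lead z s := by
    intro Z r s
    rw [hP, mul_centProj_lead, centProj_mul_lead]
  have hcR : ∀ g, Cfsg.MemLocalRing M (centInd_lead z g) := by
    intro g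
    by_cases h : z * g = g * z
    · rw [centInd_pos_lead h]
      exact memLocalRing_one_lead hMtop
    · rw [centInd_neg_lead h]
      exact memLocalRing_zero_lead hMtop
  have hIR : ∀ Z₁ Z₂ : Matrix G G ℂ, (∀ i j, Cfsg.MemLocalIdeal M (Z₁ i j)) →
      (∀ i j, Cfsg.MemLocalRing M (Z₂ i j)) →
      ∀ i j, Cfsg.MemLocalIdeal M ((Z₁ * Z₂) i j) := by
    intro Z₁ Z₂ h1 h2 i j
    rw [Matrix.mul_apply]
    refine memLocalIdeal_sum_lead hMprime _ _ (fun k _ => ?_)
    rw [mul_comm]
    exact memLocalIdeal_mul_ring_lead hMprime (h2 k j) (h1 i k)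
  obtain ⟨Y, hY⟩ : ∃ Y : Matrix G G ℂ, Y = P * X * P := ⟨_, rfl⟩
  obtain ⟨A, hA⟩ : ∃ A : Matrix G G ℂ, A = P * convMat_lead (pw 0) * P := ⟨_, rfl⟩
  have hYR : ∀ i j, Cfsg.MemLocalRing M (Y i j) := by
    intro i j
    rw [hY, hPe, hX]
    have h1 : Cfsg.MemLocalRing M (convMat_lead w i j) := hwR (i * j⁻¹)
    exact memLocalRing_mul_lead hMprime (memLocalRing_mul_lead hMprime (hcR i) h1) (hcR j)
  have hAR : ∀ i j, Cfsg.MemLocalRing M (A i j) := by
    intro i j
    rw [hA, hPe]
    have h1 : Cfsg.MemLocalRing M (convMat_lead (pw 0) i j) := hpwR 0 (i * j⁻¹)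
    exact memLocalRing_mul_lead hMprime (memLocalRing_mul_lead hMprime (hcR i) h1) (hcR j)
  have hXXm : X * X = X := by
    rw [hX]
    exact hXX
  have hB1 : ∀ r s, Cfsg.MemLocalIdeal M ((P * X * X * P - P * X * P * X * P) r s) := by
    intro r s
    rw [hP, hX]
    exact brauer_mat_lead p hp M hMprime hpM z hz w w hwR hwR hwz hwz r s
  have hYY : Y * Y - Y = -(P * X * X * P - P * X * P * X * P) := by
    have e1 : Y * Y = P * X * P * X * P := by
      rw [hY]
      calc P * X * P * (P * X * P) = P * X * (P * P) * X * P := by simp only [mul_assoc]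
        _ = P * X * P * X * P := by rw [hPP]
    have e2 : P * X * X * P = Y := by
      rw [hY, mul_assoc P X X, hXXm]
    rw [e1, e2]
    abel
  have hYpow : ∀ n : ℕ, ∀ r s, Cfsg.MemLocalIdeal M ((Y ^ (n + 1) - Y) r s) := by
    intro n
    induction n with
    | zero =>
      intro r s
      rw [zero_add, pow_one, sub_self, Matrix.zero_apply]
      exact memLocalIdeal_zero_lead hMtop
    | succ n ih =>
      intro r s
      have e : Y ^ (n + 1 + 1) - Y = (Y ^ (n + 1) - Y) * Y + (Y * Y - Y) := by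
        rw [pow_succ Y (n + 1), sub_mul]
        abel
      rw [e, Matrix.add_apply, hYY, Matrix.neg_apply]
      exact memLocalIdeal_add_lead hMprime (hIR _ _ ih hYR r s)
        (memLocalIdeal_neg_lead (hB1 r s))
  have hApow : ∀ n : ℕ, ∀ r s,
      Cfsg.MemLocalIdeal M ((A ^ (n + 1) - P * convMat_lead (pw n) * P) r s) := by
    intro n
    induction n with
    | zero =>
      intro r s
      rw [zero_add, pow_one, hA, sub_self, Matrix.zero_apply]
      exact memLocalIdeal_zero_lead hMtop
    | succ n ih =>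
      intro r s
      have e1 : P * convMat_lead (pw n) * P * A =
          P * convMat_lead (pw n) * P * convMat_lead (pw 0) * P := by
        rw [hA]
        calc P * convMat_lead (pw n) * P * (P * convMat_lead (pw 0) * P)
            = P * convMat_lead (pw n) * (P * P) * convMat_lead (pw 0) * P := by
              simp only [mul_assoc]
          _ = P * convMat_lead (pw n) * P * convMat_lead (pw 0) * P := by rw [hPP]
      have e : A ^ (n + 1 + 1) - P * convMat_lead (pw (n + 1)) * P =
          (A ^ (n + 1) - P * convMat_lead (pw n) * P) * A -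
            (P * convMat_lead (pw n) * convMat_lead (pw 0) * P -
              P * convMat_lead (pw n) * P * convMat_lead (pw 0) * P) := by
        rw [pow_succ A (n + 1), hpws n, sub_mul, e1,
          ← mul_assoc P (convMat_lead (pw n)) (convMat_lead (pw 0))]
        abel
      rw [e, Matrix.sub_apply]
      refine memLocalIdeal_sub_lead hMprime (hIR _ _ ih hAR r s) ?_
      rw [hP]
      exact brauer_mat_lead p hp M hMprime hpM z hz (pw n) (pw 0) (hpwR n) (hpwR 0)
        (hpwz n) (hpwz 0) r s
  have hYA : Y = A := by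
    ext r s
    rw [hY, hA, hPe, hPe, hX]
    by_cases hr : z * r = r * z
    · by_cases hs : z * s = s * z
      · have hzr : Commute z r := hr
        have hzs : Commute z s := hs
        have hc : z * (r * s⁻¹) = r * s⁻¹ * z := (hzr.mul_right hzs.inv_right).eq
        have e1 : convMat_lead w r s = convMat_lead (pw 0) r s := hwD (r * s⁻¹) hc
        rw [e1]
      · simp only [centInd_neg_lead hs, mul_zero]
    · simp only [centInd_neg_lead hr, zero_mul]
  have hfin : ∀ r s, Cfsg.MemLocalIdeal M (Y r s) := by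
    intro r s
    have h1 := hYpow N r s
    have h3 := hApow N r s
    have h4 : Cfsg.MemLocalIdeal M ((P * convMat_lead (pw N) * P) r s) := by
      rw [hPe]
      have h5 : Cfsg.MemLocalIdeal M (convMat_lead (pw N) r s) := hN (r * s⁻¹)
      have h6 := memLocalIdeal_mul_ring_lead hMprime (hcR r) h5
      have h7 := memLocalIdeal_mul_ring_lead hMprime (hcR s) h6
      rw [mul_comm] at h7
      exact h7
    have h2 : Cfsg.MemLocalIdeal M ((Y ^ (N + 1)) r s) := by
      rw [hYA]
      have e : (A ^ (N + 1)) r s =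
          (A ^ (N + 1) - P * convMat_lead (pw N) * P) r s +
            (P * convMat_lead (pw N) * P) r s := by
        rw [Matrix.sub_apply, sub_add_cancel]
      rw [e]
      exact memLocalIdeal_add_lead hMprime h3 h4
    have e : Y r s = (Y ^ (N + 1)) r s - (Y ^ (N + 1) - Y) r s := by
      rw [Matrix.sub_apply, sub_sub_cancel]
    rw [e]
    exact memLocalIdeal_sub_lead hMprime h2 h1
  intro c hc
  have h := hfin c 1
  rw [hY, hPe, centInd_pos_lead hc,
    centInd_pos_lead (show z * (1 : G) = 1 * z by rw [mul_one, one_mul]), one_mul, mul_one,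
    hX] at h
  have e : convMat_lead w c 1 = w c := by
    show w (c * (1 : G)⁻¹) = w c
    rw [inv_one, mul_one]
  rw [e] at h
  exact h

end Cfsg.Agent.Lib.Lead
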