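import Mathlib
import Cfsg.Prelude.Def_Blocks
import Cfsg.Agent.Lib.Lead.BlockOsimaSupp

/-!
# Traces of permutations on idempotents with local coefficients

An idempotent matrix with local coefficients which commutes with a permutation has trace zero
against that permutation, as soon as the part of the idempotent on the points whose stabilizer
is not divisible by `p` is congruent to zero.
-/

set_option autoImplicit false

namespace Cfsg.Agent.Lib.Lead

open scoped ComplexConjugate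

universe u

/-- the determinant of a matrix with local entries is local -/
theorem det_memLocalRing_lead {M : Ideal Cfsg.AlgInt} (hM : M.IsPrime)
    {n : Type*} [Fintype n] [DecidableEq n] (U : Matrix n n ℂ)
    (hR : ∀ i j, Cfsg.MemLocalRing M (U i j)) : Cfsg.MemLocalRing M U.det := by
  classical
  have hMtop : M ≠ ⊤ := hM.ne_top
  rw [Matrix.det_apply' U]
  refine memLocalRing_sum_lead hM _ _ (fun σ _ => ?_)
  have hsgn : Cfsg.MemLocalRing M (((Equiv.Perm.sign σ : ℤ) : ℂ)) := by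
    rcases Int.units_eq_one_or (Equiv.Perm.sign σ) with h | h
    · rw [h]
      simpa using memLocalRing_one_lead (M := M) hMtop
    · rw [h]
      simpa using memLocalRing_neg_lead (memLocalRing_one_lead (M := M) hMtop)
  exact memLocalRing_mul_lead hM hsgn
    (Finset.prod_induction _ (fun z => Cfsg.MemLocalRing M z)
      (fun a b ha hb => memLocalRing_mul_lead hM ha hb) (memLocalRing_one_lead hMtop)
      (fun j _ => hR (σ j) j))

/-- the determinant of a matrix congruent to `1` is congruent to `1` -/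
theorem det_sub_one_memLocalIdeal_lead {M : Ideal Cfsg.AlgInt} (hM : M.IsPrime)
    {n : Type*} [Fintype n] [DecidableEq n] (U : Matrix n n ℂ)
    (hoff : ∀ i j, i ≠ j → Cfsg.MemLocalIdeal M (U i j))
    (hdiag : ∀ i, Cfsg.MemLocalIdeal M (U i i - 1)) : Cfsg.MemLocalIdeal M (U.det - 1) := by
  classical
  have hMtop : M ≠ ⊤ := hM.ne_top
  have hR : ∀ i j, Cfsg.MemLocalRing M (U i j) := by
    intro i j
    by_cases hij : i = j
    · subst hij
      have h := memLocalRing_add_lead hM (memLocalRing_of_ideal_lead (hdiag i))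
        (memLocalRing_one_lead hMtop)
      rw [sub_add_cancel] at h
      exact h
    · exact memLocalRing_of_ideal_lead (hoff i j hij)
  have hsgn : ∀ σ : Equiv.Perm n, Cfsg.MemLocalRing M (((Equiv.Perm.sign σ : ℤ) : ℂ)) := by
    intro σ
    rcases Int.units_eq_one_or (Equiv.Perm.sign σ) with h | h
    · rw [h]
      simpa using memLocalRing_one_lead (M := M) hMtop
    · rw [h]
      simpa using memLocalRing_neg_lead (memLocalRing_one_lead (M := M) hMtop)
  have hterm : ∀ σ : Equiv.Perm n, σ ≠ 1 → Cfsg.MemLocalIdeal M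
      (((Equiv.Perm.sign σ : ℤ) : ℂ) * ∏ i, U (σ i) i) := by
    intro σ hσ
    obtain ⟨i, hi⟩ : ∃ i, σ i ≠ i := by
      by_contra hcon
      push_neg at hcon
      exact hσ (Equiv.ext hcon)
    have hprod : ∏ j, U (σ j) j = U (σ i) i * ∏ j ∈ Finset.univ.erase i, U (σ j) j :=
      (Finset.mul_prod_erase Finset.univ (fun j => U (σ j) j) (Finset.mem_univ i)).symm
    rw [hprod]
    have h1 : Cfsg.MemLocalRing M (∏ j ∈ Finset.univ.erase i, U (σ j) j) :=
      Finset.prod_induction _ (fun z => Cfsg.MemLocalRing M z)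
        (fun a b ha hb => memLocalRing_mul_lead hM ha hb) (memLocalRing_one_lead hMtop)
        (fun j _ => hR (σ j) j)
    have h3 := memLocalIdeal_mul_ring_lead hM h1 (hoff (σ i) i hi)
    have h4 := memLocalIdeal_mul_ring_lead hM (hsgn σ) h3
    have e : ((Equiv.Perm.sign σ : ℤ) : ℂ) *
        (U (σ i) i * ∏ j ∈ Finset.univ.erase i, U (σ j) j) =
        ((Equiv.Perm.sign σ : ℤ) : ℂ) *
          ((∏ j ∈ Finset.univ.erase i, U (σ j) j) * U (σ i) i) := by
      ring
    rw [e]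
    exact h4
  have hsplit : ((Equiv.Perm.sign (1 : Equiv.Perm n) : ℤ) : ℂ) *
      ∏ i, U ((1 : Equiv.Perm n) i) i +
      ∑ σ ∈ Finset.univ.erase (1 : Equiv.Perm n),
        ((Equiv.Perm.sign σ : ℤ) : ℂ) * ∏ i, U (σ i) i = U.det := by
    rw [Matrix.det_apply' U]
    exact Finset.add_sum_erase Finset.univ
      (fun σ : Equiv.Perm n => ((Equiv.Perm.sign σ : ℤ) : ℂ) * ∏ i, U (σ i) i)
      (Finset.mem_univ _)
  have hfirst : ((Equiv.Perm.sign (1 : Equiv.Perm n) : ℤ) : ℂ) *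
      ∏ i, U ((1 : Equiv.Perm n) i) i = ∏ i, U i i := by
    simp
  have h1 : Cfsg.MemLocalIdeal M (∏ i, U i i - 1) :=
    memLocalIdeal_prod_sub_one_lead hM Finset.univ (fun i => U i i) (fun i _ => hdiag i)
  have h2 : Cfsg.MemLocalIdeal M (∑ σ ∈ Finset.univ.erase (1 : Equiv.Perm n),
      ((Equiv.Perm.sign σ : ℤ) : ℂ) * ∏ i, U (σ i) i) :=
    memLocalIdeal_sum_lead hM _ _ (fun σ hσ => hterm σ (Finset.ne_of_mem_erase hσ))
  have h3 := memLocalIdeal_add_lead hM h1 h2
  rw [← hsplit, hfirst]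
  convert h3 using 1
  ring

/-- the inverse of a local element congruent to `1` is local -/
theorem memLocalRing_inv_of_congr_one_lead {M : Ideal Cfsg.AlgInt} (hM : M.IsPrime) {z : ℂ}
    (hz : Cfsg.MemLocalRing M z) (hz1 : Cfsg.MemLocalIdeal M (z - 1)) :
    Cfsg.MemLocalRing M z⁻¹ := by
  obtain ⟨a, b, hb, rfl⟩ := hz
  have ha : a ∉ M := by
    intro ha
    have h1 : Cfsg.MemLocalIdeal M ((a : ℂ) / (b : ℂ)) := ⟨a, b, ha, hb, rfl⟩
    have h2 := memLocalIdeal_sub_lead hM h1 hz1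
    rw [sub_sub_cancel] at h2
    have h3 : (1 : Cfsg.AlgInt) ∈ M := mem_of_memLocalIdeal_lead hM 1 h2
    exact hM.ne_top ((Ideal.eq_top_iff_one M).mpr h3)
  refine ⟨b, a, ha, ?_⟩
  rw [inv_div]

/-- a matrix congruent to `1` modulo the local ideal has an inverse with local entries -/
theorem inv_congr_one_lead {M : Ideal Cfsg.AlgInt} (hM : M.IsPrime)
    {n : Type*} [Fintype n] [DecidableEq n] (U : Matrix n n ℂ)
    (hoff : ∀ i j, i ≠ j → Cfsg.MemLocalIdeal M (U i j))
    (hdiag : ∀ i, Cfsg.MemLocalIdeal M (U i i - 1)) :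
    U⁻¹ * U = 1 ∧ U * U⁻¹ = 1 ∧ ∀ i j, Cfsg.MemLocalRing M (U⁻¹ i j) := by
  have hMtop : M ≠ ⊤ := hM.ne_top
  have hR : ∀ i j, Cfsg.MemLocalRing M (U i j) := by
    intro i j
    by_cases hij : i = j
    · subst hij
      have h := memLocalRing_add_lead hM (memLocalRing_of_ideal_lead (hdiag i))
        (memLocalRing_one_lead hMtop)
      rw [sub_add_cancel] at h
      exact h
    · exact memLocalRing_of_ideal_lead (hoff i j hij)
  have hdet : U.det ≠ 0 := det_ne_zero_of_congr_one_lead hM U hoff hdiag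
  have hU1 : IsUnit U.det := isUnit_iff_ne_zero.mpr hdet
  have hdetR : Cfsg.MemLocalRing M U.det := det_memLocalRing_lead hM U hR
  have hdet1 : Cfsg.MemLocalIdeal M (U.det - 1) :=
    det_sub_one_memLocalIdeal_lead hM U hoff hdiag
  have hdetinv : Cfsg.MemLocalRing M (U.det)⁻¹ :=
    memLocalRing_inv_of_congr_one_lead hM hdetR hdet1
  refine ⟨Matrix.nonsing_inv_mul U hU1, Matrix.mul_nonsing_inv U hU1, ?_⟩
  intro i j
  rw [Matrix.inv_def, Matrix.smul_apply, Ring.inverse_eq_inv, smul_eq_mul,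
    Matrix.adjugate_apply]
  refine memLocalRing_mul_lead hM hdetinv (det_memLocalRing_lead hM _ ?_)
  intro i' j'
  simp only [Matrix.updateRow_apply, Pi.single_apply]
  split_ifs
  · exact memLocalRing_one_lead hMtop
  · exact memLocalRing_zero_lead hMtop
  · exact hR i' j'

/-- the permutation matrix of `τ 1` -/
theorem exists_permMat_lead {Ω : Type u} [Fintype Ω]
    (τ : ℤ → Ω → Ω) (hτ0 : ∀ ω, τ 0 ω = ω) (hτadd : ∀ i j ω, τ (i + j) ω = τ i (τ j ω)) :
    ∃ Y : Matrix Ω Ω ℂ, (∀ (A : Matrix Ω Ω ℂ) (g h : Ω), (Y * A) g h = A (τ 1 g) h) ∧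
      (∀ (A : Matrix Ω Ω ℂ) (g h : Ω), (A * Y) g h = A g (τ (-1) h)) := by
  classical
  have hinvl : ∀ ω, τ (-1) (τ 1 ω) = ω := by
    intro ω
    rw [← hτadd, neg_add_cancel]
    exact hτ0 ω
  have hinvr : ∀ ω, τ 1 (τ (-1) ω) = ω := by
    intro ω
    rw [← hτadd, add_neg_cancel]
    exact hτ0 ω
  obtain ⟨Y, hY⟩ : ∃ Y : Matrix Ω Ω ℂ, ∀ g h, Y g h = if h = τ 1 g then 1 else 0 :=
    ⟨fun g h => if h = τ 1 g then 1 else 0, fun _ _ => rfl⟩
  refine ⟨Y, ?_, ?_⟩
  · intro A g h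
    rw [Matrix.mul_apply]
    simp only [hY, ite_mul, one_mul, zero_mul, Finset.sum_ite_eq', Finset.mem_univ, if_true]
  · intro A g h
    rw [Matrix.mul_apply]
    have e : ∀ k : Ω, Y k h = if k = τ (-1) h then 1 else 0 := by
      intro k
      rw [hY]
      by_cases hk : h = τ 1 k
      · have hk' : k = τ (-1) h := by rw [hk, hinvl]
        rw [if_pos hk, if_pos hk']
      · have hk' : ¬ k = τ (-1) h := by
          intro e
          apply hk
          rw [e, hinvr]
        rw [if_neg hk, if_neg hk']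
    simp only [e, mul_ite, mul_one, mul_zero, Finset.sum_ite_eq', Finset.mem_univ, if_true]

/-- the trace of a permutation on an idempotent with local coefficients supported on the points
whose stabilizers are divisible by `p` vanishes -/
theorem perm_idem_trace_lead (p : ℕ) (hp : p.Prime) {M : Ideal Cfsg.AlgInt} (hM : M.IsPrime)
    (hpM : (p : Cfsg.AlgInt) ∈ M) {Ω : Type u} [Fintype Ω]
    (τ : ℤ → Ω → Ω) (hτ0 : ∀ ω, τ 0 ω = ω) (hτadd : ∀ i j ω, τ (i + j) ω = τ i (τ j ω))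
    (Q : Ω → Prop) (hQ : ∀ i ω, Q (τ i ω) ↔ Q ω)
    (F : Matrix Ω Ω ℂ) (hFR : ∀ i j, Cfsg.MemLocalRing M (F i j)) (hFF : F * F = F)
    (hFT : ∀ i j, F (τ 1 i) (τ 1 j) = F i j) (hFQ : ∀ i j, Q i ∨ Q j → F i j = 0)
    (hfix : ∀ (k : ℤ) (ω : Ω), ¬ Q ω → τ k ω = ω → (p : ℤ) ∣ k) :
    ∑ ω, F (τ 1 ω) ω = 0 := by
  classical
  have hMtop : M ≠ ⊤ := hM.ne_top
  obtain ⟨ζ, hζprim⟩ : ∃ ζ : ℂ, IsPrimitiveRoot ζ p :=
    ⟨_, Complex.isPrimitiveRoot_exp p hp.ne_zero⟩
  have hζp : ζ ^ p = 1 := hζprim.pow_eq_one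
  have hζ1 : ζ ≠ 1 := hζprim.ne_one hp.one_lt
  have hζ0 : ζ ≠ 0 := hζprim.ne_zero hp.ne_zero
  have hζz : ∀ j : ℤ, Cfsg.MemLocalIdeal M (ζ ^ j - 1) := by
    intro j
    apply root_sub_one_memLocalIdeal_lead p hp hM hpM 1
    rw [pow_one, ← zpow_natCast, ← zpow_mul, mul_comm, zpow_mul, zpow_natCast, hζp, one_zpow]
  have hinvl : ∀ ω, τ (-1) (τ 1 ω) = ω := by
    intro ω
    rw [← hτadd, neg_add_cancel]
    exact hτ0 ω
  have hinvr : ∀ ω, τ 1 (τ (-1) ω) = ω := by
    intro ω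
    rw [← hτadd, add_neg_cancel]
    exact hτ0 ω
  have hkey : ∀ (k : ℤ) (ω : Ω), ¬ Q ω → τ k ω = ω → ζ ^ k = 1 := by
    intro k ω hω h
    obtain ⟨t, ht⟩ := hfix k ω hω h
    rw [ht, zpow_mul, zpow_natCast, hζp, one_zpow]
  -- orbit representatives
  obtain ⟨s, hs⟩ : ∃ s : Setoid Ω, ∀ g h, s.r g h ↔ ∃ i : ℤ, h = τ i g := by
    refine ⟨⟨fun g h => ∃ i : ℤ, h = τ i g, ⟨?_, ?_, ?_⟩⟩, fun _ _ => Iff.rfl⟩
    · intro g
      exact ⟨0, (hτ0 g).symm⟩
    · rintro g h ⟨i, hi⟩
      refine ⟨-i, ?_⟩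
      rw [hi, ← hτadd, neg_add_cancel, hτ0]
    · rintro g h k ⟨i, hi⟩ ⟨j, hj⟩
      refine ⟨j + i, ?_⟩
      rw [hj, hi, hτadd]
  have hex : ∀ g : Ω, ∃ i : ℤ, g = τ i (Quotient.out (Quotient.mk s g)) := fun g =>
    (hs _ _).mp (Quotient.mk_out g)
  have hrep : ∀ g : Ω, Quotient.mk s (τ 1 g) = Quotient.mk s g := by
    intro g
    apply Quotient.sound
    refine (hs _ _).mpr ⟨-1, ?_⟩
    rw [hinvl]
  choose ι hι using hex
  have hιπ : ∀ g : Ω, ¬ Q g → ζ ^ (ι (τ 1 g)) = ζ * ζ ^ (ι g) := by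
    intro g hg
    have h1 := hι (τ 1 g)
    rw [hrep g] at h1
    have h2 := hι g
    obtain ⟨r, hr⟩ : ∃ r : Ω, r = Quotient.out (Quotient.mk s g) := ⟨_, rfl⟩
    obtain ⟨i, hi⟩ : ∃ i : ℤ, i = ι (τ 1 g) := ⟨_, rfl⟩
    obtain ⟨j, hj⟩ : ∃ j : ℤ, j = ι g := ⟨_, rfl⟩
    rw [← hr, ← hi] at h1
    rw [← hr, ← hj] at h2
    rw [← hi, ← hj]
    have e2 : i + (j + 1 - i) = j + 1 := by ring
    have e1 : j + 1 - i + i = 1 + j := by ring
    have hQr : ¬ Q (τ i r) := by
      intro h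
      have h' : Q (τ j r) := (hQ j r).mpr ((hQ i r).mp h)
      rw [← h2] at h'
      exact hg h'
    have h3 : τ (j + 1 - i) (τ i r) = τ i r := by
      calc τ (j + 1 - i) (τ i r) = τ (j + 1 - i + i) r := (hτadd _ _ _).symm
        _ = τ (1 + j) r := by rw [e1]
        _ = τ 1 (τ j r) := hτadd 1 j r
        _ = τ 1 g := by rw [← h2]
        _ = τ i r := h1
    have hk1 := hkey _ _ hQr h3
    calc ζ ^ i = ζ ^ i * ζ ^ (j + 1 - i) := by rw [hk1, mul_one]
      _ = ζ ^ (j + 1) := by rw [← zpow_add₀ hζ0, e2]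
      _ = ζ * ζ ^ j := by rw [zpow_add_one₀ hζ0, mul_comm]
  obtain ⟨μ, hμ⟩ : ∃ μ : Ω → ℂ, ∀ g, μ g = if Q g then 1 else ζ ^ (ι g) :=
    ⟨fun g => if Q g then 1 else ζ ^ (ι g), fun _ => rfl⟩
  obtain ⟨ν, hν⟩ : ∃ ν : Ω → ℂ, ∀ g, ν g = if Q g then 1 else ζ ^ (-ι g) :=
    ⟨fun g => if Q g then 1 else ζ ^ (-ι g), fun _ => rfl⟩
  have hμν : ∀ g, μ g * ν g = 1 := by
    intro g
    rw [hμ, hν]
    by_cases hg : Q g
    · rw [if_pos hg, if_pos hg, mul_one]
    · rw [if_neg hg, if_neg hg, ← zpow_add₀ hζ0, add_neg_cancel, zpow_zero]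
  have hμy : ∀ g, ¬ Q g → μ (τ 1 g) = ζ * μ g := by
    intro g hg
    have hg' : ¬ Q (τ 1 g) := fun h => hg ((hQ 1 g).mp h)
    rw [hμ, hμ, if_neg hg, if_neg hg']
    exact hιπ g hg
  have hνy : ∀ h, ¬ Q h → ν (τ (-1) h) = ζ * ν h := by
    intro h hh
    have hh' : ¬ Q (τ (-1) h) := fun h' => hh ((hQ (-1) h).mp h')
    rw [hν, hν, if_neg hh, if_neg hh']
    have h1 := hιπ (τ (-1) h) hh'
    rw [hinvr] at h1
    have ha : ζ ^ (ι h) * ζ ^ (-ι h) = 1 := by
      rw [← zpow_add₀ hζ0, add_neg_cancel, zpow_zero]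
    have hb : ζ ^ (ι (τ (-1) h)) * ζ ^ (-ι (τ (-1) h)) = 1 := by
      rw [← zpow_add₀ hζ0, add_neg_cancel, zpow_zero]
    calc ζ ^ (-ι (τ (-1) h))
        = ζ ^ (-ι (τ (-1) h)) * (ζ ^ (ι h) * ζ ^ (-ι h)) := by rw [ha, mul_one]
      _ = ζ ^ (-ι (τ (-1) h)) * (ζ * ζ ^ (ι (τ (-1) h)) * ζ ^ (-ι h)) := by rw [h1]
      _ = ζ * ζ ^ (-ι h) * (ζ ^ (ι (τ (-1) h)) * ζ ^ (-ι (τ (-1) h))) := by
          generalize ζ ^ (ι (τ (-1) h)) = b
          generalize ζ ^ (-ι (τ (-1) h)) = b'
          generalize ζ ^ (-ι h) = a'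
          ring
      _ = ζ * ζ ^ (-ι h) := by rw [hb, mul_one]
  have hμm : ∀ g h, Cfsg.MemLocalIdeal M (μ g * ν h - 1) := by
    intro g h
    rw [hμ, hν]
    by_cases hg : Q g
    · by_cases hh : Q h
      · rw [if_pos hg, if_pos hh, mul_one, sub_self]
        exact memLocalIdeal_zero_lead hMtop
      · rw [if_pos hg, if_neg hh, one_mul]
        exact hζz _
    · by_cases hh : Q h
      · rw [if_neg hg, if_pos hh, mul_one]
        exact hζz _
      · rw [if_neg hg, if_neg hh, ← zpow_add₀ hζ0]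
        exact hζz _
  -- the matrices
  obtain ⟨E', hE'⟩ : ∃ E' : Matrix Ω Ω ℂ, ∀ g h, E' g h = μ g * F g h * ν h :=
    ⟨fun g h => μ g * F g h * ν h, fun _ _ => rfl⟩
  obtain ⟨Y, hYl, hYr⟩ := exists_permMat_lead τ hτ0 hτadd
  have hE'E' : E' * E' = E' := by
    ext g h
    rw [Matrix.mul_apply, hE' g h]
    have e : ∀ k : Ω, E' g k * E' k h = μ g * (F g k * F k h) * ν h := by
      intro k
      rw [hE', hE']
      calc μ g * F g k * ν k * (μ k * F k h * ν h)
          = μ g * (F g k * F k h) * ν h * (μ k * ν k) := by ring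
        _ = μ g * (F g k * F k h) * ν h := by rw [hμν, mul_one]
    rw [Finset.sum_congr rfl (fun k _ => e k), ← Finset.sum_mul, ← Finset.mul_sum,
      ← Matrix.mul_apply, hFF]
  have hFgh : ∀ g h, F g (τ (-1) h) = F (τ 1 g) h := by
    intro g h
    have h1 := hFT g (τ (-1) h)
    rw [hinvr] at h1
    exact h1.symm
  have hEY : F * Y = Y * F := by
    ext g h
    rw [hYr, hYl, hFgh]
  have hE'Y : E' * Y = Y * E' := by
    ext g h
    rw [hYr, hYl, hE', hE', hFgh]
    by_cases hgh : Q g ∨ Q h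
    · have h0 : F (τ 1 g) h = 0 := by
        apply hFQ
        rcases hgh with h1 | h1
        · exact Or.inl ((hQ 1 g).mpr h1)
        · exact Or.inr h1
      simp only [h0, mul_zero, zero_mul]
    · have hg : ¬ Q g := fun h1 => hgh (Or.inl h1)
      have hh : ¬ Q h := fun h1 => hgh (Or.inr h1)
      rw [hμy g hg, hνy h hh]
      ring
  have hEYc : Commute F Y := hEY
  have hE'Yc : Commute E' Y := hE'Y
  -- the traces
  have htrE : Matrix.trace (Y * F) = ∑ g : Ω, F (τ 1 g) g := by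
    show ∑ g : Ω, (Y * F) g g = _
    exact Finset.sum_congr rfl (fun g _ => hYl F g g)
  have htrE' : Matrix.trace (Y * E') = ζ * ∑ g : Ω, F (τ 1 g) g := by
    have e : ∀ g : Ω, (Y * E') g g = ζ * F (τ 1 g) g := by
      intro g
      rw [hYl, hE']
      by_cases hg : Q g
      · simp only [hFQ (τ 1 g) g (Or.inr hg), mul_zero, zero_mul]
      · rw [hμy g hg]
        calc ζ * μ g * F (τ 1 g) g * ν g
            = ζ * F (τ 1 g) g * (μ g * ν g) := by ring
          _ = ζ * F (τ 1 g) g := by rw [hμν, mul_one]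
    show ∑ g : Ω, (Y * E') g g = _
    rw [Finset.sum_congr rfl (fun g _ => e g), ← Finset.mul_sum]
  -- the conjugating matrix
  obtain ⟨U, hU⟩ : ∃ U : Matrix Ω Ω ℂ, U = F * E' + (1 - F) * (1 - E') := ⟨_, rfl⟩
  have h1 : F * (1 - F) = 0 := by rw [mul_sub, mul_one, hFF, sub_self]
  have h2 : (1 - E') * E' = 0 := by rw [sub_mul, one_mul, hE'E', sub_self]
  have hEU : F * U = F * E' := by
    rw [hU, mul_add, ← mul_assoc F F E', hFF, ← mul_assoc F (1 - F) (1 - E'), h1, zero_mul,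
      add_zero]
  have hUE' : U * E' = F * E' := by
    rw [hU, add_mul, mul_assoc F E' E', hE'E', mul_assoc (1 - F) (1 - E') E', h2, mul_zero,
      add_zero]
  have hUY : U * Y = Y * U := by
    rw [hU]
    exact ((hEYc.mul_left hE'Yc).add_left
      (((Commute.one_left Y).sub_left hEYc).mul_left
        ((Commute.one_left Y).sub_left hE'Yc))).eq
  have hUW : U = 1 + (F + F - 1) * (E' - F) := by
    rw [hU]
    simp only [sub_mul, mul_sub, add_mul, one_mul, mul_one, hFF]
    abel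
  have hT : ∀ g h, Cfsg.MemLocalIdeal M ((E' - F) g h) := by
    intro g h
    rw [Matrix.sub_apply, hE']
    have e : μ g * F g h * ν h - F g h = F g h * (μ g * ν h - 1) := by ring
    rw [e]
    exact memLocalIdeal_mul_ring_lead hM (hFR _ _) (hμm g h)
  have hS : ∀ g h, Cfsg.MemLocalRing M ((F + F - 1) g h) := by
    intro g h
    rw [Matrix.sub_apply, Matrix.add_apply, Matrix.one_apply]
    apply memLocalRing_sub_lead hM (memLocalRing_add_lead hM (hFR _ _) (hFR _ _))
    split_ifs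
    · exact memLocalRing_one_lead hMtop
    · exact memLocalRing_zero_lead hMtop
  have hW : ∀ g h, Cfsg.MemLocalIdeal M (((F + F - 1) * (E' - F)) g h) := by
    intro g h
    rw [Matrix.mul_apply]
    exact memLocalIdeal_sum_lead hM _ _
      (fun k _ => memLocalIdeal_mul_ring_lead hM (hS g k) (hT k h))
  have hdet : U.det ≠ 0 := by
    apply det_ne_zero_of_congr_one_lead hM
    · intro g h hgh
      rw [hUW, Matrix.add_apply, Matrix.one_apply_ne hgh, zero_add]
      exact hW g h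
    · intro g
      rw [hUW, Matrix.add_apply, Matrix.one_apply_eq, add_sub_cancel_left]
      exact hW g g
  have hU1 : IsUnit U.det := isUnit_iff_ne_zero.mpr hdet
  have hinv1 : U⁻¹ * U = 1 := Matrix.nonsing_inv_mul U hU1
  have hinv2 : U * U⁻¹ = 1 := Matrix.mul_nonsing_inv U hU1
  have htr : Matrix.trace (Y * E') = Matrix.trace (Y * F) := by
    have e1 : Y * E' = Y * U⁻¹ * F * U := by
      calc Y * E' = Y * (U⁻¹ * U) * E' := by rw [hinv1, mul_one]
        _ = Y * U⁻¹ * (U * E') := by simp only [mul_assoc]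
        _ = Y * U⁻¹ * (F * U) := by rw [hUE', ← hEU]
        _ = Y * U⁻¹ * F * U := by simp only [mul_assoc]
    have e2 : U * (Y * U⁻¹ * F) = Y * F := by
      calc U * (Y * U⁻¹ * F) = U * Y * U⁻¹ * F := by simp only [mul_assoc]
        _ = Y * U * U⁻¹ * F := by rw [hUY]
        _ = Y * (U * U⁻¹) * F := by simp only [mul_assoc]
        _ = Y * F := by rw [hinv2, mul_one]
    rw [e1, Matrix.trace_mul_comm (Y * U⁻¹ * F) U, e2]
  rw [htrE', htrE] at htr
  have h3 : (ζ - 1) * ∑ g : Ω, F (τ 1 g) g = 0 := by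
    rw [sub_mul, one_mul, htr, sub_self]
  rcases mul_eq_zero.mp h3 with h | h
  · exact absurd (sub_eq_zero.mp h) hζ1
  · exact h

/-- the trace of a permutation on an idempotent with local coefficients vanishes when the
idempotent is congruent to zero on the points whose stabilizers are not divisible by `p` -/
theorem perm_idem_trace_schur_lead (p : ℕ) (hp : p.Prime) {M : Ideal Cfsg.AlgInt}
    (hM : M.IsPrime) (hpM : (p : Cfsg.AlgInt) ∈ M) {Ω : Type u} [Fintype Ω]
    (τ : ℤ → Ω → Ω) (hτ0 : ∀ ω, τ 0 ω = ω) (hτadd : ∀ i j ω, τ (i + j) ω = τ i (τ j ω))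
    (Q : Ω → Prop) (hQ : ∀ i ω, Q (τ i ω) ↔ Q ω)
    (E : Matrix Ω Ω ℂ) (hER : ∀ i j, Cfsg.MemLocalRing M (E i j)) (hEE : E * E = E)
    (hET : ∀ i j, E (τ 1 i) (τ 1 j) = E i j)
    (hEQ : ∀ i j, Q i → Q j → Cfsg.MemLocalIdeal M (E i j))
    (hfix : ∀ (k : ℤ) (ω : Ω), ¬ Q ω → τ k ω = ω → (p : ℤ) ∣ k) :
    ∑ ω, E (τ 1 ω) ω = 0 := by
  classical
  have hMtop : M ≠ ⊤ := hM.ne_top
  have hinvl : ∀ ω, τ (-1) (τ 1 ω) = ω := by
    intro ω
    rw [← hτadd, neg_add_cancel]
    exact hτ0 ω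
  have hinvr : ∀ ω, τ 1 (τ (-1) ω) = ω := by
    intro ω
    rw [← hτadd, add_neg_cancel]
    exact hτ0 ω
  obtain ⟨Y, hYl, hYr⟩ := exists_permMat_lead τ hτ0 hτadd
  -- the two projections
  obtain ⟨q, hq⟩ : ∃ q : Ω → ℂ, ∀ ω, q ω = if Q ω then 1 else 0 :=
    ⟨fun ω => if Q ω then 1 else 0, fun _ => rfl⟩
  obtain ⟨q', hq'⟩ : ∃ q' : Ω → ℂ, ∀ ω, q' ω = if Q ω then 0 else 1 :=
    ⟨fun ω => if Q ω then 0 else 1, fun _ => rfl⟩
  have hqτ : ∀ ω, q (τ 1 ω) = q ω := by
    intro ω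
    by_cases h : Q ω
    · rw [hq, hq, if_pos h, if_pos ((hQ 1 ω).mpr h)]
    · rw [hq, hq, if_neg h, if_neg (fun h' => h ((hQ 1 ω).mp h'))]
  have hq'τ : ∀ ω, q' (τ 1 ω) = q' ω := by
    intro ω
    by_cases h : Q ω
    · rw [hq', hq', if_pos h, if_pos ((hQ 1 ω).mpr h)]
    · rw [hq', hq', if_neg h, if_neg (fun h' => h ((hQ 1 ω).mp h'))]
  have hqloc : ∀ ω, Cfsg.MemLocalRing M (q ω) := by
    intro ω
    rw [hq]
    split_ifs
    · exact memLocalRing_one_lead hMtop
    · exact memLocalRing_zero_lead hMtop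
  have hq'loc : ∀ ω, Cfsg.MemLocalRing M (q' ω) := by
    intro ω
    rw [hq']
    split_ifs
    · exact memLocalRing_zero_lead hMtop
    · exact memLocalRing_one_lead hMtop
  obtain ⟨P, hP⟩ : ∃ P : Matrix Ω Ω ℂ, P = Matrix.diagonal q := ⟨_, rfl⟩
  obtain ⟨P', hP'⟩ : ∃ P' : Matrix Ω Ω ℂ, P' = Matrix.diagonal q' := ⟨_, rfl⟩
  have hPP : P * P = P := by
    ext i j
    rw [hP, Matrix.diagonal_mul, Matrix.diagonal_apply]
    by_cases hij : i = j
    · rw [if_pos hij, hq]
      split_ifs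
      · rw [one_mul]
      · rw [zero_mul]
    · rw [if_neg hij, mul_zero]
  have hP'P' : P' * P' = P' := by
    ext i j
    rw [hP', Matrix.diagonal_mul, Matrix.diagonal_apply]
    by_cases hij : i = j
    · rw [if_pos hij, hq']
      split_ifs
      · rw [zero_mul]
      · rw [one_mul]
    · rw [if_neg hij, mul_zero]
  have hPP' : P * P' = 0 := by
    ext i j
    rw [hP, Matrix.diagonal_mul, hP', Matrix.diagonal_apply, Matrix.zero_apply]
    by_cases hij : i = j
    · rw [if_pos hij, hq, hq']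
      split_ifs
      · rw [mul_zero]
      · rw [zero_mul]
    · rw [if_neg hij, mul_zero]
  have hP'P : P' * P = 0 := by
    ext i j
    rw [hP', Matrix.diagonal_mul, hP, Matrix.diagonal_apply, Matrix.zero_apply]
    by_cases hij : i = j
    · rw [if_pos hij, hq, hq']
      split_ifs
      · rw [zero_mul]
      · rw [mul_zero]
    · rw [if_neg hij, mul_zero]
  have hsum : P' + P = 1 := by
    ext i j
    rw [Matrix.add_apply, hP', hP, Matrix.diagonal_apply, Matrix.diagonal_apply,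
      Matrix.one_apply]
    by_cases hij : i = j
    · rw [if_pos hij, if_pos hij, if_pos hij, hq, hq']
      split_ifs
      · rw [zero_add]
      · rw [add_zero]
    · rw [if_neg hij, if_neg hij, if_neg hij, add_zero]
  have hPloc : ∀ i j, Cfsg.MemLocalRing M (P i j) := by
    intro i j
    rw [hP, Matrix.diagonal_apply]
    split_ifs
    · exact hqloc i
    · exact memLocalRing_zero_lead hMtop
  have hP'loc : ∀ i j, Cfsg.MemLocalRing M (P' i j) := by
    intro i j
    rw [hP', Matrix.diagonal_apply]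
    split_ifs
    · exact hq'loc i
    · exact memLocalRing_zero_lead hMtop
  have hmulloc : ∀ X1 X2 : Matrix Ω Ω ℂ, (∀ i j, Cfsg.MemLocalRing M (X1 i j)) →
      (∀ i j, Cfsg.MemLocalRing M (X2 i j)) → ∀ i j, Cfsg.MemLocalRing M ((X1 * X2) i j) := by
    intro X1 X2 h1 h2 i j
    rw [Matrix.mul_apply]
    exact memLocalRing_sum_lead hM _ _ (fun k _ => memLocalRing_mul_lead hM (h1 i k) (h2 k j))
  have hdiagY : ∀ d : Ω → ℂ, (∀ ω, d (τ 1 ω) = d ω) →
      Matrix.diagonal d * Y = Y * Matrix.diagonal d := by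
    intro d hd
    ext g h
    rw [hYr, hYl, Matrix.diagonal_apply, Matrix.diagonal_apply]
    by_cases hgh : τ 1 g = h
    · have hgh' : g = τ (-1) h := by rw [← hgh, hinvl]
      rw [if_pos hgh, if_pos hgh', hd]
    · have hgh' : ¬ g = τ (-1) h := by
        intro e
        apply hgh
        rw [e, hinvr]
      rw [if_neg hgh, if_neg hgh']
  have cP : Commute P Y := by
    rw [hP]
    exact hdiagY q hqτ
  have cP' : Commute P' Y := by
    rw [hP']
    exact hdiagY q' hq'τ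
  have cE : Commute E Y := by
    show E * Y = Y * E
    ext g h
    rw [hYr, hYl]
    have h1 := hET g (τ (-1) h)
    rw [hinvr] at h1
    exact h1.symm
  -- the four blocks
  obtain ⟨A, hA⟩ : ∃ A : Matrix Ω Ω ℂ, A = P' * E * P' := ⟨_, rfl⟩
  obtain ⟨B, hB⟩ : ∃ B : Matrix Ω Ω ℂ, B = P' * E * P := ⟨_, rfl⟩
  obtain ⟨C, hC⟩ : ∃ C : Matrix Ω Ω ℂ, C = P * E * P' := ⟨_, rfl⟩
  obtain ⟨D, hD⟩ : ∃ D : Matrix Ω Ω ℂ, D = P * E * P := ⟨_, rfl⟩
  have hblock : ∀ L Rt : Matrix Ω Ω ℂ,
      L * E * P' * (P' * E * Rt) + L * E * P * (P * E * Rt) = L * E * Rt := by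
    intro L Rt
    calc L * E * P' * (P' * E * Rt) + L * E * P * (P * E * Rt)
        = L * (E * (P' * P' + P * P) * E) * Rt := by
          simp only [mul_add, add_mul, mul_assoc]
      _ = L * E * Rt := by rw [hP'P', hPP, hsum, mul_one, hEE]
  have hAA : A * A = A - B * C := by
    have h := hblock P' P'
    rw [← hA, ← hB, ← hC] at h
    exact eq_sub_of_add_eq h
  obtain ⟨X, hX⟩ : ∃ X : Matrix Ω Ω ℂ, X = 1 - D := ⟨_, rfl⟩
  have hAB : A * B = B * X := by
    have h := hblock P' P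
    rw [← hA, ← hB, ← hD] at h
    rw [hX, mul_sub, mul_one]
    exact eq_sub_of_add_eq h
  have hCA : C * A = X * C := by
    have h := hblock P P'
    rw [← hA, ← hC, ← hD] at h
    rw [hX, sub_mul, one_mul]
    exact eq_sub_of_add_eq h
  have hCB : C * B = D * X := by
    have h := hblock P P
    rw [← hB, ← hC, ← hD] at h
    rw [hX, mul_sub, mul_one]
    exact eq_sub_of_add_eq h
  have hDloc : ∀ i j, Cfsg.MemLocalIdeal M (D i j) := by
    intro i j
    rw [hD, hP, Matrix.mul_diagonal, Matrix.diagonal_mul, hq, hq]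
    by_cases hi : Q i
    · by_cases hj : Q j
      · rw [if_pos hi, if_pos hj, one_mul, mul_one]
        exact hEQ i j hi hj
      · rw [if_neg hj, mul_zero]
        exact memLocalIdeal_zero_lead hMtop
    · rw [if_neg hi, zero_mul, zero_mul]
      exact memLocalIdeal_zero_lead hMtop
  obtain ⟨hRX', hXR', hRloc'⟩ := inv_congr_one_lead hM X
    (by
      intro i j hij
      rw [hX, Matrix.sub_apply, Matrix.one_apply_ne hij, zero_sub]
      exact memLocalIdeal_neg_lead (hDloc i j))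
    (by
      intro i
      rw [hX, Matrix.sub_apply, Matrix.one_apply_eq]
      have e : (1 : ℂ) - D i i - 1 = -D i i := by ring
      rw [e]
      exact memLocalIdeal_neg_lead (hDloc i i))
  obtain ⟨R, hR⟩ : ∃ R : Matrix Ω Ω ℂ, R = X⁻¹ := ⟨_, rfl⟩
  have hRX : R * X = 1 := by rw [hR]; exact hRX'
  have hXR : X * R = 1 := by rw [hR]; exact hXR'
  have hRloc : ∀ i j, Cfsg.MemLocalRing M (R i j) := by rw [hR]; exact hRloc'
  have hRD : R * D = R - 1 := by
    have hD' : D = 1 - X := by rw [hX, sub_sub_cancel]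
    rw [hD', mul_sub, mul_one, hRX]
  obtain ⟨F, hF⟩ : ∃ F : Matrix Ω Ω ℂ, F = A + B * R * C := ⟨_, rfl⟩
  have t1 : A * (B * R * C) = B * C := by
    calc A * (B * R * C) = (A * B) * R * C := by simp only [mul_assoc]
      _ = B * (X * R) * C := by rw [hAB]; simp only [mul_assoc]
      _ = B * C := by rw [hXR, mul_one]
  have t2 : B * R * C * A = B * C := by
    calc B * R * C * A = B * R * (C * A) := by simp only [mul_assoc]
      _ = B * (R * X) * C := by rw [hCA]; simp only [mul_assoc]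
      _ = B * C := by rw [hRX, mul_one]
  have t3 : B * R * C * (B * R * C) = B * R * C - B * C := by
    calc B * R * C * (B * R * C) = B * R * (C * B) * R * C := by simp only [mul_assoc]
      _ = B * (R * D) * (X * R) * C := by rw [hCB]; simp only [mul_assoc]
      _ = B * (R - 1) * C := by rw [hXR, mul_one, hRD]
      _ = B * R * C - B * C := by rw [mul_sub, mul_one, sub_mul]
  have hFF : F * F = F := by
    rw [hF]
    calc (A + B * R * C) * (A + B * R * C)
        = A * A + A * (B * R * C) + B * R * C * A + B * R * C * (B * R * C) := by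
          rw [mul_add, add_mul, add_mul]
          abel
      _ = A + B * R * C := by
          rw [hAA, t1, t2, t3]
          abel
  -- commutation with the permutation
  have cA : Commute A Y := by
    rw [hA]
    exact (cP'.mul_left cE).mul_left cP'
  have cB : Commute B Y := by
    rw [hB]
    exact (cP'.mul_left cE).mul_left cP
  have cC : Commute C Y := by
    rw [hC]
    exact (cP.mul_left cE).mul_left cP'
  have cD : Commute D Y := by
    rw [hD]
    exact (cP.mul_left cE).mul_left cP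
  have cX : Commute X Y := by
    rw [hX]
    exact (Commute.one_left Y).sub_left cD
  have cR : Commute R Y := by
    show R * Y = Y * R
    calc R * Y = R * Y * (X * R) := by rw [hXR, mul_one]
      _ = R * (Y * X) * R := by simp only [mul_assoc]
      _ = R * (X * Y) * R := by rw [cX.eq]
      _ = (R * X) * Y * R := by simp only [mul_assoc]
      _ = Y * R := by rw [hRX, one_mul]
  have cF : Commute F Y := by
    rw [hF]
    exact cA.add_left ((cB.mul_left cR).mul_left cC)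
  have hFT : ∀ i j, F (τ 1 i) (τ 1 j) = F i j := by
    intro i j
    have h1 := hYl F i (τ 1 j)
    have h2 := hYr F i (τ 1 j)
    rw [hinvl] at h2
    rw [← h1, ← h2, cF.eq]
  -- local entries
  have hAloc : ∀ i j, Cfsg.MemLocalRing M (A i j) := by
    rw [hA]
    exact hmulloc _ _ (hmulloc _ _ hP'loc hER) hP'loc
  have hBloc : ∀ i j, Cfsg.MemLocalRing M (B i j) := by
    rw [hB]
    exact hmulloc _ _ (hmulloc _ _ hP'loc hER) hPloc
  have hCloc : ∀ i j, Cfsg.MemLocalRing M (C i j) := by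
    rw [hC]
    exact hmulloc _ _ (hmulloc _ _ hPloc hER) hP'loc
  have hFloc : ∀ i j, Cfsg.MemLocalRing M (F i j) := by
    intro i j
    rw [hF, Matrix.add_apply]
    exact memLocalRing_add_lead hM (hAloc i j)
      (hmulloc _ _ (hmulloc _ _ hBloc hRloc) hCloc i j)
  -- support
  have hPF : P * F = 0 := by
    rw [hF, mul_add, hA, hB]
    simp only [← mul_assoc, hPP', zero_mul, add_zero]
  have hFP : F * P = 0 := by
    rw [hF, add_mul, hA, hC]
    simp only [mul_assoc, hP'P, mul_zero, add_zero]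
  have hFQ : ∀ i j, Q i ∨ Q j → F i j = 0 := by
    intro i j hij
    rcases hij with hi | hj
    · have h := congrFun (congrFun hPF i) j
      rw [hP, Matrix.diagonal_mul, hq, if_pos hi, one_mul, Matrix.zero_apply] at h
      exact h
    · have h := congrFun (congrFun hFP i) j
      rw [hP, Matrix.mul_diagonal, hq, if_pos hj, mul_one, Matrix.zero_apply] at h
      exact h
  have hsumF := perm_idem_trace_lead p hp hM hpM τ hτ0 hτadd Q hQ F hFloc hFF hFT hFQ hfix
  -- the traces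
  have htrY : ∀ Z : Matrix Ω Ω ℂ, Matrix.trace (Y * Z) = ∑ ω, Z (τ 1 ω) ω := by
    intro Z
    show ∑ ω, (Y * Z) ω ω = _
    exact Finset.sum_congr rfl (fun ω _ => hYl Z ω ω)
  have hEAD : ∀ ω, E (τ 1 ω) ω = A (τ 1 ω) ω + D (τ 1 ω) ω := by
    intro ω
    rw [hA, hD, hP', hP, Matrix.mul_diagonal, Matrix.diagonal_mul, Matrix.mul_diagonal,
      Matrix.diagonal_mul, hq'τ, hqτ, hq', hq]
    by_cases h : Q ω
    · rw [if_pos h, if_pos h]
      ring
    · rw [if_neg h, if_neg h]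
      ring
  have htr1 : ∑ ω, E (τ 1 ω) ω = Matrix.trace (Y * A) + Matrix.trace (Y * D) := by
    rw [Finset.sum_congr rfl (fun ω _ => hEAD ω), Finset.sum_add_distrib, ← htrY A, ← htrY D]
  have htrD : Matrix.trace (Y * (B * R * C)) = Matrix.trace (Y * D) := by
    have e1 : Y * (B * R * C) = (Y * B * R) * C := by simp only [mul_assoc]
    have e2 : C * (Y * B * R) = Y * D := by
      calc C * (Y * B * R) = (C * Y) * B * R := by simp only [mul_assoc]
        _ = Y * (C * B) * R := by rw [cC.eq]; simp only [mul_assoc]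
        _ = Y * D * (X * R) := by rw [hCB]; simp only [mul_assoc]
        _ = Y * D := by rw [hXR, mul_one]
    rw [e1, Matrix.trace_mul_comm (Y * B * R) C, e2]
  rw [← htrY F, hF, mul_add, Matrix.trace_add] at hsumF
  rw [htr1, ← htrD]
  exact hsumF

end Cfsg.Agent.Lib.Lead
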