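import Mathlib
import Cfsg.Prelude.Def_Blocks
import Cfsg.Agent.Lib.Lead.BrauerMat
import Cfsg.Agent.Lib.Lead.BlockNilp2
import Cfsg.Agent.Lib.Lead.BlockOsima
import Cfsg.Agent.Lib.Lead.BlockOsima2
import Cfsg.Agent.Lib.Lead.BlockMinMax
import Cfsg.Agent.Lib.Lead.BlockAux
import Cfsg.Agent.Lib.Lead.BlockAux2
import Cfsg.Agent.Lib.Lead.BlockKer
import Cfsg.Agent.Lib.Lead.BlockDefCount
import Cfsg.Agent.Lib.Lead.BlockCover2
import Cfsg.Agent.Lib.Lead.BlockOrtho2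
import Cfsg.Agent.Lib.Lead.CharInd
import Cfsg.Agent.Lib.Lead.CharRing
import Cfsg.Agent.Lib.Lead.CharOrtho
import Cfsg.Agent.Lib.Lead.CharComplete
import Cfsg.Agent.Lib.Lead.PermIdem

/-!
# The second main theorem, idempotent form
-/

set_option autoImplicit false

namespace Cfsg.Agent.Lib.Lead

open scoped ComplexConjugate

universe u

theorem exists_isPPart_lead {G : Type u} [Group G] [Finite G] (p : ℕ) (hp : p.Prime) (g : G) :
    ∃ x : G, Cfsg.IsPPart p g x := by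
  have hn : orderOf g ≠ 0 := (orderOf_pos g).ne'
  obtain ⟨e, m, hm, hnm⟩ := Nat.exists_eq_pow_mul_and_not_dvd hn p hp.ne_one
  have hpm : ¬ (p : ℤ) ∣ (m : ℤ) := fun h => hm (Int.natCast_dvd_natCast.mp h)
  have hcop : IsCoprime ((p : ℤ) ^ e) (m : ℤ) :=
    IsCoprime.pow_left (((Nat.prime_iff_prime_int.mp hp).coprime_iff_not_dvd).mpr hpm)
  obtain ⟨u, v, huv⟩ := hcop
  have hgn : g ^ ((p : ℤ) ^ e * (m : ℤ)) = 1 := by
    have h1 : ((p : ℤ) ^ e * (m : ℤ)) = ((p ^ e * m : ℕ) : ℤ) := by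
      rw [Nat.cast_mul, Nat.cast_pow]
    rw [h1, zpow_natCast, ← hnm, pow_orderOf_eq_one]
  refine ⟨g ^ (v * (m : ℤ)), ?_⟩
  unfold Cfsg.IsPPart
  refine ⟨g ^ (u * (p : ℤ) ^ e), ?_, ?_, ?_, ?_⟩
  · rw [← zpow_add, add_comm, huv, zpow_one]
  · exact (Commute.refl g).zpow_zpow _ _
  · have h1 : (g ^ (v * (m : ℤ))) ^ (p ^ e) = 1 := by
      have e1 : v * (m : ℤ) * ((p ^ e : ℕ) : ℤ) = ((p : ℤ) ^ e * (m : ℤ)) * v := by
        rw [Nat.cast_pow]
        ring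
      rw [← zpow_natCast, ← zpow_mul, e1, zpow_mul, hgn, one_zpow]
    obtain ⟨k, -, hk⟩ := (Nat.dvd_prime_pow hp).mp (orderOf_dvd_of_pow_eq_one h1)
    exact ⟨k, hk⟩
  · intro hdvd
    have h1 : (g ^ (u * (p : ℤ) ^ e)) ^ m = 1 := by
      have e1 : u * (p : ℤ) ^ e * (m : ℤ) = ((p : ℤ) ^ e * (m : ℤ)) * u := by ring
      rw [← zpow_natCast, ← zpow_mul, e1, zpow_mul, hgn, one_zpow]
    exact hm (dvd_trans hdvd (orderOf_dvd_of_pow_eq_one h1))

theorem ppart_commute_lead {G : Type u} [Group G] (p : ℕ) (hp : p.Prime) (g x : G)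
    (hx : Cfsg.IsPPart p g x) (k : ℤ) (hpk : ¬ (p : ℤ) ∣ k) (r : G)
    (hgk : Commute (g ^ k) r) : Commute x r := by
  obtain ⟨y, hxy, hcomm, ⟨a, ha⟩, hy⟩ := hx
  have hyk : y ^ (k * (orderOf y : ℤ)) = 1 := by
    rw [mul_comm, zpow_mul, zpow_natCast, pow_orderOf_eq_one, one_zpow]
  have hgkm : g ^ (k * (orderOf y : ℤ)) = x ^ (k * (orderOf y : ℤ)) := by
    rw [← hxy, hcomm.mul_zpow, hyk, mul_one]
  have hxn : Commute (x ^ (k * (orderOf y : ℤ))) r := by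
    rw [← hgkm, zpow_mul]
    exact hgk.zpow_left _
  have hpn : ¬ (p : ℤ) ∣ k * (orderOf y : ℤ) := by
    intro h
    rcases (Nat.prime_iff_prime_int.mp hp).dvd_or_dvd h with h1 | h1
    · exact hpk h1
    · exact hy (Int.natCast_dvd_natCast.mp h1)
  have hcop : IsCoprime ((p : ℤ) ^ a) (k * (orderOf y : ℤ)) :=
    IsCoprime.pow_left (((Nat.prime_iff_prime_int.mp hp).coprime_iff_not_dvd).mpr hpn)
  obtain ⟨u, v, huv⟩ := hcop
  have hxa : x ^ ((p : ℤ) ^ a) = 1 := by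
    have h1 : ((p : ℤ) ^ a) = ((p ^ a : ℕ) : ℤ) := (Nat.cast_pow p a).symm
    rw [h1, zpow_natCast, ← ha, pow_orderOf_eq_one]
  have hx1 : x = (x ^ (k * (orderOf y : ℤ))) ^ v := by
    calc x = x ^ (1 : ℤ) := (zpow_one x).symm
      _ = x ^ (u * (p : ℤ) ^ a + v * (k * (orderOf y : ℤ))) := by rw [huv]
      _ = (x ^ (k * (orderOf y : ℤ))) ^ v := by
        rw [zpow_add, mul_comm u, zpow_mul, hxa, one_zpow, one_mul, mul_comm v, zpow_mul]
  rw [hx1]
  exact hxn.zpow_left v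

theorem fix_commute_lead {G : Type u} [Group G] (a b r s : G) (j₁ j₂ : ℤ)
    (h₁ : a ^ j₁ * r * b⁻¹ ^ j₁ = r) (h₂ : a ^ j₂ * s * b⁻¹ ^ j₂ = s) :
    Commute (a ^ (j₁ * j₂)) (r * s⁻¹) := by
  rw [inv_zpow] at h₁ h₂
  have e1 : a ^ j₁ = r * b ^ j₁ * r⁻¹ := by
    calc a ^ j₁ = (a ^ j₁ * r * (b ^ j₁)⁻¹) * b ^ j₁ * r⁻¹ := by
          simp only [mul_assoc, inv_mul_cancel, mul_one, mul_inv_cancel]
      _ = r * b ^ j₁ * r⁻¹ := by rw [h₁]
  have e2 : a ^ j₂ = s * b ^ j₂ * s⁻¹ := by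
    calc a ^ j₂ = (a ^ j₂ * s * (b ^ j₂)⁻¹) * b ^ j₂ * s⁻¹ := by
          simp only [mul_assoc, inv_mul_cancel, mul_one, mul_inv_cancel]
      _ = s * b ^ j₂ * s⁻¹ := by rw [h₂]
  have e1' : a ^ (j₁ * j₂) = r * b ^ (j₁ * j₂) * r⁻¹ := by
    rw [zpow_mul, e1, conj_zpow, ← zpow_mul]
  have e2' : a ^ (j₁ * j₂) = s * b ^ (j₁ * j₂) * s⁻¹ := by
    rw [mul_comm j₁ j₂, zpow_mul, e2, conj_zpow, ← zpow_mul]
  obtain ⟨A, hA⟩ : ∃ A : G, A = a ^ (j₁ * j₂) := ⟨_, rfl⟩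
  obtain ⟨Bz, hBz⟩ : ∃ Bz : G, Bz = b ^ (j₁ * j₂) := ⟨_, rfl⟩
  rw [← hA, ← hBz] at e1' e2'
  rw [← hA]
  show A * (r * s⁻¹) = r * s⁻¹ * A
  calc A * (r * s⁻¹) = r * Bz * r⁻¹ * (r * s⁻¹) := by rw [← e1']
    _ = r * s⁻¹ * (s * Bz * s⁻¹) := by simp only [mul_assoc, inv_mul_cancel_left]
    _ = r * s⁻¹ * A := by rw [← e2']

theorem ext_conj_lead {G : Type u} [Group G] (H : Subgroup G) (θ : H → ℂ)
    (hθ : Cfsg.IsClassFunction H θ) (d : G) (hd : d ∈ H) (x : G) :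
    Cfsg.extendByZero H θ (d * x * d⁻¹) = Cfsg.extendByZero H θ x := by
  by_cases hx : x ∈ H
  · have hdx : d * x * d⁻¹ ∈ H := H.mul_mem (H.mul_mem hd hx) (H.inv_mem hd)
    rw [extendByZero_mem H θ hdx, extendByZero_mem H θ hx]
    exact hθ ⟨x, hx⟩ ⟨d, hd⟩
  · have hdx : d * x * d⁻¹ ∉ H := by
      intro h
      apply hx
      have h2 := H.mul_mem (H.mul_mem (H.inv_mem hd) h) hd
      have e : d⁻¹ * (d * x * d⁻¹) * d = x := by
        simp only [mul_assoc, inv_mul_cancel, mul_one, inv_mul_cancel_left]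
      rw [e] at h2
      exact h2
    rw [extendByZero_not_mem H θ hdx, extendByZero_not_mem H θ hx]

theorem ext_conv_lead {G : Type u} [Group G] [Fintype G] (H : Subgroup G) [Fintype H]
    (θ₁ θ₂ : H → ℂ) (c : G) :
    ∑ x : G, Cfsg.extendByZero H θ₁ x * Cfsg.extendByZero H θ₂ (x⁻¹ * c) =
      Cfsg.extendByZero H (fun y : H => ∑ x : H, θ₁ x * θ₂ (x⁻¹ * y)) c := by
  refine (sum_extendByZero H θ₁ (fun x => Cfsg.extendByZero H θ₂ (x⁻¹ * c))).trans ?_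
  by_cases hc : c ∈ H
  · rw [extendByZero_mem H _ hc]
    show ∑ x : H, θ₁ x * Cfsg.extendByZero H θ₂ ((x : G)⁻¹ * c) =
      ∑ x : H, θ₁ x * θ₂ (x⁻¹ * ⟨c, hc⟩)
    refine Finset.sum_congr rfl (fun x _ => ?_)
    have hxc : (x : G)⁻¹ * c ∈ H := H.mul_mem (H.inv_mem x.2) hc
    exact congrArg (fun t => θ₁ x * t) (extendByZero_mem H θ₂ hxc)
  · rw [extendByZero_not_mem H _ hc]
    show ∑ x : H, θ₁ x * Cfsg.extendByZero H θ₂ ((x : G)⁻¹ * c) = 0
    refine Finset.sum_eq_zero (fun x _ => ?_)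
    have hxc : (x : G)⁻¹ * c ∉ H := by
      intro h
      apply hc
      have h2 := H.mul_mem x.2 h
      rw [mul_inv_cancel_left] at h2
      exact h2
    rw [extendByZero_not_mem H θ₂ hxc, mul_zero]

theorem blockCoeff_compl_local_lead {G : Type u} [Group G] [Fintype G] (p : ℕ) (hp : p.Prime)
    (M : Ideal Cfsg.AlgInt) (hMprime : M.IsPrime) (hpM : (p : Cfsg.AlgInt) ∈ M)
    (χ₀ : Cfsg.IrrCharacter G) (g : G) :
    Cfsg.MemLocalRing M (Cfsg.blockCoeff (Cfsg.blockOf M (χ₀ : G → ℂ))ᶜ g) := by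
  classical
  haveI : Fintype (Cfsg.IrrCharacter G) := Fintype.ofFinite _
  have hMtop : M ≠ ⊤ := hMprime.ne_top
  obtain ⟨ι, hι, hι1, hι0⟩ := isLocSpec_block_lead p hp M hMprime hpM χ₀
  have h1 := isLocSpec_inv_lead (isLocSpec_sub_lead hMprime (isLocSpec_one_lead hMtop) hι) g
  have e : Cfsg.blockCoeff (Cfsg.blockOf M (χ₀ : G → ℂ))ᶜ g =
      (Nat.card G : ℂ)⁻¹ * ∑ φ : Cfsg.IrrCharacter G,
        (1 - ι φ) * ((φ : G → ℂ) 1 * (starRingEnd ℂ) ((φ : G → ℂ) g)) := by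
    unfold Cfsg.blockCoeff
    congr 1
    rw [finsum_mem_def, finsum_eq_sum_of_fintype]
    refine Finset.sum_congr rfl (fun φ _ => ?_)
    by_cases hφ : φ ∈ Cfsg.blockOf M (χ₀ : G → ℂ)
    · rw [Set.indicator_of_notMem (Set.notMem_compl_iff.mpr hφ), hι1 φ hφ, sub_self, zero_mul]
    · rw [Set.indicator_of_mem (Set.mem_compl hφ), hι0 φ hφ, sub_zero, one_mul]
  rw [e]
  exact h1

open Classical in
theorem inducedCentralChar_ite_lead {G : Type u} [Group G] (H : Subgroup G) [Fintype H]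
    (ξ : H → ℂ) (g : G) :
    Cfsg.inducedCentralChar H ξ g = ∑ a : H, if IsConj g (a : G) then ξ a / ξ 1 else 0 := by
  unfold Cfsg.inducedCentralChar
  rw [finsum_mem_def, finsum_eq_sum_of_fintype]
  refine Finset.sum_congr rfl (fun a _ => ?_)
  by_cases ha : IsConj g (a : G)
  · rw [if_pos ha, Set.indicator_of_mem (show a ∈ {h : H | IsConj g (h : G)} from ha)]
  · rw [if_neg ha, Set.indicator_of_notMem (show a ∉ {h : H | IsConj g (h : G)} from ha)]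

/-- the product of the idempotent of `b` with the complementary idempotent of `B` -/
noncomputable def smW_lead {G : Type u} [Group G] [Fintype G] (H : Subgroup G)
    (b : Set (Cfsg.IrrCharacter H)) (B : Set (Cfsg.IrrCharacter G)) (c : G) : ℂ :=
  ∑ x : G, Cfsg.extendByZero H (Cfsg.blockCoeff b) x * Cfsg.blockCoeff Bᶜ (x⁻¹ * c)

theorem smW_conj_lead {G : Type u} [Group G] [Fintype G] (H : Subgroup G)
    (b : Set (Cfsg.IrrCharacter H)) (B : Set (Cfsg.IrrCharacter G)) (d : G) (hd : d ∈ H)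
    (c : G) : smW_lead H b B (d * c * d⁻¹) = smW_lead H b B c := by
  unfold smW_lead
  rw [← Equiv.sum_comp (MulAut.conj d).toEquiv
    (fun x => Cfsg.extendByZero H (Cfsg.blockCoeff b) x *
      Cfsg.blockCoeff Bᶜ (x⁻¹ * (d * c * d⁻¹)))]
  refine Finset.sum_congr rfl (fun x _ => ?_)
  show Cfsg.extendByZero H (Cfsg.blockCoeff b) (d * x * d⁻¹) *
      Cfsg.blockCoeff Bᶜ ((d * x * d⁻¹)⁻¹ * (d * c * d⁻¹)) =
    Cfsg.extendByZero H (Cfsg.blockCoeff b) x * Cfsg.blockCoeff Bᶜ (x⁻¹ * c)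
  have e : (d * x * d⁻¹)⁻¹ * (d * c * d⁻¹) = d * (x⁻¹ * c) * d⁻¹ := by group
  rw [e, ext_conj_lead H _ (fun g h => blockCoeff_classFun_lead b g h) d hd x,
    blockCoeff_classFun_lead]

theorem smW_local_lead {G : Type u} [Group G] [Fintype G] (p : ℕ) (hp : p.Prime)
    (M : Ideal Cfsg.AlgInt) (hMprime : M.IsPrime) (hpM : (p : Cfsg.AlgInt) ∈ M)
    (H : Subgroup G) [Fintype H] (ξ₀ : Cfsg.IrrCharacter H) (χ₁ : Cfsg.IrrCharacter G) (c : G) :
    Cfsg.MemLocalRing M (smW_lead H (Cfsg.blockOf M (ξ₀ : H → ℂ))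
      (Cfsg.blockOf M (χ₁ : G → ℂ)) c) := by
  have hMtop : M ≠ ⊤ := hMprime.ne_top
  unfold smW_lead
  refine memLocalRing_sum_lead hMprime _ _ (fun x _ => ?_)
  exact memLocalRing_mul_lead hMprime
    (extendByZero_memLocalRing_lead H hMtop _ (fun n => osima_lead p hp M hMprime hpM ξ₀ n) x)
    (blockCoeff_compl_local_lead p hp M hMprime hpM χ₁ _)

theorem smW_idem_lead {G : Type u} [Group G] [Fintype G] (H : Subgroup G) [Fintype H]
    (b : Set (Cfsg.IrrCharacter H)) (B : Set (Cfsg.IrrCharacter G)) :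
    convMat_lead (smW_lead H b B) * convMat_lead (smW_lead H b B) =
      convMat_lead (smW_lead H b B) := by
  obtain ⟨F, hF⟩ : ∃ F : G → ℂ, F = Cfsg.extendByZero H (Cfsg.blockCoeff b) := ⟨_, rfl⟩
  obtain ⟨q, hq⟩ : ∃ q : G → ℂ, q = Cfsg.blockCoeff Bᶜ := ⟨_, rfl⟩
  have hW : convMat_lead (smW_lead H b B) = convMat_lead F * convMat_lead q := by
    rw [hF, hq]
    exact (convMat_mul_lead _ _).symm
  have hFF : convMat_lead F * convMat_lead F = convMat_lead F := by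
    rw [convMat_mul_lead]
    congr 1
    funext c
    rw [hF, ext_conv_lead H (Cfsg.blockCoeff b) (Cfsg.blockCoeff b) c]
    congr 1
    funext y
    exact (blockCoeff_conv_lead b y).symm
  have hqq : convMat_lead q * convMat_lead q = convMat_lead q := by
    rw [convMat_mul_lead]
    congr 1
    funext c
    rw [hq]
    exact (blockCoeff_conv_lead Bᶜ c).symm
  have hqF : convMat_lead q * convMat_lead F = convMat_lead F * convMat_lead q := by
    rw [convMat_mul_lead, convMat_mul_lead]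
    congr 1
    funext c
    refine Fintype.sum_equiv ((Equiv.inv G).trans (Equiv.mulRight c)) _ _ ?_
    intro x
    show q x * F (x⁻¹ * c) = F (x⁻¹ * c) * q ((x⁻¹ * c)⁻¹ * c)
    have e1 : (x⁻¹ * c)⁻¹ * c = c⁻¹ * x * c⁻¹⁻¹ := by group
    rw [e1, hq, blockCoeff_classFun_lead]
    exact mul_comm _ _
  rw [hW]
  calc convMat_lead F * convMat_lead q * (convMat_lead F * convMat_lead q)
      = convMat_lead F * (convMat_lead q * convMat_lead F) * convMat_lead q := by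
        simp only [mul_assoc]
    _ = convMat_lead F * (convMat_lead F * convMat_lead q) * convMat_lead q := by rw [hqF]
    _ = (convMat_lead F * convMat_lead F) * (convMat_lead q * convMat_lead q) := by
        simp only [mul_assoc]
    _ = convMat_lead F * convMat_lead q := by rw [hFF, hqq]

end Cfsg.Agent.Lib.Lead
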