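import Mathlib
import Cfsg.Prelude.Def_Blocks
import Cfsg.Agent.Lib.Lead.SecondMainAux

/-!
# The Brauer map at a `p`-subgroup and the existence of a block of a local subgroup below a block
-/

set_option autoImplicit false

namespace Cfsg.Agent.Lib.Lead

open scoped ComplexConjugate

universe u

open Classical in
/-- the indicator function of the centralizer of a subgroup -/
noncomputable def centIndP_lead {G : Type u} [Group G] (P : Subgroup G) (g : G) : ℂ :=
  if ∀ d ∈ P, d * g = g * d then 1 else 0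

theorem centIndP_pos_lead {G : Type u} [Group G] {P : Subgroup G} {g : G}
    (h : ∀ d ∈ P, d * g = g * d) : centIndP_lead P g = 1 := by
  unfold centIndP_lead
  exact if_pos h

theorem centIndP_neg_lead {G : Type u} [Group G] {P : Subgroup G} {g : G}
    (h : ¬ ∀ d ∈ P, d * g = g * d) : centIndP_lead P g = 0 := by
  unfold centIndP_lead
  exact if_neg h

/-- the Brauer map at a `p`-subgroup is multiplicative modulo the local ideal -/
theorem brauer_mul_P_lead (p : ℕ) (hp : p.Prime) (M : Ideal Cfsg.AlgInt) (hMprime : M.IsPrime)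
    (hpM : (p : Cfsg.AlgInt) ∈ M) {G : Type u} [Group G] [Fintype G] (P : Subgroup G)
    (hP : IsPGroup p P) (f₁ f₂ : G → ℂ)
    (h₁R : ∀ x, Cfsg.MemLocalRing M (f₁ x)) (h₂R : ∀ x, Cfsg.MemLocalRing M (f₂ x))
    (h₁ : ∀ d ∈ P, ∀ x, f₁ (d * x * d⁻¹) = f₁ x)
    (h₂ : ∀ d ∈ P, ∀ x, f₂ (d * x * d⁻¹) = f₂ x)
    (c : G) (hc : ∀ d ∈ P, d * c = c * d) :
    Cfsg.MemLocalIdeal M (∑ g : G, f₁ g * f₂ (g⁻¹ * c) -
      ∑ g : G, centIndP_lead P g * (f₁ g * f₂ (g⁻¹ * c))) := by
  have hMtop : M ≠ ⊤ := hMprime.ne_top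
  have e : ∑ g : G, f₁ g * f₂ (g⁻¹ * c) - ∑ g : G, centIndP_lead P g * (f₁ g * f₂ (g⁻¹ * c))
      = ∑ g : G, (1 - centIndP_lead P g) * (f₁ g * f₂ (g⁻¹ * c)) := by
    rw [← Finset.sum_sub_distrib]
    refine Finset.sum_congr rfl (fun g _ => ?_)
    ring
  rw [e]
  refine pgroup_sum_lead p hp M hMprime hpM P hP
    (fun g => (1 - centIndP_lead P g) * (f₁ g * f₂ (g⁻¹ * c))) ?_ ?_ ?_
  · intro d hd x
    show (1 - centIndP_lead P (d * x * d⁻¹)) * (f₁ (d * x * d⁻¹) * f₂ ((d * x * d⁻¹)⁻¹ * c)) =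
      (1 - centIndP_lead P x) * (f₁ x * f₂ (x⁻¹ * c))
    have hdc : Commute d c := hc d hd
    have hiff : (∀ e ∈ P, e * (d * x * d⁻¹) = d * x * d⁻¹ * e) ↔ (∀ e ∈ P, e * x = x * e) := by
      constructor
      · intro h e he
        have he' : d * e * d⁻¹ ∈ P := P.mul_mem (P.mul_mem hd he) (P.inv_mem hd)
        have h1 : Commute (d * e * d⁻¹) (d * x * d⁻¹) := h _ he'
        exact ((Commute.conj_iff d).mp h1).eq
      · intro h e he
        have he' : d⁻¹ * e * d ∈ P := P.mul_mem (P.mul_mem (P.inv_mem hd) he) hd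
        have h1 : Commute (d⁻¹ * e * d) x := h _ he'
        have h2 : Commute (d * (d⁻¹ * e * d) * d⁻¹) (d * x * d⁻¹) :=
          (Commute.conj_iff d).mpr h1
        have e3 : d * (d⁻¹ * e * d) * d⁻¹ = e := by group
        rw [e3] at h2
        exact h2.eq
    have hci : centIndP_lead P (d * x * d⁻¹) = centIndP_lead P x := by
      by_cases hx : ∀ e ∈ P, e * x = x * e
      · rw [centIndP_pos_lead hx, centIndP_pos_lead (hiff.mpr hx)]
      · rw [centIndP_neg_lead hx, centIndP_neg_lead (fun h => hx (hiff.mp h))]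
    have e2 : (d * x * d⁻¹)⁻¹ * c = d * (x⁻¹ * c) * d⁻¹ := by
      have hdc' : d⁻¹ * c = c * d⁻¹ := hdc.inv_left.eq
      calc (d * x * d⁻¹)⁻¹ * c = d * x⁻¹ * (d⁻¹ * c) := by group
        _ = d * x⁻¹ * (c * d⁻¹) := by rw [hdc']
        _ = d * (x⁻¹ * c) * d⁻¹ := by group
    rw [hci, e2, h₁ d hd x, h₂ d hd (x⁻¹ * c)]
  · intro x
    show Cfsg.MemLocalRing M ((1 - centIndP_lead P x) * (f₁ x * f₂ (x⁻¹ * c)))
    refine memLocalRing_mul_lead hMprime ?_ (memLocalRing_mul_lead hMprime (h₁R x) (h₂R _))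
    by_cases hx : ∀ e ∈ P, e * x = x * e
    · rw [centIndP_pos_lead hx, sub_self]
      exact memLocalRing_zero_lead hMtop
    · rw [centIndP_neg_lead hx, sub_zero]
      exact memLocalRing_one_lead hMtop
  · intro x hx
    have hzx : ¬ ∀ e ∈ P, e * x = x * e := by
      intro h
      apply hx
      show (1 - centIndP_lead P x) * (f₁ x * f₂ (x⁻¹ * c)) = 0
      rw [centIndP_pos_lead h, sub_self, zero_mul]
    by_contra hcon
    apply hzx
    intro e he
    by_contra hne
    exact hcon ⟨e, he, fun h => hne (mul_inv_eq_iff_eq_mul.mp h)⟩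

/-- if the idempotent of a block has a unit coefficient at an element centralizing the
`p`-subgroup `P`, then some irreducible character of `H ≥ P C(P)` has central character not
vanishing modulo the local ideal on the restriction of the idempotent -/
theorem exists_irr_lam_lead {G : Type u} [Group G] [Fintype G] (p : ℕ) (hp : p.Prime)
    (M : Ideal Cfsg.AlgInt) (hMprime : M.IsPrime) (hpM : (p : Cfsg.AlgInt) ∈ M)
    (P H : Subgroup G) [Fintype H] (hP : IsPGroup p P) (hPH : P ≤ H)
    (hCH : Subgroup.centralizer (P : Set G) ≤ H) (χ₁ : Cfsg.IrrCharacter G) (y₀ : G)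
    (hy₀ : ∀ w ∈ P, w * y₀ = y₀ * w)
    (hy₀e : ¬ Cfsg.MemLocalIdeal M (Cfsg.blockCoeff (Cfsg.blockOf M (χ₁ : G → ℂ)) y₀)) :
    ∃ ξ : Cfsg.IrrCharacter H, ¬ Cfsg.MemLocalIdeal M
      ((∑ m : H, Cfsg.blockCoeff (Cfsg.blockOf M (χ₁ : G → ℂ)) (m : G) * (ξ : H → ℂ) m) /
        (ξ : H → ℂ) 1) := by
  classical
  haveI : Fintype (Cfsg.IrrCharacter H) := Fintype.ofFinite _
  have hMtop : M ≠ ⊤ := hMprime.ne_top
  by_contra hcon
  have hall : ∀ ξ : Cfsg.IrrCharacter H, Cfsg.MemLocalIdeal M
      ((∑ m : H, Cfsg.blockCoeff (Cfsg.blockOf M (χ₁ : G → ℂ)) (m : G) * (ξ : H → ℂ) m) /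
        (ξ : H → ℂ) 1) := by
    intro ξ
    by_contra h
    exact hcon ⟨ξ, h⟩
  obtain ⟨eB, heB⟩ : ∃ eB : G → ℂ, eB = Cfsg.blockCoeff (Cfsg.blockOf M (χ₁ : G → ℂ)) :=
    ⟨_, rfl⟩
  rw [← heB] at hall hy₀e
  have heR : ∀ g, Cfsg.MemLocalRing M (eB g) := by
    intro g
    rw [heB]
    exact osima_lead p hp M hMprime hpM χ₁ g
  have hec : ∀ g t : G, eB (t * g * t⁻¹) = eB g := by
    intro g t
    rw [heB]
    exact blockCoeff_classFun_lead _ g t
  have heconv : ∀ c : G, eB c = ∑ x : G, eB x * eB (x⁻¹ * c) := by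
    intro c
    rw [heB]
    exact blockCoeff_conv_lead _ c
  obtain ⟨f, hf⟩ : ∃ f : H → ℂ, ∀ m : H, f m = eB (m : G) :=
    ⟨fun m => eB (m : G), fun _ => rfl⟩
  have hfc : Cfsg.IsClassFunction H f := by
    intro g t
    rw [hf, hf]
    exact hec (g : G) (t : G)
  have hfR : ∀ m, Cfsg.MemLocalRing M (f m) := by
    intro m
    rw [hf]
    exact heR _
  have hT : ∀ ξ : Cfsg.IrrCharacter H, ∑ g : H, f g * (ξ : H → ℂ) g =
      ((∑ m : H, eB (m : G) * (ξ : H → ℂ) m) / (ξ : H → ℂ) 1) * (ξ : H → ℂ) 1 := by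
    intro ξ
    obtain ⟨d, hd0, hd⟩ := irr_one ξ.2
    have h1 : (ξ : H → ℂ) 1 ≠ 0 := by
      rw [hd]
      exact_mod_cast hd0
    have h2 : ((∑ m : H, eB (m : G) * (ξ : H → ℂ) m) / (ξ : H → ℂ) 1) * (ξ : H → ℂ) 1 =
        ∑ m : H, eB (m : G) * (ξ : H → ℂ) m := by
      field_simp
    rw [h2]
    refine Finset.sum_congr rfl (fun g _ => ?_)
    rw [hf]
  obtain ⟨q', hq0, hqs, hqcl, hqR', N, hN⟩ :=
    nilp_conv_lead p hp M hMprime hpM f hfc hfR
      (fun ξ => (∑ m : H, eB (m : G) * (ξ : H → ℂ) m) / (ξ : H → ℂ) 1) hT hall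
  have hcentH : ∀ c : G, (∀ w ∈ P, w * c = c * w) → c ∈ H := by
    intro c hc
    apply hCH
    rw [Subgroup.mem_centralizer_iff]
    intro w hw
    exact hc w hw
  have hclaim : ∀ n : ℕ, ∀ c : G, (∀ w ∈ P, w * c = c * w) →
      Cfsg.MemLocalIdeal M (Cfsg.extendByZero H (q' n) c - eB c) := by
    intro n
    induction n with
    | zero =>
      intro c hc
      have hcH := hcentH c hc
      have h0 : Cfsg.extendByZero H (q' 0) c = eB c := by
        rw [extendByZero_mem H _ hcH, hq0, hf]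
      rw [h0, sub_self]
      exact memLocalIdeal_zero_lead hMtop
    | succ n ih =>
      intro c hc
      have hcH := hcentH c hc
      have hF1R : ∀ x, Cfsg.MemLocalRing M (Cfsg.extendByZero H (q' n) x) :=
        fun x => extendByZero_memLocalRing_lead H hMtop _ (hqR' n) x
      have hF2R : ∀ x, Cfsg.MemLocalRing M (Cfsg.extendByZero H f x) :=
        fun x => extendByZero_memLocalRing_lead H hMtop _ hfR x
      have hF1c : ∀ d ∈ P, ∀ x, Cfsg.extendByZero H (q' n) (d * x * d⁻¹) =
          Cfsg.extendByZero H (q' n) x :=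
        fun d hd x => ext_conj_lead H (q' n) (hqcl n) d (hPH hd) x
      have hF2c : ∀ d ∈ P, ∀ x, Cfsg.extendByZero H f (d * x * d⁻¹) =
          Cfsg.extendByZero H f x :=
        fun d hd x => ext_conj_lead H f hfc d (hPH hd) x
      have hecP : ∀ d ∈ P, ∀ x, eB (d * x * d⁻¹) = eB x := fun d _ x => hec x d
      have s1 : Cfsg.extendByZero H (q' (n + 1)) c =
          ∑ g : G, Cfsg.extendByZero H (q' n) g * Cfsg.extendByZero H f (g⁻¹ * c) := by
        rw [ext_conv_lead H (q' n) f c]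
        congr 1
        funext y
        exact hqs n y
      have b1 := brauer_mul_P_lead p hp M hMprime hpM P hP _ _ hF1R hF2R hF1c hF2c c hc
      have b2 := brauer_mul_P_lead p hp M hMprime hpM P hP eB eB heR heR hecP hecP c hc
      have mid : Cfsg.MemLocalIdeal M
          (∑ g : G, centIndP_lead P g * (Cfsg.extendByZero H (q' n) g *
              Cfsg.extendByZero H f (g⁻¹ * c)) -
            ∑ g : G, centIndP_lead P g * (eB g * eB (g⁻¹ * c))) := by
        rw [← Finset.sum_sub_distrib]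
        refine memLocalIdeal_sum_lead hMprime _ _ (fun g _ => ?_)
        by_cases hg : ∀ d ∈ P, d * g = g * d
        · have hgH := hcentH g hg
          have hgcH : g⁻¹ * c ∈ H := H.mul_mem (H.inv_mem hgH) hcH
          have e1 : Cfsg.extendByZero H f (g⁻¹ * c) = eB (g⁻¹ * c) := by
            rw [extendByZero_mem H _ hgcH, hf]
          rw [centIndP_pos_lead hg, one_mul, one_mul, e1, ← sub_mul]
          rw [mul_comm]
          exact memLocalIdeal_mul_ring_lead hMprime (heR _) (ih g hg)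
        · rw [centIndP_neg_lead hg, zero_mul, zero_mul, sub_self]
          exact memLocalIdeal_zero_lead hMtop
      have e : Cfsg.extendByZero H (q' (n + 1)) c - eB c =
          (∑ g : G, Cfsg.extendByZero H (q' n) g * Cfsg.extendByZero H f (g⁻¹ * c) -
            ∑ g : G, centIndP_lead P g * (Cfsg.extendByZero H (q' n) g *
              Cfsg.extendByZero H f (g⁻¹ * c))) +
          (∑ g : G, centIndP_lead P g * (Cfsg.extendByZero H (q' n) g *
              Cfsg.extendByZero H f (g⁻¹ * c)) -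
            ∑ g : G, centIndP_lead P g * (eB g * eB (g⁻¹ * c))) -
          (∑ g : G, eB g * eB (g⁻¹ * c) -
            ∑ g : G, centIndP_lead P g * (eB g * eB (g⁻¹ * c))) := by
        rw [s1, heconv c]
        ring
      rw [e]
      exact memLocalIdeal_sub_lead hMprime (memLocalIdeal_add_lead hMprime b1 mid) b2
  have hy₀H := hcentH y₀ hy₀
  have h1 := hclaim N y₀ hy₀
  have h2 : Cfsg.MemLocalIdeal M (Cfsg.extendByZero H (q' N) y₀) := by
    rw [extendByZero_mem H _ hy₀H]
    exact hN _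
  apply hy₀e
  have e : eB y₀ = Cfsg.extendByZero H (q' N) y₀ -
      (Cfsg.extendByZero H (q' N) y₀ - eB y₀) := by
    ring
  rw [e]
  exact memLocalIdeal_sub_lead hMprime h2 h1

/-- the central character of `ξ` on the restriction of a class function of `G`, regrouped over
the classes of `G` -/
theorem lam_regroup_lead {G : Type u} [Group G] [Fintype G] [Fintype (ConjClasses G)]
    (H : Subgroup G) [Fintype H] (q : G → ℂ) (hqc : ∀ g t : G, q (t * g * t⁻¹) = q g)
    (ξ : H → ℂ) :
    (∑ y : H, q (y : G) * ξ y) / ξ 1 =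
      ∑ C : ConjClasses G, q (Quotient.out C) *
        Cfsg.inducedCentralChar H ξ (Quotient.out C) := by
  classical
  have hcls : ∀ y : H, ∑ C : ConjClasses G,
      (if IsConj (Quotient.out C) (y : G) then
        q (Quotient.out C) * (ξ y / ξ 1) else 0) = q (y : G) * (ξ y / ξ 1) := by
    intro y
    rw [Finset.sum_eq_single (ConjClasses.mk (y : G))]
    · have hconj : IsConj (Quotient.out (ConjClasses.mk (y : G))) (y : G) := by
        rw [← ConjClasses.mk_eq_mk_iff_isConj]
        exact Quotient.out_eq _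
      obtain ⟨t, ht⟩ := isConj_iff.mp hconj
      have hq1 : q (Quotient.out (ConjClasses.mk (y : G))) = q (y : G) := by
        have h5 := hqc (Quotient.out (ConjClasses.mk (y : G))) t
        rw [ht] at h5
        exact h5.symm
      rw [if_pos hconj, hq1]
    · intro C _ hC
      have hnc : ¬ IsConj (Quotient.out C) (y : G) := by
        intro hconj
        apply hC
        exact (Quotient.out_eq C).symm.trans (ConjClasses.mk_eq_mk_iff_isConj.mpr hconj)
      rw [if_neg hnc]
    · intro h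
      exact absurd (Finset.mem_univ _) h
  rw [Finset.sum_div]
  calc ∑ y : H, q (y : G) * ξ y / ξ 1
      = ∑ y : H, ∑ C : ConjClasses G,
          (if IsConj (Quotient.out C) (y : G) then
            q (Quotient.out C) * (ξ y / ξ 1) else 0) := by
        refine Finset.sum_congr rfl (fun y _ => ?_)
        rw [hcls y, mul_div_assoc]
    _ = ∑ C : ConjClasses G, ∑ y : H,
          (if IsConj (Quotient.out C) (y : G) then
            q (Quotient.out C) * (ξ y / ξ 1) else 0) := Finset.sum_comm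
    _ = _ := by
        refine Finset.sum_congr rfl (fun C _ => ?_)
        rw [inducedCentralChar_ite_lead, Finset.mul_sum]
        refine Finset.sum_congr rfl (fun y _ => ?_)
        by_cases hc : IsConj (Quotient.out C) (y : G)
        · rw [if_pos hc, if_pos hc]
        · rw [if_neg hc, if_neg hc, mul_zero]

end Cfsg.Agent.Lib.Lead
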