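import Mathlib
import Cfsg.Prelude.Def_Blocks
import Cfsg.Agent.Lib.Lead.BlockDefGrp
import Cfsg.Agent.Lib.Lead.BlockDefCount
import Cfsg.Agent.Lib.Lead.BlockPQuot
import Cfsg.Agent.Lib.Lead.BlockKer
import Cfsg.Agent.Lib.Lead.BlockOsima
import Cfsg.Agent.Lib.Lead.BlockOsima2
import Cfsg.Agent.Lib.Lead.BlockOsimaSupp
import Cfsg.Agent.Lib.Lead.BlockAux
import Cfsg.Agent.Lib.Lead.BlockAux2
import Cfsg.Agent.Lib.Lead.BrauerR2
import Cfsg.Agent.Lib.Lead.CharRing
import Cfsg.Agent.Lib.Lead.CharCentral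
import Cfsg.Agent.Lib.Lead.CharInd3
import Cfsg.Agent.Lib.Lead.CharOrtho
import Cfsg.Agent.Lib.Lead.CharZeros
import Cfsg.Agent.Lib.Lead.CharCongr

/-!
# Defect classes

Characters at `c z`, `z` a central `p`-element, are congruent to their values at `c` modulo the
local ideal; the numerical data of a defect class.
-/

set_option autoImplicit false

namespace Cfsg.Agent.Lib.Lead

open scoped ComplexConjugate

universe u

/-- a character at `c z`, `z` a central `p`-element, is congruent to its value at `c` -/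
theorem char_mul_central_pelt_congr_lead (p : ℕ) (hp : p.Prime) {M : Ideal Cfsg.AlgInt}
    (hM : M.IsPrime) (hpM : (p : Cfsg.AlgInt) ∈ M) {C : Type u} [Group C] [Fintype C]
    (ψ : C → ℂ) (hψ : Cfsg.IsCharacter C ψ) (z : C) (hz : z ∈ Subgroup.center C) (k : ℕ)
    (hzk : z ^ p ^ k = 1) (c : C) : Cfsg.MemLocalIdeal M (ψ (c * z) - ψ c) := by
  classical
  have hMtop : M ≠ ⊤ := hM.ne_top
  haveI : Fintype (Cfsg.IrrCharacter C) := Fintype.ofFinite _
  obtain ⟨n, hexp, -⟩ := isCharacter_expansion hψ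
  have hψv : ∀ x : C, ψ x = ∑ θ : Cfsg.IrrCharacter C, (n θ : ℂ) * (θ : C → ℂ) x := by
    intro x
    rw [congrFun hexp x, Finset.sum_apply]
    refine Finset.sum_congr rfl (fun θ _ => ?_)
    rw [Pi.smul_apply, smul_eq_mul]
  have hθ : ∀ θ : Cfsg.IrrCharacter C,
      Cfsg.MemLocalIdeal M ((θ : C → ℂ) (c * z) - (θ : C → ℂ) c) := by
    intro θ
    have hθc := isCharacter_of_isIrrCharacter θ.2
    obtain ⟨hd1, hd0⟩ := charDegree_irr θ.2
    have hθ1 : (θ : C → ℂ) 1 ≠ 0 := by
      rw [hd1]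
      exact_mod_cast hd0
    have hmul : ∀ h : C, (θ : C → ℂ) (h * z) =
        (θ : C → ℂ) z / (θ : C → ℂ) 1 * (θ : C → ℂ) h := by
      intro h
      obtain ⟨m, ρ, hρ, hρθ⟩ := θ.2
      haveI := hρ
      rw [← hρθ, char_mul_central ρ h z hz, Representation.char_one]
    have hpow : ∀ j : ℕ, (θ : C → ℂ) (z ^ j) =
        ((θ : C → ℂ) z / (θ : C → ℂ) 1) ^ j * (θ : C → ℂ) 1 := by
      intro j
      induction j with
      | zero => rw [pow_zero, pow_zero, one_mul]
      | succ j ih =>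
        calc (θ : C → ℂ) (z ^ (j + 1)) = (θ : C → ℂ) (z ^ j * z) := by rw [pow_succ]
          _ = (θ : C → ℂ) z / (θ : C → ℂ) 1 * (θ : C → ℂ) (z ^ j) := hmul _
          _ = ((θ : C → ℂ) z / (θ : C → ℂ) 1) ^ (j + 1) * (θ : C → ℂ) 1 := by
              rw [ih]
              ring
    have hζ : ((θ : C → ℂ) z / (θ : C → ℂ) 1) ^ p ^ k = 1 := by
      have h1 := hpow (p ^ k)
      rw [hzk] at h1
      have h2 : ((θ : C → ℂ) z / (θ : C → ℂ) 1) ^ p ^ k * (θ : C → ℂ) 1 =
          1 * (θ : C → ℂ) 1 := by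
        rw [one_mul]
        exact h1.symm
      exact mul_right_cancel₀ hθ1 h2
    have h3 := root_sub_one_memLocalIdeal_lead p hp hM hpM k _ hζ
    have h4 := memLocalIdeal_mul_ring_lead hM
      (memLocalRing_isIntegral_lead hMtop (isIntegral_isCharacter hθc c)) h3
    rw [hmul c]
    have e : (θ : C → ℂ) z / (θ : C → ℂ) 1 * (θ : C → ℂ) c - (θ : C → ℂ) c =
        (θ : C → ℂ) c * ((θ : C → ℂ) z / (θ : C → ℂ) 1 - 1) := by ring
    rw [e]
    exact h4
  rw [hψv (c * z), hψv c, ← Finset.sum_sub_distrib]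
  apply memLocalIdeal_sum_lead hM
  intro θ _
  have e : (n θ : ℂ) * (θ : C → ℂ) (c * z) - (n θ : ℂ) * (θ : C → ℂ) c =
      (n θ : ℂ) * ((θ : C → ℂ) (c * z) - (θ : C → ℂ) c) := by ring
  rw [e]
  exact memLocalIdeal_mul_ring_lead hM
    (memLocalRing_isIntegral_lead hMtop (isIntegral_natCast (n θ))) (hθ θ)

/-- a character at `x y`, `x` a `p`-element commuting with `y`, is congruent to its value at
`y` modulo the local ideal -/
theorem char_mul_pelt_congr_lead (p : ℕ) (hp : p.Prime) {M : Ideal Cfsg.AlgInt} (hM : M.IsPrime)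
    (hpM : (p : Cfsg.AlgInt) ∈ M) {G : Type u} [Group G] [Fintype G] (χ : G → ℂ)
    (hχ : Cfsg.IsCharacter G χ) (x y : G) (hxy : x * y = y * x) (k : ℕ) (hx : x ^ p ^ k = 1) :
    Cfsg.MemLocalIdeal M (χ (x * y) - χ y) := by
  classical
  haveI : Fintype (Subgroup.centralizer ({x} : Set G)) := Fintype.ofFinite _
  have hxC : x ∈ Subgroup.centralizer ({x} : Set G) := by
    rw [Subgroup.mem_centralizer_iff]
    intro h hh
    rw [Set.mem_singleton_iff] at hh
    rw [hh]
  have hyC : y ∈ Subgroup.centralizer ({x} : Set G) := by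
    rw [Subgroup.mem_centralizer_iff]
    intro h hh
    rw [Set.mem_singleton_iff] at hh
    rw [hh]
    exact hxy
  have hz : (⟨x, hxC⟩ : Subgroup.centralizer ({x} : Set G)) ∈
      Subgroup.center (Subgroup.centralizer ({x} : Set G)) := by
    rw [Subgroup.mem_center_iff]
    intro c
    apply Subtype.ext
    have h1 := c.2
    rw [Subgroup.mem_centralizer_iff] at h1
    exact (h1 x (Set.mem_singleton x)).symm
  have hzk : (⟨x, hxC⟩ : Subgroup.centralizer ({x} : Set G)) ^ p ^ k = 1 := by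
    apply Subtype.ext
    simpa using hx
  have h := char_mul_central_pelt_congr_lead p hp hM hpM
    (fun h : Subgroup.centralizer ({x} : Set G) => χ h) (isCharacter_restrict _ hχ)
    ⟨x, hxC⟩ hz k hzk ⟨y, hyC⟩
  rw [hxy]
  exact h

/-- the numerical data of a defect class `g` of the block of `χ₀`, with `P` a Sylow
`p`-subgroup of the centralizer of `g`: `g` is `p`-regular and the least exponent of `p` in
the degrees of the block is the exponent of `p` in the class size -/
theorem defect_data_lead (p : ℕ) [Fact p.Prime] {M : Ideal Cfsg.AlgInt} (hMprime : M.IsPrime)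
    (hpM : (p : Cfsg.AlgInt) ∈ M) {G : Type u} [Group G] [Finite G]
    (χ₀ : Cfsg.IrrCharacter G) (g : G)
    (hg : Cfsg.IsDefectClass M (Cfsg.blockOf M (χ₀ : G → ℂ)) g)
    (P : Sylow p (Subgroup.centralizer ({g} : Set G))) :
    ∃ δ e c' r : ℕ, ¬ p ∣ c' ∧ ¬ p ∣ r ∧
      Nat.card (P : Subgroup (Subgroup.centralizer ({g} : Set G))) = p ^ δ ∧
      Nat.card (Subgroup.centralizer ({g} : Set G)) = p ^ δ * c' ∧
      (Subgroup.centralizer ({g} : Set G)).index = p ^ e * r ∧
      Nat.card G = p ^ δ * c' * (p ^ e * r) ∧ ¬ p ∣ orderOf g ∧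
      sInf ((fun χ : Cfsg.IrrCharacter G => (Cfsg.charDegree (χ : G → ℂ)).factorization p) ''
        Cfsg.blockOf M (χ₀ : G → ℂ)) = e := by
  classical
  have hp : p.Prime := Fact.out
  haveI : Fintype G := Fintype.ofFinite G
  haveI : Fintype (Cfsg.IrrCharacter G) := Fintype.ofFinite _
  have hMtop : M ≠ ⊤ := hMprime.ne_top
  obtain ⟨hgR, hgI, hgω⟩ := hg
  haveI : Fintype (Subgroup.centralizer ({g} : Set G)) := Fintype.ofFinite _
  haveI : Fintype (P : Subgroup (Subgroup.centralizer ({g} : Set G))) := Fintype.ofFinite _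
  have hcl : Cfsg.IsClassFunction G (Cfsg.blockCoeff (Cfsg.blockOf M (χ₀ : G → ℂ))) :=
    fun g h => blockCoeff_classFun_lead _ g h
  have hcR : ∀ x : G, Cfsg.MemLocalRing M
      (Cfsg.blockCoeff (Cfsg.blockOf M (χ₀ : G → ℂ)) x) :=
    fun x => osima_lead p hp M hMprime hpM χ₀ x
  have hidem : ∀ x : G, ∑ y : G, Cfsg.blockCoeff (Cfsg.blockOf M (χ₀ : G → ℂ)) y *
      Cfsg.blockCoeff (Cfsg.blockOf M (χ₀ : G → ℂ)) (y⁻¹ * x) =
      Cfsg.blockCoeff (Cfsg.blockOf M (χ₀ : G → ℂ)) x :=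
    fun x => (blockCoeff_conv_lead _ x).symm
  have hsing : ∀ y : G, p ∣ orderOf y →
      Cfsg.blockCoeff (Cfsg.blockOf M (χ₀ : G → ℂ)) y = 0 :=
    fun y hy => idem_psingular_lead p hp hMprime hpM _ hcl hcR hidem y hy
  have hreg : ¬ p ∣ orderOf g := by
    intro h
    apply hgI
    rw [hsing g h]
    exact memLocalIdeal_zero_lead hMtop
  obtain ⟨δ, hδ⟩ := IsPGroup.exists_card_eq P.isPGroup'
  have hG0 : Nat.card G ≠ 0 := Nat.card_pos.ne'
  have hidx0 : (Subgroup.centralizer ({g} : Set G)).index ≠ 0 :=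
    Subgroup.index_ne_zero_of_finite
  obtain ⟨e, r, hr, her⟩ := Nat.exists_eq_pow_mul_and_not_dvd hidx0 p hp.ne_one
  have hPidx : ¬ p ∣ (P : Subgroup (Subgroup.centralizer ({g} : Set G))).index :=
    P.not_dvd_index
  obtain ⟨c', hc'⟩ : ∃ c' : ℕ,
      c' = (P : Subgroup (Subgroup.centralizer ({g} : Set G))).index := ⟨_, rfl⟩
  rw [← hc'] at hPidx
  have hCcard : Nat.card (Subgroup.centralizer ({g} : Set G)) = p ^ δ * c' := by
    rw [hc', ← hδ]
    exact (Subgroup.card_mul_index _).symm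
  have hGcard : Nat.card G = p ^ δ * c' * (p ^ e * r) := by
    rw [← hCcard, ← her]
    exact (Subgroup.card_mul_index _).symm
  have hc'0 : c' ≠ 0 := by
    rintro rfl
    exact hPidx (dvd_zero p)
  have hr0 : r ≠ 0 := by
    rintro rfl
    exact hr (dvd_zero p)
  have hnd : ¬ p ∣ c' * r := fun h => (hp.dvd_mul.mp h).elim hPidx hr
  have hI : ∀ χ ∈ Cfsg.blockOf M (χ₀ : G → ℂ),
      e ≤ (Cfsg.charDegree (χ : G → ℂ)).factorization p :=
    fun χ hχ => centralChar_val_lead p hp hMprime hpM χ g e r her (hgω χ hχ)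
  -- vanishing of the idempotent on `u g`, `u ≠ 1` in `P`
  have hvan : ∀ u : (P : Subgroup (Subgroup.centralizer ({g} : Set G))), u ≠ 1 →
      Cfsg.blockCoeff (Cfsg.blockOf M (χ₀ : G → ℂ))
        (((u : Subgroup.centralizer ({g} : Set G)) : G) * g) = 0 := by
    intro u hu
    apply hsing
    obtain ⟨k, hk⟩ := P.isPGroup' u
    have hcomm : Commute (((u : Subgroup.centralizer ({g} : Set G)) : G)) g := by
      have h1 := (u : Subgroup.centralizer ({g} : Set G)).2
      rw [Subgroup.mem_centralizer_iff] at h1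
      exact (h1 g (Set.mem_singleton g)).symm
    have hx1 : (((u : Subgroup.centralizer ({g} : Set G)) : G)) ≠ 1 := by
      intro h
      apply hu
      apply Subtype.ext
      apply Subtype.ext
      exact h
    have hxpow : (((u : Subgroup.centralizer ({g} : Set G)) : G)) ^ p ^ k = 1 := by
      have h2 := congrArg (fun w : (P : Subgroup (Subgroup.centralizer ({g} : Set G))) =>
        ((w : Subgroup.centralizer ({g} : Set G)) : G)) hk
      simpa using h2
    have hdiv : orderOf (((u : Subgroup.centralizer ({g} : Set G)) : G)) ∣ p ^ k :=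
      orderOf_dvd_of_pow_eq_one hxpow
    obtain ⟨m, -, hm⟩ := (Nat.dvd_prime_pow hp).mp hdiv
    have hm0 : m ≠ 0 := by
      rintro rfl
      rw [pow_zero, orderOf_eq_one_iff] at hm
      exact hx1 hm
    have hpo : p ∣ orderOf (((u : Subgroup.centralizer ({g} : Set G)) : G)) := by
      rw [hm]
      exact dvd_pow_self p hm0
    have hcop : (orderOf (((u : Subgroup.centralizer ({g} : Set G)) : G))).Coprime
        (orderOf g) := by
      rw [hm]
      exact Nat.Coprime.pow_left m ((Nat.Prime.coprime_iff_not_dvd hp).mpr hreg)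
    rw [hcomm.orderOf_mul_eq_mul_orderOf_of_coprime hcop]
    exact Dvd.dvd.mul_right hpo _
  -- (II) some degree has exactly the `p`-part of the class size
  have hII : ∃ χ ∈ Cfsg.blockOf M (χ₀ : G → ℂ),
      (Cfsg.charDegree (χ : G → ℂ)).factorization p ≤ e := by
    by_contra hcon
    push_neg at hcon
    apply hgI
    exact blockCoeff_pdiv_lead p hp hMprime hpM (Cfsg.blockOf M (χ₀ : G → ℂ)) g
      (P : Subgroup (Subgroup.centralizer ({g} : Set G))) hvan δ e c' r hδ hGcard hPidx hr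
      (fun χ hχ => (Nat.Prime.pow_dvd_iff_le_factorization hp (charDegree_irr χ.2).2).mpr
        (Nat.succ_le_of_lt (hcon χ hχ)))
  refine ⟨δ, e, c', r, hPidx, hr, hδ, hCcard, her, hGcard, hreg, ?_⟩
  apply le_antisymm
  · obtain ⟨χ, hχ, hle⟩ := hII
    exact le_trans (Nat.sInf_le ⟨χ, hχ, rfl⟩) hle
  · apply le_csInf
    · exact ⟨_, ⟨χ₀, sameBlock_refl_lead hMtop _, rfl⟩⟩
    · rintro _ ⟨χ, hχ, rfl⟩
      exact hI χ hχ

end Cfsg.Agent.Lib.Lead
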