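import Mathlib
import Cfsg.Prelude.Def_Blocks
import Cfsg.Agent.Lib.Lead.BlockAux
import Cfsg.Agent.Lib.Lead.BrauerR2

/-!
# Induced central characters

The induced central character regrouped by the conjugacy classes of the subgroup.
-/

set_option autoImplicit false

namespace Cfsg.Agent.Lib.Lead

universe u

/-- the induced central character vanishes when the function vanishes on the conjugates -/
theorem inducedCentralChar_zero_lead {G : Type u} [Group G] (H : Subgroup G) [Fintype H]
    (ξ : H → ℂ) (g : G) (h : ∀ a : H, IsConj g (a : G) → ξ a = 0) :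
    Cfsg.inducedCentralChar H ξ g = 0 := by
  classical
  unfold Cfsg.inducedCentralChar
  rw [finsum_mem_def, finsum_eq_sum_of_fintype]
  apply Finset.sum_eq_zero
  intro a _
  by_cases ha : a ∈ {h : H | IsConj g (h : G)}
  · simp only [Set.indicator_of_mem ha, h a ha, zero_div]
  · rw [Set.indicator_of_notMem ha]

/-- the induced central character lies in the local ideal when the central character of the
subgroup does at all the conjugates -/
theorem inducedCentralChar_mem_lead {M : Ideal Cfsg.AlgInt} (hM : M.IsPrime) {G : Type u}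
    [Group G] (H : Subgroup G) [Fintype H] (ξ : H → ℂ) (hξ : Cfsg.IsClassFunction H ξ) (g : G)
    (h : ∀ a : H, IsConj g (a : G) → Cfsg.MemLocalIdeal M (Cfsg.centralChar ξ a)) :
    Cfsg.MemLocalIdeal M (Cfsg.inducedCentralChar H ξ g) := by
  classical
  haveI : Fintype (ConjClasses H) := Fintype.ofFinite _
  have hMtop : M ≠ ⊤ := hM.ne_top
  have hconj : ∀ a t : H, IsConj g ((t * a * t⁻¹ : H) : G) ↔ IsConj g (a : G) := by
    intro a t
    constructor
    · intro h1
      refine h1.trans (isConj_iff.mpr ⟨((t : G))⁻¹, ?_⟩)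
      show ((t : G))⁻¹ * ((t : G) * (a : G) * ((t : G))⁻¹) * (((t : G))⁻¹)⁻¹ = (a : G)
      group
    · intro h1
      exact h1.trans (isConj_iff.mpr ⟨(t : G), rfl⟩)
  have hF : ∀ a t : H,
      (if IsConj g ((t * a * t⁻¹ : H) : G) then ξ (t * a * t⁻¹) / ξ 1 else 0) =
      (if IsConj g (a : G) then ξ a / ξ 1 else 0) := by
    intro a t
    by_cases ha : IsConj g (a : G)
    · rw [if_pos ((hconj a t).mpr ha), if_pos ha, hξ a t]
    · rw [if_neg (fun h' => ha ((hconj a t).mp h')), if_neg ha]
  have hsum : Cfsg.inducedCentralChar H ξ g =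
      ∑ a : H, if IsConj g (a : G) then ξ a / ξ 1 else 0 := by
    unfold Cfsg.inducedCentralChar
    rw [finsum_mem_def, finsum_eq_sum_of_fintype]
    apply Finset.sum_congr rfl
    intro a _
    by_cases ha : IsConj g (a : G)
    · rw [Set.indicator_of_mem (show a ∈ {h : H | IsConj g (h : G)} from ha), if_pos ha]
    · rw [Set.indicator_of_notMem (show a ∉ {h : H | IsConj g (h : G)} from ha), if_neg ha]
  have hreg : ∑ a : H, (if IsConj g (a : G) then ξ a / ξ 1 else 0) =
      ∑ c : ConjClasses H, ((Subgroup.centralizer ({Quotient.out c} : Set H)).index : ℂ) *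
        (if IsConj g ((Quotient.out c : H) : G) then ξ (Quotient.out c) / ξ 1 else 0) :=
    sum_classFun_regroup_lead (fun a : H => if IsConj g (a : G) then ξ a / ξ 1 else 0) hF
  rw [hsum, hreg]
  apply memLocalIdeal_sum_lead hM
  intro c _
  by_cases hc : IsConj g ((Quotient.out c : H) : G)
  · have h1 := h (Quotient.out c) hc
    unfold Cfsg.centralChar at h1
    have e : ((Subgroup.centralizer ({Quotient.out c} : Set H)).index : ℂ) *
        (if IsConj g ((Quotient.out c : H) : G) then ξ (Quotient.out c) / ξ 1 else 0) =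
        ((Subgroup.centralizer ({Quotient.out c} : Set H)).index : ℂ) * ξ (Quotient.out c) /
          ξ 1 := by
      rw [if_pos hc]
      ring
    rw [e]
    exact h1
  · have e : ((Subgroup.centralizer ({Quotient.out c} : Set H)).index : ℂ) *
        (if IsConj g ((Quotient.out c : H) : G) then ξ (Quotient.out c) / ξ 1 else 0) = 0 := by
      rw [if_neg hc, mul_zero]
    rw [e]
    exact memLocalIdeal_zero_lead hMtop

end Cfsg.Agent.Lib.Lead
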