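import Mathlib
import Cfsg.Prelude.Def_Blocks
import Cfsg.Agent.Lib.Lead.BlockOrtho
import Cfsg.Agent.Lib.Lead.BlockAux2
import Cfsg.Agent.Lib.Lead.CharRing
import Cfsg.Agent.Lib.Lead.CharCount
import Cfsg.Agent.Lib.Lead.CharOrtho

/-!
# Block orthogonality

The trace of `(x, y)` on the bimodule of a central idempotent with local coefficients vanishes
as soon as `x ^ k * r * y ^ k = r` forces `p ∣ k`; for a block idempotent the trace is the sum
over the block of `χ x⁻¹ * χ y⁻¹`.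
-/

set_option autoImplicit false

namespace Cfsg.Agent.Lib.Lead

open scoped ComplexConjugate

universe u

/-- the trace of `(x⁻¹, y)` on the bimodule of the idempotent of a set of characters -/
theorem blockCoeff_twist_sum_lead {G : Type u} [Group G] [Fintype G]
    [Fintype (Cfsg.IrrCharacter G)] (B : Set (Cfsg.IrrCharacter G)) [DecidablePred (· ∈ B)]
    (x y : G) :
    ∑ g : G, Cfsg.blockCoeff B (x⁻¹ * g * y * g⁻¹) =
      ∑ φ : Cfsg.IrrCharacter G, if φ ∈ B then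
        (φ : G → ℂ) x * (starRingEnd ℂ) ((φ : G → ℂ) y) else 0 := by
  have hG0 : (Nat.card G : ℂ) ≠ 0 := by exact_mod_cast Nat.card_pos.ne'
  have hterm : ∀ φ : Cfsg.IrrCharacter G,
      ∑ g : G, (φ : G → ℂ) 1 * (starRingEnd ℂ) ((φ : G → ℂ) (x⁻¹ * g * y * g⁻¹)) =
        (Nat.card G : ℂ) * ((φ : G → ℂ) x * (starRingEnd ℂ) ((φ : G → ℂ) y)) := by
    intro φ
    obtain ⟨d, hd0, hd⟩ := irr_one φ.2
    have hdC : (d : ℂ) ≠ 0 := by exact_mod_cast hd0
    have hφc := isCharacter_of_isIrrCharacter φ.2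
    have e0 : ∑ g : G, (starRingEnd ℂ) ((φ : G → ℂ) (x⁻¹ * g * y * g⁻¹)) =
        (starRingEnd ℂ) (∑ g : G, (φ : G → ℂ) (x⁻¹ * g * y * g⁻¹)) :=
      (map_sum (starRingEnd ℂ) _ _).symm
    rw [← Finset.mul_sum, e0, sum_char_conj_mul_lead (φ : G → ℂ) φ.2 x⁻¹ y, hd,
      isCharacter_inv hφc x]
    simp only [map_mul, map_div₀, map_natCast, Complex.conj_conj]
    have hdd : (d : ℂ) * (d : ℂ)⁻¹ = 1 := mul_inv_cancel₀ hdC
    linear_combination (Nat.card G : ℂ) *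
      ((φ : G → ℂ) x * (starRingEnd ℂ) ((φ : G → ℂ) y)) * hdd
  calc ∑ g : G, Cfsg.blockCoeff B (x⁻¹ * g * y * g⁻¹)
      = ∑ g : G, (Nat.card G : ℂ)⁻¹ * ∑ φ : Cfsg.IrrCharacter G,
          if φ ∈ B then
            (φ : G → ℂ) 1 * (starRingEnd ℂ) ((φ : G → ℂ) (x⁻¹ * g * y * g⁻¹)) else 0 :=
        Finset.sum_congr rfl (fun g _ => blockCoeff_eq_sum_lead _ _)
    _ = (Nat.card G : ℂ)⁻¹ * ∑ φ : Cfsg.IrrCharacter G, ∑ g : G,
          if φ ∈ B then
            (φ : G → ℂ) 1 * (starRingEnd ℂ) ((φ : G → ℂ) (x⁻¹ * g * y * g⁻¹)) else 0 := by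
        rw [← Finset.mul_sum, Finset.sum_comm]
    _ = (Nat.card G : ℂ)⁻¹ * ∑ φ : Cfsg.IrrCharacter G,
          if φ ∈ B then
            (Nat.card G : ℂ) * ((φ : G → ℂ) x * (starRingEnd ℂ) ((φ : G → ℂ) y)) else 0 := by
        congr 1
        apply Finset.sum_congr rfl
        intro φ _
        by_cases hφB : φ ∈ B
        · simp only [if_pos hφB]
          exact hterm φ
        · simp only [if_neg hφB, Finset.sum_const_zero]
    _ = ∑ φ : Cfsg.IrrCharacter G, if φ ∈ B then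
          (φ : G → ℂ) x * (starRingEnd ℂ) ((φ : G → ℂ) y) else 0 := by
        rw [Finset.mul_sum]
        apply Finset.sum_congr rfl
        intro φ _
        by_cases hφB : φ ∈ B
        · rw [if_pos hφB, if_pos hφB, ← mul_assoc, inv_mul_cancel₀ hG0, one_mul]
        · rw [if_neg hφB, if_neg hφB, mul_zero]

/-- the trace of `(x, y)` on the bimodule of a central idempotent with local coefficients
vanishes when the fixed points of the powers of `g ↦ x * g * y` only occur for exponents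
divisible by `p` -/
theorem idem_twist_gen_lead (p : ℕ) (hp : p.Prime) {M : Ideal Cfsg.AlgInt} (hM : M.IsPrime)
    (hpM : (p : Cfsg.AlgInt) ∈ M) {G : Type u} [Group G] [Fintype G] (c : G → ℂ)
    (hc : Cfsg.IsClassFunction G c) (hcR : ∀ g, Cfsg.MemLocalRing M (c g))
    (hidem : ∀ g, ∑ x : G, c x * c (x⁻¹ * g) = c g) (x y : G)
    (hfix : ∀ (k : ℤ) (r : G), x ^ k * r * y ^ k = r → (p : ℤ) ∣ k) :
    ∑ g : G, c (x * g * y * g⁻¹) = 0 := by
  classical
  have hMtop : M ≠ ⊤ := hM.ne_top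
  obtain ⟨ζ, hζprim⟩ : ∃ ζ : ℂ, IsPrimitiveRoot ζ p :=
    ⟨_, Complex.isPrimitiveRoot_exp p hp.ne_zero⟩
  have hζp : ζ ^ p = 1 := hζprim.pow_eq_one
  have hζ1 : ζ ≠ 1 := hζprim.ne_one hp.one_lt
  have hζ0 : ζ ≠ 0 := hζprim.ne_zero hp.ne_zero
  have hζz : ∀ j : ℤ, Cfsg.MemLocalIdeal M (ζ ^ j - 1) := by
    intro j
    apply root_sub_one_memLocalIdeal_lead p hp hM hpM 1
    rw [pow_one, ← zpow_natCast, ← zpow_mul, mul_comm, zpow_mul, zpow_natCast, hζp, one_zpow]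
  -- the key property of fixed points
  have hkey : ∀ (k : ℤ) (r : G), x ^ k * r * y ^ k = r → ζ ^ k = 1 := by
    intro k r h
    obtain ⟨t, ht⟩ := hfix k r h
    rw [ht, zpow_mul, zpow_natCast, hζp, one_zpow]
  -- orbit representatives
  obtain ⟨s, hs⟩ : ∃ s : Setoid G, ∀ g h, s.r g h ↔ ∃ i : ℤ, h = x ^ i * g * y ^ i := by
    refine ⟨⟨fun g h => ∃ i : ℤ, h = x ^ i * g * y ^ i, ⟨?_, ?_, ?_⟩⟩, fun _ _ => Iff.rfl⟩
    · intro g
      exact ⟨0, by rw [zpow_zero, zpow_zero, one_mul, mul_one]⟩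
    · rintro g h ⟨i, hi⟩
      refine ⟨-i, ?_⟩
      rw [hi, zpow_neg, zpow_neg]
      simp only [mul_assoc, inv_mul_cancel_left, mul_inv_cancel, mul_one]
    · rintro g h k ⟨i, hi⟩ ⟨j, hj⟩
      refine ⟨i + j, ?_⟩
      rw [hj, hi, zpow_add y i j, add_comm i j, zpow_add x j i]
      simp only [mul_assoc]
  have hex : ∀ g : G, ∃ i : ℤ, g = x ^ i * Quotient.out (Quotient.mk s g) * y ^ i := fun g =>
    (hs _ _).mp (Quotient.mk_out g)
  have hrep : ∀ g : G, Quotient.mk s (x * g * y) = Quotient.mk s g := by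
    intro g
    apply Quotient.sound
    refine (hs _ _).mpr ⟨-1, ?_⟩
    rw [zpow_neg_one, zpow_neg_one]
    simp only [mul_assoc, inv_mul_cancel_left, mul_inv_cancel, mul_one]
  choose ι hι using hex
  have hιπ : ∀ g : G, ζ ^ (ι (x * g * y)) = ζ * ζ ^ (ι g) := by
    intro g
    have h1 := hι (x * g * y)
    rw [hrep g] at h1
    have h2 := hι g
    obtain ⟨r, hr⟩ : ∃ r : G, r = Quotient.out (Quotient.mk s g) := ⟨_, rfl⟩
    obtain ⟨i, hi⟩ : ∃ i : ℤ, i = ι (x * g * y) := ⟨_, rfl⟩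
    obtain ⟨j, hj⟩ : ∃ j : ℤ, j = ι g := ⟨_, rfl⟩
    rw [← hr, ← hi] at h1
    rw [← hr, ← hj] at h2
    rw [← hi, ← hj]
    have e2 : i + (j + 1 - i) = j + 1 := by ring
    have h3 : x ^ (j + 1 - i) * (x ^ i * r * y ^ i) * y ^ (j + 1 - i) = x ^ i * r * y ^ i := by
      have e1 : j + 1 - i + i = 1 + j := by ring
      calc x ^ (j + 1 - i) * (x ^ i * r * y ^ i) * y ^ (j + 1 - i)
          = (x ^ (j + 1 - i) * x ^ i) * r * (y ^ i * y ^ (j + 1 - i)) := by
            simp only [mul_assoc]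
        _ = x * (x ^ j * r * y ^ j) * y := by
            rw [← zpow_add, ← zpow_add, e1, e2, zpow_one_add, zpow_add_one]
            simp only [mul_assoc]
        _ = x * g * y := by rw [← h2]
        _ = x ^ i * r * y ^ i := h1
    have hk1 := hkey _ _ h3
    calc ζ ^ i = ζ ^ i * ζ ^ (j + 1 - i) := by rw [hk1, mul_one]
      _ = ζ ^ (j + 1) := by rw [← zpow_add₀ hζ0, e2]
      _ = ζ * ζ ^ j := by rw [zpow_add_one₀ hζ0, mul_comm]
  obtain ⟨μ, ν, hμν, hμy, hνy, hμm⟩ : ∃ μ ν : G → ℂ, (∀ g, μ g * ν g = 1) ∧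
      (∀ g, μ (x * g * y) = ζ * μ g) ∧ (∀ h, ν (x⁻¹ * h * y⁻¹) = ζ * ν h) ∧
      (∀ g h, Cfsg.MemLocalIdeal M (μ g * ν h - 1)) := by
    refine ⟨fun g => ζ ^ (ι g), fun g => ζ ^ (-ι g), ?_, ?_, ?_, ?_⟩
    · intro g
      show ζ ^ (ι g) * ζ ^ (-ι g) = 1
      rw [← zpow_add₀ hζ0, add_neg_cancel, zpow_zero]
    · exact hιπ
    · intro h
      show ζ ^ (-ι (x⁻¹ * h * y⁻¹)) = ζ * ζ ^ (-ι h)
      have h1 := hιπ (x⁻¹ * h * y⁻¹)
      have e0 : x * (x⁻¹ * h * y⁻¹) * y = h := by group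
      rw [e0] at h1
      have ha : ζ ^ (ι h) * ζ ^ (-ι h) = 1 := by
        rw [← zpow_add₀ hζ0, add_neg_cancel, zpow_zero]
      have hb : ζ ^ (ι (x⁻¹ * h * y⁻¹)) * ζ ^ (-ι (x⁻¹ * h * y⁻¹)) = 1 := by
        rw [← zpow_add₀ hζ0, add_neg_cancel, zpow_zero]
      calc ζ ^ (-ι (x⁻¹ * h * y⁻¹))
          = ζ ^ (-ι (x⁻¹ * h * y⁻¹)) * (ζ ^ (ι h) * ζ ^ (-ι h)) := by rw [ha, mul_one]
        _ = ζ ^ (-ι (x⁻¹ * h * y⁻¹)) * (ζ * ζ ^ (ι (x⁻¹ * h * y⁻¹)) * ζ ^ (-ι h)) := by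
            rw [h1]
        _ = ζ * ζ ^ (-ι h) * (ζ ^ (ι (x⁻¹ * h * y⁻¹)) * ζ ^ (-ι (x⁻¹ * h * y⁻¹))) := by
            generalize ζ ^ (ι (x⁻¹ * h * y⁻¹)) = b
            generalize ζ ^ (-ι (x⁻¹ * h * y⁻¹)) = b'
            generalize ζ ^ (-ι h) = a'
            ring
        _ = ζ * ζ ^ (-ι h) := by rw [hb, mul_one]
    · intro g h
      show Cfsg.MemLocalIdeal M (ζ ^ (ι g) * ζ ^ (-ι h) - 1)
      rw [← zpow_add₀ hζ0]
      exact hζz _
  -- the matrices
  obtain ⟨E, hE⟩ : ∃ E : Matrix G G ℂ, ∀ g h, E g h = c (g * h⁻¹) :=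
    ⟨fun g h => c (g * h⁻¹), fun _ _ => rfl⟩
  obtain ⟨E', hE'⟩ : ∃ E' : Matrix G G ℂ, ∀ g h, E' g h = μ g * c (g * h⁻¹) * ν h :=
    ⟨fun g h => μ g * c (g * h⁻¹) * ν h, fun _ _ => rfl⟩
  obtain ⟨Y, hY⟩ : ∃ Y : Matrix G G ℂ, ∀ g h, Y g h = if h = x * g * y then 1 else 0 :=
    ⟨fun g h => if h = x * g * y then 1 else 0, fun _ _ => rfl⟩
  have hYl : ∀ (A : Matrix G G ℂ) (g h : G), (Y * A) g h = A (x * g * y) h := by
    intro A g h
    rw [Matrix.mul_apply]
    simp only [hY, ite_mul, one_mul, zero_mul, Finset.sum_ite_eq', Finset.mem_univ, if_true]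
  have hYr : ∀ (A : Matrix G G ℂ) (g h : G), (A * Y) g h = A g (x⁻¹ * h * y⁻¹) := by
    intro A g h
    rw [Matrix.mul_apply]
    have e : ∀ k : G, Y k h = if k = x⁻¹ * h * y⁻¹ then 1 else 0 := by
      intro k
      rw [hY]
      by_cases hk : h = x * k * y
      · have hk' : k = x⁻¹ * h * y⁻¹ := by
          rw [hk]
          group
        rw [if_pos hk, if_pos hk']
      · have hk' : ¬ k = x⁻¹ * h * y⁻¹ := by
          rintro rfl
          exact hk (by group)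
        rw [if_neg hk, if_neg hk']
    simp only [e, mul_ite, mul_one, mul_zero, Finset.sum_ite_eq', Finset.mem_univ, if_true]
  have hEE : E * E = E := by
    ext g h
    rw [Matrix.mul_apply, hE g h, ← hidem (g * h⁻¹)]
    symm
    refine Fintype.sum_equiv ((Equiv.inv G).trans (Equiv.mulRight g)) _ _ ?_
    intro x
    show c x * c (x⁻¹ * (g * h⁻¹)) = E g (x⁻¹ * g) * E (x⁻¹ * g) h
    rw [hE, hE]
    have e1 : g * (x⁻¹ * g)⁻¹ = x := by group
    rw [e1, mul_assoc]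
  have hE'E' : E' * E' = E' := by
    ext g h
    rw [Matrix.mul_apply, hE' g h]
    have e : ∀ k : G, E' g k * E' k h = μ g * (E g k * E k h) * ν h := by
      intro k
      rw [hE', hE', hE, hE]
      calc μ g * c (g * k⁻¹) * ν k * (μ k * c (k * h⁻¹) * ν h)
          = μ g * (c (g * k⁻¹) * c (k * h⁻¹)) * ν h * (μ k * ν k) := by ring
        _ = μ g * (c (g * k⁻¹) * c (k * h⁻¹)) * ν h := by rw [hμν, mul_one]
    rw [Finset.sum_congr rfl (fun k _ => e k), ← Finset.sum_mul, ← Finset.mul_sum,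
      ← Matrix.mul_apply, hEE, hE]
  have hcc : ∀ g h : G, c (g * (x⁻¹ * h * y⁻¹)⁻¹) = c (x * g * y * h⁻¹) := by
    intro g h
    have e1 : x * g * y * h⁻¹ = x * (g * (x⁻¹ * h * y⁻¹)⁻¹) * x⁻¹ := by group
    rw [e1, hc]
  have hEY : E * Y = Y * E := by
    ext g h
    rw [hYr, hYl, hE, hE, hcc]
  have hE'Y : E' * Y = Y * E' := by
    ext g h
    rw [hYr, hYl, hE', hE', hμy, hνy, hcc]
    ring
  have hEYc : Commute E Y := hEY
  have hE'Yc : Commute E' Y := hE'Y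
  -- the traces
  have htrE : Matrix.trace (Y * E) = ∑ g : G, c (x * g * y * g⁻¹) := by
    show ∑ g : G, (Y * E) g g = _
    exact Finset.sum_congr rfl (fun g _ => (hYl E g g).trans (hE (x * g * y) g))
  have htrE' : Matrix.trace (Y * E') = ζ * ∑ g : G, c (x * g * y * g⁻¹) := by
    have e : ∀ g : G, (Y * E') g g = ζ * c (x * g * y * g⁻¹) := by
      intro g
      rw [hYl, hE', hμy]
      calc ζ * μ g * c (x * g * y * g⁻¹) * ν g
          = ζ * c (x * g * y * g⁻¹) * (μ g * ν g) := by ring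
        _ = ζ * c (x * g * y * g⁻¹) := by rw [hμν, mul_one]
    show ∑ g : G, (Y * E') g g = _
    rw [Finset.sum_congr rfl (fun g _ => e g), ← Finset.mul_sum]
  -- the conjugating matrix
  obtain ⟨U, hU⟩ : ∃ U : Matrix G G ℂ, U = E * E' + (1 - E) * (1 - E') := ⟨_, rfl⟩
  have h1 : E * (1 - E) = 0 := by rw [mul_sub, mul_one, hEE, sub_self]
  have h2 : (1 - E') * E' = 0 := by rw [sub_mul, one_mul, hE'E', sub_self]
  have hEU : E * U = E * E' := by
    rw [hU, mul_add, ← mul_assoc E E E', hEE, ← mul_assoc E (1 - E) (1 - E'), h1, zero_mul,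
      add_zero]
  have hUE' : U * E' = E * E' := by
    rw [hU, add_mul, mul_assoc E E' E', hE'E', mul_assoc (1 - E) (1 - E') E', h2, mul_zero,
      add_zero]
  have hUY : U * Y = Y * U := by
    rw [hU]
    exact ((hEYc.mul_left hE'Yc).add_left
      (((Commute.one_left Y).sub_left hEYc).mul_left
        ((Commute.one_left Y).sub_left hE'Yc))).eq
  have hUW : U = 1 + (E + E - 1) * (E' - E) := by
    rw [hU]
    simp only [sub_mul, mul_sub, add_mul, one_mul, mul_one, hEE]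
    abel
  have hT : ∀ g h, Cfsg.MemLocalIdeal M ((E' - E) g h) := by
    intro g h
    rw [Matrix.sub_apply, hE', hE]
    have e : μ g * c (g * h⁻¹) * ν h - c (g * h⁻¹) = c (g * h⁻¹) * (μ g * ν h - 1) := by ring
    rw [e]
    exact memLocalIdeal_mul_ring_lead hM (hcR _) (hμm g h)
  have hS : ∀ g h, Cfsg.MemLocalRing M ((E + E - 1) g h) := by
    intro g h
    rw [Matrix.sub_apply, Matrix.add_apply, hE, Matrix.one_apply]
    apply memLocalRing_sub_lead hM (memLocalRing_add_lead hM (hcR _) (hcR _))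
    split_ifs
    · exact memLocalRing_one_lead hMtop
    · exact memLocalRing_zero_lead hMtop
  have hW : ∀ g h, Cfsg.MemLocalIdeal M (((E + E - 1) * (E' - E)) g h) := by
    intro g h
    rw [Matrix.mul_apply]
    exact memLocalIdeal_sum_lead hM _ _
      (fun k _ => memLocalIdeal_mul_ring_lead hM (hS g k) (hT k h))
  have hdet : U.det ≠ 0 := by
    apply det_ne_zero_of_congr_one_lead hM
    · intro g h hgh
      rw [hUW, Matrix.add_apply, Matrix.one_apply_ne hgh, zero_add]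
      exact hW g h
    · intro g
      rw [hUW, Matrix.add_apply, Matrix.one_apply_eq, add_sub_cancel_left]
      exact hW g g
  have hU1 : IsUnit U.det := isUnit_iff_ne_zero.mpr hdet
  have hinv1 : U⁻¹ * U = 1 := Matrix.nonsing_inv_mul U hU1
  have hinv2 : U * U⁻¹ = 1 := Matrix.mul_nonsing_inv U hU1
  have htr : Matrix.trace (Y * E') = Matrix.trace (Y * E) := by
    have e1 : Y * E' = Y * U⁻¹ * E * U := by
      calc Y * E' = Y * (U⁻¹ * U) * E' := by rw [hinv1, mul_one]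
        _ = Y * U⁻¹ * (U * E') := by simp only [mul_assoc]
        _ = Y * U⁻¹ * (E * U) := by rw [hUE', ← hEU]
        _ = Y * U⁻¹ * E * U := by simp only [mul_assoc]
    have e2 : U * (Y * U⁻¹ * E) = Y * E := by
      calc U * (Y * U⁻¹ * E) = U * Y * U⁻¹ * E := by simp only [mul_assoc]
        _ = Y * U * U⁻¹ * E := by rw [hUY]
        _ = Y * (U * U⁻¹) * E := by simp only [mul_assoc]
        _ = Y * E := by rw [hinv2, mul_one]
    rw [e1, Matrix.trace_mul_comm (Y * U⁻¹ * E) U, e2]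
  rw [htrE', htrE] at htr
  have h3 : (ζ - 1) * ∑ g : G, c (x * g * y * g⁻¹) = 0 := by
    rw [sub_mul, one_mul, htr, sub_self]
  rcases mul_eq_zero.mp h3 with h | h
  · exact absurd (sub_eq_zero.mp h) hζ1
  · exact h

end Cfsg.Agent.Lib.Lead
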