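import Mathlib
import Cfsg.Prelude.Def_Blocks
import Cfsg.Agent.Lib.Lead.BlockOsima
import Cfsg.Agent.Lib.Lead.BlockAux2
import Cfsg.Agent.Lib.Lead.CharRing
import Cfsg.Agent.Lib.Lead.CharOrtho
import Cfsg.Agent.Lib.Lead.CharComplete
import Cfsg.Agent.Lib.Lead.BlockDefCount

/-!
# The block part of a class function as a product with the block idempotent
-/

set_option autoImplicit false

namespace Cfsg.Agent.Lib.Lead

open scoped ComplexConjugate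

universe u

theorem blockPart_conv_lead {K : Type u} [Group K] [Finite K] (A : Set (Cfsg.IrrCharacter K))
    (ϑ : K → ℂ) (hϑ : Cfsg.IsClassFunction K ϑ) (y : K) :
    Cfsg.blockPart A ϑ y = ∑ᶠ k : K, Cfsg.blockCoeff A k * ϑ (k * y) := by
  classical
  letI : Fintype K := Fintype.ofFinite K
  haveI : Fintype (Cfsg.IrrCharacter K) := Fintype.ofFinite _
  have hper' : ∀ ξ : Cfsg.IrrCharacter K,
      ∑ k : K, (starRingEnd ℂ) ((ξ : K → ℂ) k) * ϑ (k * y) =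
        (∑ g : K, ϑ g * (starRingEnd ℂ) ((ξ : K → ℂ) g)) * (ξ : K → ℂ) y /
          (ξ : K → ℂ) 1 := by
    intro ξ
    have hξc := isCharacter_of_isIrrCharacter ξ.2
    have hcl := isClassFunction_of_irr ξ.2
    have hc : Cfsg.IsClassFunction K (fun g : K => ϑ g⁻¹) := by
      intro g t
      show ϑ (t * g * t⁻¹)⁻¹ = ϑ g⁻¹
      have e : (t * g * t⁻¹)⁻¹ = t * g⁻¹ * t⁻¹ := by group
      rw [e]
      exact hϑ g⁻¹ t
    have h1 := sum_mul_char_shift_lead (fun g : K => ϑ g⁻¹) hc (ξ : K → ℂ) ξ.2 y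
    have h2 : ∑ k : K, (starRingEnd ℂ) ((ξ : K → ℂ) k) * ϑ (k * y) =
        ∑ x : K, (fun g : K => ϑ g⁻¹) x * (ξ : K → ℂ) (x * y) := by
      refine Fintype.sum_equiv ((Equiv.mulRight y).trans (Equiv.inv K)) _ _ ?_
      intro k
      show (starRingEnd ℂ) ((ξ : K → ℂ) k) * ϑ (k * y) =
        ϑ ((k * y)⁻¹)⁻¹ * (ξ : K → ℂ) ((k * y)⁻¹ * y)
      have e : (k * y)⁻¹ * y = y⁻¹ * k⁻¹ * y⁻¹⁻¹ := by group
      rw [inv_inv, e, hcl k⁻¹ y⁻¹, isCharacter_inv hξc k]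
      exact mul_comm _ _
    have h3 : ∑ x : K, (fun g : K => ϑ g⁻¹) x * (ξ : K → ℂ) x =
        ∑ g : K, ϑ g * (starRingEnd ℂ) ((ξ : K → ℂ) g) := by
      symm
      refine Fintype.sum_equiv (Equiv.inv K) _ _ ?_
      intro g
      show ϑ g * (starRingEnd ℂ) ((ξ : K → ℂ) g) = ϑ g⁻¹⁻¹ * (ξ : K → ℂ) g⁻¹
      rw [inv_inv, isCharacter_inv hξc g]
    exact h2.trans (h1.trans
      (congrArg (fun s => s * (ξ : K → ℂ) y / (ξ : K → ℂ) 1) h3))
  have hper : ∀ ξ : Cfsg.IrrCharacter K,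
      (ξ : K → ℂ) 1 * ∑ k : K, (starRingEnd ℂ) ((ξ : K → ℂ) k) * ϑ (k * y) =
        (∑ g : K, ϑ g * (starRingEnd ℂ) ((ξ : K → ℂ) g)) * (ξ : K → ℂ) y := by
    intro ξ
    obtain ⟨d, hd0, hd⟩ := irr_one ξ.2
    have h1 : (ξ : K → ℂ) 1 ≠ 0 := by
      rw [hd]
      exact_mod_cast hd0
    rw [hper' ξ, ← mul_div_assoc, mul_div_cancel_left₀ _ h1]
  show ∑ᶠ ξ ∈ A, Cfsg.classInner ϑ (ξ : K → ℂ) * (ξ : K → ℂ) y = _
  rw [finsum_mem_def, finsum_eq_sum_of_fintype, finsum_eq_sum_of_fintype]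
  have hR : ∀ k : K, Cfsg.blockCoeff A k * ϑ (k * y) =
      ∑ φ : Cfsg.IrrCharacter K, if φ ∈ A then
        (Nat.card K : ℂ)⁻¹ * ((φ : K → ℂ) 1 *
          ((starRingEnd ℂ) ((φ : K → ℂ) k) * ϑ (k * y))) else 0 := by
    intro k
    rw [blockCoeff_eq_sum_lead A k, mul_assoc, Finset.sum_mul, Finset.mul_sum]
    refine Finset.sum_congr rfl (fun φ _ => ?_)
    by_cases hφ : φ ∈ A
    · rw [if_pos hφ, if_pos hφ, mul_assoc]
    · rw [if_neg hφ, if_neg hφ, zero_mul, mul_zero]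
  rw [Finset.sum_congr rfl (fun k _ => hR k), Finset.sum_comm]
  refine Finset.sum_congr rfl (fun φ _ => ?_)
  by_cases hφ : φ ∈ A
  · rw [Set.indicator_of_mem hφ]
    simp only [if_pos hφ]
    rw [← Finset.mul_sum, ← Finset.mul_sum, hper φ]
    unfold Cfsg.classInner
    rw [mul_assoc]
  · rw [Set.indicator_of_notMem hφ]
    simp only [if_neg hφ, Finset.sum_const_zero]

end Cfsg.Agent.Lib.Lead
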