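import Mathlib
import Cfsg.Agent.Lib.Lead.BrauerFowler

set_option autoImplicit false

namespace Cfsg.Agent.Lib.Lead

open scoped Pointwise commutatorElement

universe u

theorem card_le_centralizer_mul {G : Type*} [Group G] [Fintype G] [DecidableEq G] (s : G)
    (T : Finset G) (hT : ∀ g : G, g * s * g⁻¹ ∈ T) :
    Fintype.card G ≤ Nat.card (Subgroup.centralizer ({s} : Set G)) * T.card := by
  rw [← Finset.card_univ, ← card_centF]
  apply Finset.card_le_mul_card_image_of_maps_to (f := fun g => g * s * g⁻¹) (fun g _ => hT g)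
  intro b hb
  by_cases hne : (Finset.univ.filter (fun g : G => g * s * g⁻¹ = b)).Nonempty
  · obtain ⟨g₀, hg₀⟩ := hne
    rw [Finset.mem_filter] at hg₀
    apply Finset.card_le_card_of_injOn (fun g => g₀⁻¹ * g)
    · intro g hg
      rw [Finset.mem_coe, Finset.mem_filter] at hg
      rw [Finset.mem_coe, mem_centF]
      have h1 : g * s * g⁻¹ = g₀ * s * g₀⁻¹ := by rw [hg.2, hg₀.2]
      calc g₀⁻¹ * g * s = g₀⁻¹ * (g * s * g⁻¹) * g := by group
        _ = g₀⁻¹ * (g₀ * s * g₀⁻¹) * g := by rw [h1]
        _ = s * (g₀⁻¹ * g) := by group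
    · intro g _ g' _ h
      exact mul_left_cancel h
  · rw [Finset.not_nonempty_iff_eq_empty] at hne
    rw [hne]
    simp

theorem bf_caseC {G : Type*} [Group G] [Finite G] (heven : Even (Nat.card G))
    (hZ : Odd (Nat.card (Subgroup.center G))) (h2 : ∀ H : Subgroup G, H.index ≠ 2) :
    ∃ H : Subgroup G, H ≠ ⊤ ∧ Nat.card G < Nat.card H ^ 3 := by
  classical
  haveI : Fintype G := Fintype.ofFinite G
  have hnontriv : (⊥ : Subgroup G) ≠ ⊤ := by
    intro h
    have h1 : Nat.card G = 1 := by
      rw [← Subgroup.card_top (G := G), ← h, Subgroup.card_bot]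
    rw [h1] at heven
    exact absurd heven (by decide)
  have hex : ∃ k, ∃ H : Subgroup G, H ≠ ⊤ ∧ H.index = k := ⟨_, ⊥, hnontriv, rfl⟩
  obtain ⟨H₀, hH₀, hk⟩ := Nat.find_spec hex
  have hmin : ∀ H : Subgroup G, H ≠ ⊤ → H₀.index ≤ H.index := by
    intro H hH
    rw [hk]
    exact Nat.find_min' hex ⟨H, hH, rfl⟩
  have hm : ∀ H : Subgroup G, H ≠ ⊤ → H₀.index * Nat.card H ≤ Fintype.card G := by
    intro H hH
    have h1 := hmin H hH
    rw [← Nat.card_eq_fintype_card, ← H.card_mul_index]
    calc H₀.index * Nat.card H ≤ H.index * Nat.card H := Nat.mul_le_mul_right _ h1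
      _ = Nat.card H * H.index := mul_comm _ _
  have hZ' : ∀ t : G, orderOf t = 2 → Subgroup.centralizer ({t} : Set G) ≠ ⊤ := by
    intro t ht htop
    have htc : t ∈ Subgroup.center G := by
      rw [Subgroup.mem_center_iff]
      intro g
      have h1 : g ∈ Subgroup.centralizer ({t} : Set G) := by rw [htop]; trivial
      rw [Subgroup.mem_centralizer_singleton_iff] at h1
      exact h1
    have hd : orderOf (⟨t, htc⟩ : Subgroup.center G) ∣ Nat.card (Subgroup.center G) :=
      orderOf_dvd_natCard _
    rw [Subgroup.orderOf_mk, ht] at hd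
    exact (Nat.not_even_iff_odd.mpr hZ) (even_iff_two_dvd.mpr hd)
  have h3 := bf_ineq H₀.index hm h2 hZ'
  obtain ⟨t, ht⟩ := exists_prime_orderOf_dvd_card' (G := G) 2 (even_iff_two_dvd.mp heven)
  have h4 := hm _ (hZ' t ht)
  have h5 := card_le_centralizer_mul t (invs G) (fun g => mem_invs.mpr (invol_conj ht g))
  have hmn : H₀.index ≤ (invs G).card := by
    have hcpos : 0 < Nat.card (Subgroup.centralizer ({t} : Set G)) := Nat.card_pos
    have h6 : H₀.index * Nat.card (Subgroup.centralizer ({t} : Set G)) ≤
        (invs G).card * Nat.card (Subgroup.centralizer ({t} : Set G)) := by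
      rw [mul_comm (invs G).card]
      exact le_trans h4 h5
    exact Nat.le_of_mul_le_mul_right h6 hcpos
  refine ⟨H₀, hH₀, ?_⟩
  have hg : Nat.card H₀ * H₀.index = Nat.card G := H₀.card_mul_index
  rw [Nat.card_eq_fintype_card (α := G)] at hg ⊢
  have hMpos : 0 < Nat.card H₀ := Nat.card_pos
  have hmpos : 0 < H₀.index := Nat.pos_of_ne_zero (Subgroup.index_ne_zero_of_finite)
  by_contra hcon
  push Not at hcon
  clear hm hmin hk h4 h5
  generalize Nat.card H₀ = M at *
  generalize H₀.index = m at *
  generalize (invs G).card = n at *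
  generalize Fintype.card G = g at *
  subst hg
  have h6 : M ^ 2 ≤ m := by
    have h : M * M ^ 2 ≤ M * m := by
      rw [← pow_succ']
      exact hcon
    exact Nat.le_of_mul_le_mul_left h hMpos
  have h7 : M ≤ n := le_trans (le_trans (Nat.le_self_pow two_ne_zero M) h6) hmn
  have h8 : M * m * (M * m) ≤ m * n ^ 2 := by
    calc M * m * (M * m) = M ^ 2 * (m * m) := by ring
      _ ≤ m * (n * n) := Nat.mul_le_mul h6 (Nat.mul_le_mul hmn hmn)
      _ = m * n ^ 2 := by ring
  have h9 : M * m * n ≤ m * n ^ 2 := by
    calc M * m * n ≤ n * m * n := Nat.mul_le_mul_right _ (Nat.mul_le_mul_right _ h7)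
      _ = m * n ^ 2 := by ring
  have h10 : M * m * (M * m + n) = M * m * (M * m) + M * m * n := by ring
  have h11 : 0 < M * m := Nat.mul_pos hMpos hmpos
  have h12 : 2 * m * n ^ 2 = m * n ^ 2 + m * n ^ 2 := by ring
  rw [h10, h12] at h3
  generalize M * m * (M * m) = A at *
  generalize M * m * n = B at *
  generalize m * n ^ 2 = C at *
  generalize 2 * m * n = D at *
  generalize M * m = E at *
  omega

theorem bf_cube : ∀ (k : ℕ) (G : Type u) [Group G] [Finite G], Nat.card G = k →
    Even (Nat.card G) → 2 < Nat.card G →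
    ∃ H : Subgroup G, H ≠ ⊤ ∧ Nat.card G < Nat.card H ^ 3 := by
  intro k
  induction k using Nat.strong_induction_on with
  | _ k ih =>
  intro G _ _ hk heven hgt
  by_cases h2 : ∃ H : Subgroup G, H.index = 2
  · obtain ⟨H, hH⟩ := h2
    refine ⟨H, ?_, ?_⟩
    · rintro rfl
      rw [Subgroup.index_top] at hH
      omega
    · have h1 := H.card_mul_index
      rw [hH] at h1
      rw [← h1]
      have h3 : 2 ≤ Nat.card H := by omega
      calc Nat.card H * 2 < Nat.card H * (Nat.card H * Nat.card H) := by nlinarith
        _ = Nat.card H ^ 3 := by ring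
  · push Not at h2
    by_cases hZ : Odd (Nat.card (Subgroup.center G))
    · exact bf_caseC heven hZ h2
    · rw [Nat.not_odd_iff_even] at hZ
      obtain ⟨z, hz⟩ := exists_prime_orderOf_dvd_card' (G := Subgroup.center G) 2
        (even_iff_two_dvd.mp hZ)
      have hzG : orderOf (z : G) = 2 := by
        rw [Subgroup.orderOf_coe]
        exact hz
      haveI hN : (Subgroup.zpowers (z : G)).Normal := by
        constructor
        intro n hn g
        have hnc : n ∈ Subgroup.center G := (Subgroup.zpowers_le.mpr z.2) hn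
        have h1 := Subgroup.mem_center_iff.mp hnc g
        rw [h1, mul_assoc, mul_inv_cancel, mul_one]
        exact hn
      have hcardZ : Nat.card (Subgroup.zpowers (z : G)) = 2 := by
        rw [Nat.card_zpowers, hzG]
      have hcard := Subgroup.card_eq_card_quotient_mul_card_subgroup (Subgroup.zpowers (z : G))
      rw [hcardZ] at hcard
      by_cases hQodd : Odd (Nat.card (G ⧸ Subgroup.zpowers (z : G)))
      · exfalso
        have hcop : Nat.Coprime (Nat.card (Subgroup.zpowers (z : G)))
            (Subgroup.zpowers (z : G)).index := by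
          rw [hcardZ]
          exact (Nat.coprime_two_left).mpr hQodd
        obtain ⟨K, hK⟩ := Subgroup.exists_right_complement'_of_coprime hcop
        exact h2 K (by rw [hK.index_eq_card, hcardZ])
      · rw [Nat.not_odd_iff_even] at hQodd
        have hQ2 : Nat.card (G ⧸ Subgroup.zpowers (z : G)) ≠ 2 := by
          intro h
          exact h2 (Subgroup.zpowers (z : G)) h
        have hQgt : 2 < Nat.card (G ⧸ Subgroup.zpowers (z : G)) := by
          have hpos : 0 < Nat.card (G ⧸ Subgroup.zpowers (z : G)) := Nat.card_pos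
          obtain ⟨r, hr⟩ := hQodd
          omega
        have hlt : Nat.card (G ⧸ Subgroup.zpowers (z : G)) < k := by omega
        obtain ⟨Hb, hHb, hHb3⟩ := ih _ hlt (G ⧸ Subgroup.zpowers (z : G)) rfl hQodd hQgt
        refine ⟨Hb.comap (QuotientGroup.mk' (Subgroup.zpowers (z : G))), ?_, ?_⟩
        · intro h
          apply hHb
          have h1 := Subgroup.map_comap_eq_self_of_surjective
            (QuotientGroup.mk'_surjective (Subgroup.zpowers (z : G))) Hb
          rw [h, Subgroup.map_top_of_surjective _ (QuotientGroup.mk'_surjective _)] at h1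
          exact h1.symm
        · have hidx : (Hb.comap (QuotientGroup.mk' (Subgroup.zpowers (z : G)))).index = Hb.index :=
            Subgroup.index_comap_of_surjective _ (QuotientGroup.mk'_surjective _)
          have e1 := (Hb.comap (QuotientGroup.mk' (Subgroup.zpowers (z : G)))).card_mul_index
          have e2 := Hb.card_mul_index
          rw [hidx] at e1
          have hipos : 0 < Hb.index := Nat.pos_of_ne_zero Subgroup.index_ne_zero_of_finite
          have e3 : Nat.card (Hb.comap (QuotientGroup.mk' (Subgroup.zpowers (z : G)))) =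
              2 * Nat.card Hb := by
            apply Nat.eq_of_mul_eq_mul_right hipos
            rw [e1, hcard, ← e2]
            ring
          rw [e3, hcard]
          have e4 : (2 * Nat.card Hb) ^ 3 = 8 * Nat.card Hb ^ 3 := by ring
          rw [e4]
          omega

end Cfsg.Agent.Lib.Lead
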