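import Mathlib
import Cfsg.Agent.Lib.Lead.BrauerFowler2

set_option autoImplicit false

namespace Cfsg.Agent.Lib.Lead

open scoped Pointwise commutatorElement

/-- Two non-conjugate involutions commute with a common involution. -/
theorem exists_invol_commute_of_not_conj {G : Type*} [Group G] [Finite G] {u v : G}
    (hu : orderOf u = 2) (hv : orderOf v = 2) (h : ¬ IsConj u v) :
    ∃ z : G, orderOf z = 2 ∧ z * u = u * z ∧ z * v = v * z := by
  have hpos : 0 < orderOf (u * v) := orderOf_pos _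
  rcases Nat.even_or_odd' (orderOf (u * v)) with ⟨j, hj | hj⟩
  · have hj0 : j ≠ 0 := by omega
    have hz1 : (u * v) ^ j ≠ 1 := pow_ne_one_of_lt_orderOf hj0 (by omega)
    have hz2 : (u * v) ^ j * (u * v) ^ j = 1 := by
      rw [← pow_add, ← two_mul, ← hj]
      exact pow_orderOf_eq_one _
    have hzinv : ((u * v) ^ j)⁻¹ = (u * v) ^ j := inv_eq_of_mul_eq_one_left hz2
    refine ⟨(u * v) ^ j, invol_iff.mpr ⟨hz1, hz2⟩, ?_, ?_⟩
    · have h1 := pair_conj_zpow hu hv (j : ℤ)
      rw [zpow_neg, zpow_natCast, hzinv] at h1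
      exact h1.symm
    · have h1 := pair_conj_zpow' hu hv (j : ℤ)
      rw [zpow_neg, zpow_natCast, hzinv] at h1
      exact h1.symm
  · exfalso
    apply h
    rw [isConj_iff]
    refine ⟨(u * v) ^ j, ?_⟩
    have h1 := pair_conj_zpow hu hv (-(j : ℤ))
    rw [neg_neg, zpow_neg, zpow_natCast] at h1
    rw [mul_assoc, h1, ← mul_assoc, ← pow_add]
    have h2 : (u * v) ^ (j + j) * (u * v) = 1 := by
      rw [← pow_succ]
      have h3 : j + j + 1 = orderOf (u * v) := by omega
      rw [h3]
      exact pow_orderOf_eq_one _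
    have h3 : (u * v) ^ (j + j) = (u * v)⁻¹ := eq_inv_of_mul_eq_one_left h2
    rw [h3, mul_inv_rev, invol_inv hu, invol_inv hv, mul_assoc, invol_mul_self hu, mul_one]

end Cfsg.Agent.Lib.Lead
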