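import Mathlib
import Cfsg.Agent.Lib.Lead.SylowAux2
import Cfsg.Agent.Lib.Lead.SZ
import Cfsg.Agent.Lib.Lead.SZ2
import Cfsg.Agent.Lib.Lead.Hall
import Cfsg.Agent.Lib.Lead.MaxIndex
import Cfsg.Agent.Lib.Lead.PmQ

set_option autoImplicit false

namespace Cfsg.Agent.Lib.Lead

open scoped Pointwise commutatorElement

universe u

/-- a Carter subgroup: nilpotent and self-normalizing -/
def IsCarterLead {G : Type*} [Group G] (C : Subgroup G) : Prop :=
  Group.IsNilpotent C ∧ Subgroup.normalizer (C : Set G) = C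

theorem mem_normalizer_of_conj_smul_eq {G : Type*} [Group G] {C : Subgroup G} {g : G}
    (h : MulAut.conj g • C = C) : g ∈ Subgroup.normalizer (C : Set G) := by
  rw [Subgroup.mem_normalizer_iff]
  intro c
  constructor
  · intro hc
    have h1 := conj_mem_conj_smul (g := g) hc
    rw [h] at h1; exact h1
  · intro hc
    rw [← h, mem_conj_smul] at hc
    have e : g⁻¹ * (g * c * g⁻¹) * g = c := by group
    rw [e] at hc; exact hc

theorem mem_normalizer_sup_normal {G : Type*} [Group G] {C M : Subgroup G} [M.Normal] {g : G}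
    (hg : g ∈ Subgroup.normalizer (C : Set G)) :
    g ∈ Subgroup.normalizer ((C ⊔ M : Subgroup G) : Set G) := by
  apply mem_normalizer_of_conj_smul_eq
  rw [Subgroup.smul_sup, conj_smul_eq_of_le_normalizer hg, Subgroup.Normal.conj_smul_eq_self]

theorem carter_conj {G : Type*} [Group G] {C : Subgroup G} (g : G) (hC : IsCarterLead C) :
    IsCarterLead (MulAut.conj g • C) := by
  obtain ⟨hnil, hnorm⟩ := hC
  refine ⟨?_, ?_⟩
  · haveI := hnil
    exact Group.nilpotent_of_mulEquiv (Subgroup.equivSMul (MulAut.conj g) C)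
  · apply le_antisymm _ Subgroup.le_normalizer
    intro x hx
    rw [mem_conj_smul, ← hnorm, Subgroup.mem_normalizer_iff]
    intro c
    have h1 := Subgroup.mem_normalizer_iff.mp hx (g * c * g⁻¹)
    rw [mem_conj_smul, mem_conj_smul] at h1
    have e1 : g⁻¹ * (g * c * g⁻¹) * g = c := by group
    have e2 : g⁻¹ * (x * (g * c * g⁻¹) * x⁻¹) * g = g⁻¹ * x * g * c * (g⁻¹ * x * g)⁻¹ := by group
    rw [e1, e2] at h1
    exact h1

theorem carter_subgroupOf {G : Type*} [Group G] {C K : Subgroup G} (hC : IsCarterLead C)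
    (hCK : C ≤ K) : IsCarterLead (C.subgroupOf K) := by
  obtain ⟨hnil, hnorm⟩ := hC
  refine ⟨?_, ?_⟩
  · haveI := hnil
    exact Group.nilpotent_of_mulEquiv (Subgroup.subgroupOfEquivOfLe hCK).symm
  · apply le_antisymm _ Subgroup.le_normalizer
    intro x hx
    rw [Subgroup.mem_subgroupOf]
    rw [← hnorm, Subgroup.mem_normalizer_iff]
    intro c
    constructor
    · intro hc
      have h1 := (Subgroup.mem_normalizer_iff.mp hx ⟨c, hCK hc⟩).mp (Subgroup.mem_subgroupOf.mpr hc)
      exact Subgroup.mem_subgroupOf.mp h1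
    · intro hc
      have hxK : (x : G) ∈ K := x.2
      have hcK : c ∈ K := by
        have e : c = (x : G)⁻¹ * ((x : G) * c * (x : G)⁻¹) * (x : G) := by group
        rw [e]; exact K.mul_mem (K.mul_mem (K.inv_mem hxK) (hCK hc)) hxK
      have h1 := (Subgroup.mem_normalizer_iff.mp hx ⟨c, hcK⟩).mpr (Subgroup.mem_subgroupOf.mpr hc)
      exact Subgroup.mem_subgroupOf.mp h1

theorem conj_of_subgroupOf {G : Type*} [Group G] {C D K : Subgroup G} (hC : C ≤ K) (hD : D ≤ K)
    (y : K) (h : MulAut.conj y • C.subgroupOf K = D.subgroupOf K) :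
    MulAut.conj (y : G) • C = D := by
  ext x
  rw [mem_conj_smul]
  constructor
  · intro hx
    have hxK : x ∈ K := by
      have e : x = (y : G) * ((y : G)⁻¹ * x * (y : G)) * (y : G)⁻¹ := by group
      rw [e]; exact K.mul_mem (K.mul_mem y.2 (hC hx)) (K.inv_mem y.2)
    have h1 : (⟨x, hxK⟩ : K) ∈ MulAut.conj y • C.subgroupOf K := by
      rw [mem_conj_smul, Subgroup.mem_subgroupOf]
      exact hx
    rw [h] at h1
    exact Subgroup.mem_subgroupOf.mp h1
  · intro hx
    have h1 : (⟨x, hD hx⟩ : K) ∈ D.subgroupOf K := Subgroup.mem_subgroupOf.mpr hx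
    rw [← h, mem_conj_smul, Subgroup.mem_subgroupOf] at h1
    exact h1

theorem carter_eq_of_le_nilpotent {G : Type*} [Group G] {C D : Subgroup G} (hC : IsCarterLead C)
    (hD : Group.IsNilpotent D) (hCD : C ≤ D) : C = D := by
  haveI := hD
  have h1 := (carter_subgroupOf hC hCD).2
  apply le_antisymm hCD
  rw [← Subgroup.subgroupOf_eq_top]
  by_contra hne
  have h2 := Group.normalizerCondition_of_isNilpotent (G := ↥D) (C.subgroupOf D)
    (lt_top_iff_ne_top.mpr hne)
  rw [h1] at h2
  exact lt_irrefl _ h2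

/-- a self-normalizing subgroup containing the kernel of a surjection onto a nilpotent group
is everything -/
theorem eq_top_of_self_normalizing_of_nilpotent_quot {H Q : Type*} [Group H] [Group Q]
    [Group.IsNilpotent Q] (φ : H →* Q) (hφ : Function.Surjective φ) (L : Subgroup H)
    (hker : φ.ker ≤ L) (hL : Subgroup.normalizer (L : Set H) = L) : L = ⊤ := by
  have hcm : (L.map φ).comap φ = L := by
    rw [Subgroup.comap_map_eq, sup_eq_left]; exact hker
  by_contra hne
  have hmap : L.map φ ≠ ⊤ := by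
    intro h
    apply hne
    rw [← hcm, h, Subgroup.comap_top]
  have hnc := Group.normalizerCondition_of_isNilpotent (G := Q) (L.map φ)
    (lt_top_iff_ne_top.mpr hmap)
  obtain ⟨ybar, hyN, hyL⟩ := SetLike.exists_of_lt hnc
  obtain ⟨y, rfl⟩ := hφ ybar
  have h2 : ∀ d : H, φ d ∈ L.map φ ↔ d ∈ L := by
    intro d
    rw [← Subgroup.mem_comap, hcm]
  have hyNL : y ∈ Subgroup.normalizer (L : Set H) := by
    rw [Subgroup.mem_normalizer_iff]
    intro c
    have h1 := Subgroup.mem_normalizer_iff.mp hyN (φ c)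
    rw [← h2 c, ← h2 (y * c * y⁻¹), map_mul, map_mul, map_inv]
    exact h1
  rw [hL] at hyNL
  exact hyL ((h2 y).mpr hyNL)

theorem normal_of_sup_top {G : Type*} [Group G] (C M X : Subgroup G) (hsup : C ⊔ M = ⊤)
    (h1 : ∀ k ∈ C, ∀ x ∈ X, k * x * k⁻¹ ∈ X) (h2 : ∀ k ∈ M, ∀ x ∈ X, k * x * k⁻¹ ∈ X) :
    X.Normal := by
  have h3 : C ⊔ M ≤ Subgroup.normalizer (X : Set G) :=
    sup_le (le_normalizer_of_conj_mem C X h1) (le_normalizer_of_conj_mem M X h2)
  rw [hsup] at h3
  exact Subgroup.normalizer_eq_top_iff.mp (top_le_iff.mp h3)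

theorem minimal_normal_comm {G : Type*} [Group G] [Finite G] [Group.IsSolvable G]
    (M : Subgroup G) [M.Normal] (hMbot : M ≠ ⊥)
    (hmin : ∀ M' : Subgroup G, M'.Normal → M' ≤ M → M' = ⊥ ∨ M' = M) :
    ∀ a ∈ M, ∀ b ∈ M, a * b = b * a := by
  have h1 : ⁅M, M⁆ = ⊥ := by
    rcases hmin ⁅M, M⁆ inferInstance (Subgroup.commutator_le_right M M) with h | h
    · exact h
    · exact absurd h (commutator_ne_self_of_solvable M hMbot)
  rw [Subgroup.commutator_eq_bot_iff_le_centralizer] at h1
  intro a ha b hb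
  exact (Subgroup.mem_centralizer_iff.mp (h1 ha) b hb).symm

theorem inf_eq_bot_of_minimal {G : Type*} [Group G] (M : Subgroup G) [hMn : M.Normal]
    (hmin : ∀ M' : Subgroup G, M'.Normal → M' ≤ M → M' = ⊥ ∨ M' = M)
    (hMab : ∀ a ∈ M, ∀ b ∈ M, a * b = b * a) (C : Subgroup G) (hCM : C ⊔ M = ⊤)
    (hMC : ¬ M ≤ C) : M ⊓ C = ⊥ := by
  have hMCn : (M ⊓ C).Normal := by
    apply normal_of_sup_top C M (M ⊓ C) hCM
    · intro k hk x hx
      obtain ⟨hxM, hxC⟩ := Subgroup.mem_inf.mp hx
      exact Subgroup.mem_inf.mpr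
        ⟨hMn.conj_mem x hxM k, C.mul_mem (C.mul_mem hk hxC) (C.inv_mem hk)⟩
    · intro k hk x hx
      obtain ⟨hxM, hxC⟩ := Subgroup.mem_inf.mp hx
      have e : k * x * k⁻¹ = x := by rw [hMab k hk x hxM, mul_inv_cancel_right]
      rw [e]; exact hx
  rcases hmin (M ⊓ C) hMCn inf_le_left with h | h
  · exact h
  · exfalso; apply hMC; rw [← h]; exact inf_le_right

/-- `C N` is self-normalizing when `C` is a Carter subgroup and `N` is normal
(given conjugacy of Carter subgroups in smaller groups) -/
theorem carter_sup_self_normalizing (n : ℕ)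
    (IHc : ∀ m < n, ∀ (H : Type u) [Group H] [Finite H] [Group.IsSolvable H], Nat.card H = m →
      ∀ C D : Subgroup H, IsCarterLead C → IsCarterLead D → ∃ g : H, MulAut.conj g • C = D)
    (G : Type u) [Group G] [Finite G] [Group.IsSolvable G] (hn : Nat.card G = n)
    (C N : Subgroup G) [N.Normal] (hC : IsCarterLead C) :
    Subgroup.normalizer ((C ⊔ N : Subgroup G) : Set G) = C ⊔ N := by
  apply le_antisymm _ Subgroup.le_normalizer
  intro x hx
  by_cases htop : C ⊔ N = ⊤
  · rw [htop]; exact Subgroup.mem_top x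
  · have hlt : Nat.card (C ⊔ N : Subgroup G) < n := by
      rw [← hn]; exact card_lt_card_of_ne_top _ htop
    have hCL : C ≤ C ⊔ N := le_sup_left
    have hxCL : MulAut.conj x • C ≤ C ⊔ N := by
      intro y hy
      rw [mem_conj_smul] at hy
      have h1 := conj_mem_of_mem_normalizer hx (hCL hy)
      have e : x * (x⁻¹ * y * x) * x⁻¹ = y := by group
      rw [e] at h1; exact h1
    have hc1 : IsCarterLead (C.subgroupOf (C ⊔ N)) := carter_subgroupOf hC hCL
    have hc2 : IsCarterLead ((MulAut.conj x • C).subgroupOf (C ⊔ N)) :=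
      carter_subgroupOf (carter_conj x hC) hxCL
    obtain ⟨y, hy⟩ := IHc _ hlt (↥(C ⊔ N)) rfl _ _ hc1 hc2
    have h3 : MulAut.conj (y : G) • C = MulAut.conj x • C := conj_of_subgroupOf hCL hxCL y hy
    have h4 : (y : G)⁻¹ * x ∈ Subgroup.normalizer (C : Set G) := by
      apply mem_normalizer_of_conj_smul_eq
      rw [conj_mul_smul, ← h3, ← conj_mul_smul, inv_mul_cancel, map_one, one_smul]
    rw [hC.2] at h4
    have e : x = (y : G) * ((y : G)⁻¹ * x) := by group
    rw [e]; exact (C ⊔ N).mul_mem y.2 (hCL h4)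

theorem carter_map_mk (n : ℕ)
    (IHc : ∀ m < n, ∀ (H : Type u) [Group H] [Finite H] [Group.IsSolvable H], Nat.card H = m →
      ∀ C D : Subgroup H, IsCarterLead C → IsCarterLead D → ∃ g : H, MulAut.conj g • C = D)
    (G : Type u) [Group G] [Finite G] [Group.IsSolvable G] (hn : Nat.card G = n)
    (C N : Subgroup G) [N.Normal] (hC : IsCarterLead C) :
    IsCarterLead (C.map (QuotientGroup.mk' N)) := by
  refine ⟨?_, ?_⟩
  · haveI := hC.1
    exact Group.nilpotent_of_surjective ((QuotientGroup.mk' N).subgroupMap C)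
      ((QuotientGroup.mk' N).subgroupMap_surjective C)
  · apply le_antisymm _ Subgroup.le_normalizer
    intro xbar hx
    obtain ⟨x, rfl⟩ := QuotientGroup.mk'_surjective N xbar
    have hcm : (C.map (QuotientGroup.mk' N)).comap (QuotientGroup.mk' N) = C ⊔ N := by
      rw [Subgroup.comap_map_eq, QuotientGroup.ker_mk']
    have h2 : ∀ d : G, QuotientGroup.mk' N d ∈ C.map (QuotientGroup.mk' N) ↔ d ∈ C ⊔ N := by
      intro d
      rw [← Subgroup.mem_comap, hcm]
    have hxN : x ∈ Subgroup.normalizer ((C ⊔ N : Subgroup G) : Set G) := by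
      rw [Subgroup.mem_normalizer_iff]
      intro c
      have h1 := Subgroup.mem_normalizer_iff.mp hx (QuotientGroup.mk' N c)
      rw [← h2 c, ← h2 (x * c * x⁻¹), map_mul, map_mul, map_inv]
      exact h1
    rw [carter_sup_self_normalizing n IHc G hn C N hC] at hxN
    exact (h2 x).mpr hxN

/-- conjugacy when both Carter subgroups supplement a minimal normal subgroup -/
theorem carter_conj_top (n : ℕ)
    (IHc : ∀ m < n, ∀ (H : Type u) [Group H] [Finite H] [Group.IsSolvable H], Nat.card H = m →
      ∀ C D : Subgroup H, IsCarterLead C → IsCarterLead D → ∃ g : H, MulAut.conj g • C = D)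
    (G : Type u) [Group G] [Finite G] [Group.IsSolvable G] (hn : Nat.card G = n)
    (hG : (⊥ : Subgroup G) ≠ ⊤)
    (M : Subgroup G) [hMn : M.Normal] (hMbot : M ≠ ⊥)
    (hmin : ∀ M' : Subgroup G, M'.Normal → M' ≤ M → M' = ⊥ ∨ M' = M)
    (D C : Subgroup G) (hD : IsCarterLead D) (hC : IsCarterLead C)
    (hDM : D ⊔ M = ⊤) (hCM : C ⊔ M = ⊤) : ∃ g : G, MulAut.conj g • D = C := by
  have hMab := minimal_normal_comm M hMbot hmin
  by_cases hMC : M ≤ C
  · have hCtop : C = ⊤ := by rw [← hCM]; exact (sup_eq_left.mpr hMC).symm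
    have h1 : D = C := carter_eq_of_le_nilpotent hD hC.1 (by rw [hCtop]; exact le_top)
    exact ⟨1, by rw [map_one, one_smul]; exact h1⟩
  · have hMC0 : M ⊓ C = ⊥ := inf_eq_bot_of_minimal M hmin hMab C hCM hMC
    obtain ⟨A, hA⟩ : ∃ A : Subgroup G, A = D ⊓ Subgroup.centralizer (M : Set G) := ⟨_, rfl⟩
    have hAD : A ≤ D := by rw [hA]; exact inf_le_left
    have hAcent : ∀ a ∈ A, ∀ m ∈ M, m * a = a * m := by
      intro a ha m hm
      rw [hA] at ha
      exact Subgroup.mem_centralizer_iff.mp (Subgroup.mem_inf.mp ha).2 m hm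
    have hAn : A.Normal := by
      apply normal_of_sup_top D M A hDM
      · intro k hk x hx
        rw [hA]
        refine Subgroup.mem_inf.mpr ⟨D.mul_mem (D.mul_mem hk (hAD hx)) (D.inv_mem hk), ?_⟩
        rw [Subgroup.mem_centralizer_iff]
        intro m hm
        have hm' : k⁻¹ * m * k ∈ M := by
          have h0 := hMn.conj_mem m hm k⁻¹
          rw [inv_inv] at h0; exact h0
        have h1 := hAcent x hx (k⁻¹ * m * k) hm'
        have e1 : m * (k * x * k⁻¹) = k * (k⁻¹ * m * k * x) * k⁻¹ := by group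
        have e2 : k * (x * (k⁻¹ * m * k)) * k⁻¹ = k * x * k⁻¹ * m := by group
        rw [e1, h1, e2]
      · intro k hk x hx
        have e : k * x * k⁻¹ = x := by rw [hAcent x hx k hk, mul_inv_cancel_right]
        rw [e]; exact hx
    by_cases hAbot : A = ⊥
    · -- the faithful case
      have hDbot : D ≠ ⊥ := by
        intro hDb
        apply hG
        have h1 : ∀ x : G, x ∈ Subgroup.normalizer ((⊥ : Subgroup G) : Set G) := by
          intro x
          rw [Subgroup.mem_normalizer_iff]
          intro h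
          rw [Subgroup.mem_bot, Subgroup.mem_bot]
          constructor
          · rintro rfl; group
          · intro hh
            have e : h = x⁻¹ * (x * h * x⁻¹) * x := by group
            rw [e, hh]; group
        have h2 := hD.2
        rw [hDb] at h2
        rw [eq_top_iff]
        intro x _
        rw [← h2]; exact h1 x
      haveI hDnil : Group.IsNilpotent D := hD.1
      haveI : Nontrivial D := (Subgroup.nontrivial_iff_ne_bot D).mpr hDbot
      have hcen := Group.IsNilpotent.center_ne_bot (↥D)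
      obtain ⟨z, hzc, hz1⟩ : ∃ z : D, z ∈ Subgroup.center D ∧ z ≠ 1 := by
        by_contra hno
        push Not at hno
        apply hcen
        rw [eq_bot_iff]
        intro z hz
        rw [Subgroup.mem_bot]
        exact hno z hz
      have hzcomm : ∀ d ∈ D, (z : G) * d = d * (z : G) := by
        intro d hd
        have h1 := Subgroup.mem_center_iff.mp hzc ⟨d, hd⟩
        exact (congrArg Subtype.val h1).symm
      obtain ⟨zG, hzG⟩ : ∃ zG : G, zG = (z : G) := ⟨_, rfl⟩
      rw [← hzG] at hzcomm
      have hzD : zG ∈ D := by rw [hzG]; exact z.2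
      have hzG1 : zG ≠ 1 := by
        intro h
        apply hz1
        apply Subtype.ext
        rw [← hzG]; exact h
      have hCMn : (M ⊓ Subgroup.centralizer ({zG} : Set G)).Normal := by
        apply normal_of_sup_top D M _ hDM
        · intro k hk x hx
          obtain ⟨hxM, hxz⟩ := Subgroup.mem_inf.mp hx
          refine Subgroup.mem_inf.mpr ⟨hMn.conj_mem x hxM k, ?_⟩
          rw [Subgroup.mem_centralizer_iff] at hxz ⊢
          intro h hh
          rw [Set.mem_singleton_iff] at hh
          rw [hh]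
          have h1 := hxz zG (Set.mem_singleton zG)
          have h2 := hzcomm k hk
          have h3 : zG * k⁻¹ = k⁻¹ * zG := by
            have e : zG * k⁻¹ = k⁻¹ * (k * zG) * k⁻¹ := by group
            rw [e, ← h2]; group
          calc zG * (k * x * k⁻¹) = (zG * k) * x * k⁻¹ := by group
            _ = k * (zG * x) * k⁻¹ := by rw [h2]; group
            _ = k * x * (zG * k⁻¹) := by rw [h1]; group
            _ = k * x * k⁻¹ * zG := by rw [h3]; group
        · intro k hk x hx
          obtain ⟨hxM, hxz⟩ := Subgroup.mem_inf.mp hx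
          have e : k * x * k⁻¹ = x := by rw [hMab k hk x hxM, mul_inv_cancel_right]
          rw [e]; exact hx
      have hz0 : ∀ m ∈ M, zG * m = m * zG → m = 1 := by
        rcases hmin _ hCMn inf_le_left with h | h
        · intro m hm hmz
          have h1 : m ∈ M ⊓ Subgroup.centralizer ({zG} : Set G) := by
            refine Subgroup.mem_inf.mpr ⟨hm, ?_⟩
            rw [Subgroup.mem_centralizer_iff]
            intro h' hh'
            rw [Set.mem_singleton_iff] at hh'
            rw [hh']; exact hmz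
          rw [h] at h1
          exact Subgroup.mem_bot.mp h1
        · exfalso
          apply hzG1
          have h1 : zG ∈ A := by
            rw [hA]
            refine Subgroup.mem_inf.mpr ⟨hzD, ?_⟩
            rw [Subgroup.mem_centralizer_iff]
            intro m hm
            have h2 : m ∈ M ⊓ Subgroup.centralizer ({zG} : Set G) := by rw [h]; exact hm
            have h3 := Subgroup.mem_centralizer_iff.mp (Subgroup.mem_inf.mp h2).2 zG
              (Set.mem_singleton zG)
            exact h3.symm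
          rw [hAbot] at h1
          exact Subgroup.mem_bot.mp h1
      have hzmem : zG ∈ ((C ⊔ M : Subgroup G) : Set G) := by
        rw [hCM]; exact Subgroup.mem_top zG
      rw [Subgroup.mul_normal C M] at hzmem
      obtain ⟨c2, hc2, m, hm, hzm⟩ := Set.mem_mul.mp hzmem
      have hψmem : ∀ u ∈ M, zG⁻¹ * u * zG * u⁻¹ ∈ M := by
        intro u hu
        have h1 := hMn.conj_mem u hu zG⁻¹
        rw [inv_inv] at h1
        exact M.mul_mem h1 (M.inv_mem hu)
      let ψ : M → M := fun u => ⟨zG⁻¹ * u * zG * (u : G)⁻¹, hψmem u u.2⟩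
      have hψinj : Function.Injective ψ := by
        intro u v huv
        have h1 : zG⁻¹ * (u : G) * zG * (u : G)⁻¹ = zG⁻¹ * (v : G) * zG * (v : G)⁻¹ :=
          congrArg Subtype.val huv
        have h2 : zG * ((u : G)⁻¹ * (v : G)) = ((u : G)⁻¹ * (v : G)) * zG := by
          have e1 : zG * ((u : G)⁻¹ * (v : G)) =
              (u : G)⁻¹ * (zG * (zG⁻¹ * (u : G) * zG * (u : G)⁻¹)) * (v : G) := by group
          rw [e1, h1]; group
        have h3 := hz0 _ (M.mul_mem (M.inv_mem u.2) v.2) h2
        apply Subtype.ext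
        have e : (v : G) = (u : G) * ((u : G)⁻¹ * (v : G)) := by group
        rw [e, h3, mul_one]
      have hψsurj : Function.Surjective ψ := Finite.injective_iff_surjective.mp hψinj
      obtain ⟨m0, hm0⟩ := hψsurj ⟨m⁻¹, M.inv_mem hm⟩
      have hm0' : zG⁻¹ * (m0 : G) * zG * (m0 : G)⁻¹ = m⁻¹ := congrArg Subtype.val hm0
      obtain ⟨g0, hg0⟩ : ∃ g0 : G, g0 = (m0 : G) := ⟨_, rfl⟩
      rw [← hg0] at hm0'
      have hg0M : g0 ∈ M := by rw [hg0]; exact m0.2
      have hc2eq : g0 * zG * g0⁻¹ = c2 := by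
        have e1 : g0 * zG * g0⁻¹ = zG * (zG⁻¹ * g0 * zG * g0⁻¹) := by group
        rw [e1, hm0', ← hzm]; group
      have hc2comm : ∀ d ∈ MulAut.conj g0 • D, c2 * d = d * c2 := by
        intro d hd
        rw [mem_conj_smul] at hd
        have h1 := hzcomm _ hd
        rw [← hc2eq]
        have e1 : g0 * zG * g0⁻¹ * d = g0 * (zG * (g0⁻¹ * d * g0)) * g0⁻¹ := by group
        have e2 : g0 * (g0⁻¹ * d * g0 * zG) * g0⁻¹ = d * (g0 * zG * g0⁻¹) := by group
        rw [e1, h1, e2]
      have hD2M : M ⊔ MulAut.conj g0 • D = ⊤ := by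
        rw [eq_top_iff, ← hDM]
        apply sup_le
        · intro d hd
          have h1 : g0 * d * g0⁻¹ ∈ MulAut.conj g0 • D := conj_mem_conj_smul hd
          have e : d = g0⁻¹ * (g0 * d * g0⁻¹) * g0 := by group
          rw [e]
          exact Subgroup.mul_mem _ (Subgroup.mul_mem _
            (Subgroup.mem_sup_left (Subgroup.inv_mem _ hg0M)) (Subgroup.mem_sup_right h1))
            (Subgroup.mem_sup_left hg0M)
        · exact le_sup_left
      have hCD2 : C ≤ MulAut.conj g0 • D := by
        intro c hc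
        have hcmem : c ∈ ((M ⊔ MulAut.conj g0 • D : Subgroup G) : Set G) := by
          rw [hD2M]; exact Subgroup.mem_top c
        rw [Subgroup.normal_mul M (MulAut.conj g0 • D)] at hcmem
        obtain ⟨u, hu, d, hd, hud⟩ := Set.mem_mul.mp hcmem
        have hcomm := hc2comm d hd
        have hw : c2 * u * c2⁻¹ * u⁻¹ ∈ M ⊓ C := by
          refine Subgroup.mem_inf.mpr ⟨M.mul_mem (hMn.conj_mem u hu c2) (M.inv_mem hu), ?_⟩
          have h1 : c2 * c * c2⁻¹ * c⁻¹ ∈ C :=
            C.mul_mem (C.mul_mem (C.mul_mem hc2 hc) (C.inv_mem hc2)) (C.inv_mem hc)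
          have e : c2 * c * c2⁻¹ * c⁻¹ = c2 * u * c2⁻¹ * u⁻¹ := by
            rw [← hud]
            have h2 : d * c2⁻¹ = c2⁻¹ * d := by
              have e' : d * c2⁻¹ = c2⁻¹ * (c2 * d) * c2⁻¹ := by group
              rw [e', hcomm]; group
            calc c2 * (u * d) * c2⁻¹ * (u * d)⁻¹ = c2 * u * (d * c2⁻¹) * d⁻¹ * u⁻¹ := by group
              _ = c2 * u * (c2⁻¹ * d) * d⁻¹ * u⁻¹ := by rw [h2]
              _ = c2 * u * c2⁻¹ * u⁻¹ := by group
          rw [e] at h1; exact h1
        rw [hMC0, Subgroup.mem_bot] at hw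
        have h3 : c2 * u = u * c2 := by
          have e : c2 * u = (c2 * u * c2⁻¹ * u⁻¹) * (u * c2) := by group
          rw [e, hw, one_mul]
        have h4 : zG * (g0⁻¹ * u * g0) = (g0⁻¹ * u * g0) * zG := by
          rw [← hc2eq] at h3
          have e1 : zG * (g0⁻¹ * u * g0) = g0⁻¹ * (g0 * zG * g0⁻¹ * u) * g0 := by group
          have e2 : g0⁻¹ * (u * (g0 * zG * g0⁻¹)) * g0 = (g0⁻¹ * u * g0) * zG := by group
          rw [e1, h3, e2]
        have h5 : g0⁻¹ * u * g0 = 1 := by
          apply hz0 _ _ h4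
          have h0 := hMn.conj_mem u hu g0⁻¹
          rw [inv_inv] at h0; exact h0
        have h6 : u = 1 := by
          have e : u = g0 * (g0⁻¹ * u * g0) * g0⁻¹ := by group
          rw [e, h5]; group
        rw [← hud, h6, one_mul]; exact hd
      exact ⟨g0, (carter_eq_of_le_nilpotent hC (carter_conj g0 hD).1 hCD2).symm⟩
    · -- pass to the quotient by A
      haveI := hAn
      have hlt : Nat.card (G ⧸ A) < n := by rw [← hn]; exact card_quotient_lt A hAbot
      have hc1 := carter_map_mk n IHc G hn D A hD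
      have hc2 := carter_map_mk n IHc G hn C A hC
      obtain ⟨gbar, hg⟩ := IHc _ hlt (G ⧸ A) rfl _ _ hc1 hc2
      obtain ⟨g, rfl⟩ := QuotientGroup.mk'_surjective A gbar
      have h1 := conj_sup_eq_of_map_eq A D C g hg
      have h2 : A ≤ MulAut.conj g • D := by
        intro a ha
        rw [mem_conj_smul]
        apply hAD
        have h0 := hAn.conj_mem a ha g⁻¹
        rw [inv_inv] at h0; exact h0
      have h3 : C ≤ MulAut.conj g • D := by
        have h4 : C ≤ C ⊔ A := le_sup_left
        rw [← h1, sup_eq_left.mpr h2] at h4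
        exact h4
      exact ⟨g, (carter_eq_of_le_nilpotent hC (carter_conj g hD).1 h3).symm⟩

theorem carter_conj_main (n : ℕ)
    (IHc : ∀ m < n, ∀ (H : Type u) [Group H] [Finite H] [Group.IsSolvable H], Nat.card H = m →
      ∀ C D : Subgroup H, IsCarterLead C → IsCarterLead D → ∃ g : H, MulAut.conj g • C = D)
    (G : Type u) [Group G] [Finite G] [Group.IsSolvable G] (hn : Nat.card G = n)
    (C1 C2 : Subgroup G) (h1 : IsCarterLead C1) (h2 : IsCarterLead C2) :
    ∃ g : G, MulAut.conj g • C1 = C2 := by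
  by_cases hG : (⊥ : Subgroup G) = ⊤
  · haveI : Subsingleton (Subgroup G) := subsingleton_of_bot_eq_top hG
    exact ⟨1, Subsingleton.elim _ _⟩
  · obtain ⟨M, hMn, hMbot, hmin⟩ := exists_minimal_normal hG
    haveI := hMn
    have hlt : Nat.card (G ⧸ M) < n := by rw [← hn]; exact card_quotient_lt M hMbot
    have hc1 := carter_map_mk n IHc G hn C1 M h1
    have hc2 := carter_map_mk n IHc G hn C2 M h2
    obtain ⟨gbar, hg⟩ := IHc _ hlt (G ⧸ M) rfl _ _ hc1 hc2
    obtain ⟨g, rfl⟩ := QuotientGroup.mk'_surjective M gbar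
    have h3 := conj_sup_eq_of_map_eq M C1 C2 g hg
    have hD : IsCarterLead (MulAut.conj g • C1) := carter_conj g h1
    suffices hsuff : ∃ g' : G, MulAut.conj g' • (MulAut.conj g • C1) = C2 by
      obtain ⟨g', hg'⟩ := hsuff
      exact ⟨g' * g, by rw [conj_mul_smul]; exact hg'⟩
    by_cases hK : C2 ⊔ M = ⊤
    · exact carter_conj_top n IHc G hn hG M hMbot hmin _ C2 hD h2 (h3.trans hK) hK
    · have hle1 : MulAut.conj g • C1 ≤ C2 ⊔ M := by rw [← h3]; exact le_sup_left
      have hle2 : C2 ≤ C2 ⊔ M := le_sup_left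
      have hlt2 : Nat.card (C2 ⊔ M : Subgroup G) < n := by
        rw [← hn]; exact card_lt_card_of_ne_top _ hK
      obtain ⟨y, hy⟩ := IHc _ hlt2 (↥(C2 ⊔ M)) rfl _ _ (carter_subgroupOf hD hle1)
        (carter_subgroupOf h2 hle2)
      exact ⟨(y : G), conj_of_subgroupOf hle1 hle2 y hy⟩

theorem carter_of_carter_subgroup {G : Type*} [Group G] (M K : Subgroup G) [M.Normal]
    (hMK : M ≤ K) (hKsn : Subgroup.normalizer (K : Set G) ≤ K) (C0 : Subgroup K)
    (hC0 : IsCarterLead C0) (htop : C0 ⊔ M.subgroupOf K = ⊤) :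
    IsCarterLead (C0.map K.subtype) := by
  have hCK : C0.map K.subtype ≤ K := by
    rintro _ ⟨y, _, rfl⟩; exact y.2
  have hsup : C0.map K.subtype ⊔ M = K := by
    apply le_antisymm (sup_le hCK hMK)
    intro k hk
    have h1 : (⟨k, hk⟩ : K) ∈ C0 ⊔ M.subgroupOf K := by rw [htop]; exact Subgroup.mem_top _
    have h2 : K.subtype ⟨k, hk⟩ ∈ (C0 ⊔ M.subgroupOf K).map K.subtype :=
      Subgroup.mem_map_of_mem _ h1
    rw [Subgroup.map_sup, Subgroup.subgroupOf_map_subtype] at h2
    have h5 : C0.map K.subtype ⊔ M ⊓ K ≤ C0.map K.subtype ⊔ M := sup_le_sup_left inf_le_left _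
    exact h5 h2
  refine ⟨?_, ?_⟩
  · haveI := hC0.1
    exact Group.nilpotent_of_mulEquiv (C0.equivMapOfInjective K.subtype K.subtype_injective)
  · apply le_antisymm _ Subgroup.le_normalizer
    intro g hg
    have hgK : g ∈ K := by
      apply hKsn
      have h1 := mem_normalizer_sup_normal (M := M) hg
      rw [hsup] at h1
      exact h1
    have h2 : (⟨g, hgK⟩ : K) ∈ Subgroup.normalizer (C0 : Set K) := by
      rw [Subgroup.mem_normalizer_iff]
      intro c
      have h3 := Subgroup.mem_normalizer_iff.mp hg (c : G)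
      have h4 : ∀ d : K, K.subtype d ∈ C0.map K.subtype ↔ d ∈ C0 := fun d =>
        Subgroup.mem_map_iff_mem K.subtype_injective
      rw [← h4 c, ← h4 (⟨g, hgK⟩ * c * (⟨g, hgK⟩ : K)⁻¹)]
      exact h3
    rw [hC0.2] at h2
    exact Subgroup.mem_map_of_mem K.subtype h2

theorem carter_exists_of_proper (n : ℕ)
    (IHe : ∀ m < n, ∀ (H : Type u) [Group H] [Finite H] [Group.IsSolvable H], Nat.card H = m →
      ∃ C : Subgroup H, IsCarterLead C)
    (IHc : ∀ m < n, ∀ (H : Type u) [Group H] [Finite H] [Group.IsSolvable H], Nat.card H = m →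
      ∀ C D : Subgroup H, IsCarterLead C → IsCarterLead D → ∃ g : H, MulAut.conj g • C = D)
    (G : Type u) [Group G] [Finite G] [Group.IsSolvable G] (hn : Nat.card G = n)
    (M : Subgroup G) [hMn : M.Normal] (Cb : Subgroup (G ⧸ M)) (hCb : IsCarterLead Cb)
    (hK : Cb.comap (QuotientGroup.mk' M) ≠ ⊤) : ∃ C : Subgroup G, IsCarterLead C := by
  have hltK : Nat.card (Cb.comap (QuotientGroup.mk' M)) < n := by
    rw [← hn]; exact card_lt_card_of_ne_top _ hK
  obtain ⟨C0, hC0⟩ := IHe _ hltK (↥(Cb.comap (QuotientGroup.mk' M))) rfl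
  have hLK := carter_sup_self_normalizing _ (fun m hm => IHc m (lt_trans hm hltK))
    (↥(Cb.comap (QuotientGroup.mk' M))) rfl C0
    (M.subgroupOf (Cb.comap (QuotientGroup.mk' M))) hC0
  haveI := hCb.1
  have hker : ((QuotientGroup.mk' M).subgroupComap Cb).ker ≤
      C0 ⊔ M.subgroupOf (Cb.comap (QuotientGroup.mk' M)) := by
    intro x hx
    apply Subgroup.mem_sup_right
    rw [Subgroup.mem_subgroupOf]
    rw [MonoidHom.mem_ker] at hx
    have h1 : QuotientGroup.mk' M (x : G) = 1 := congrArg Subtype.val hx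
    rwa [QuotientGroup.mk'_apply, QuotientGroup.eq_one_iff] at h1
  have htop := eq_top_of_self_normalizing_of_nilpotent_quot
    ((QuotientGroup.mk' M).subgroupComap Cb)
    ((QuotientGroup.mk' M).subgroupComap_surjective_of_surjective Cb
      (QuotientGroup.mk'_surjective M)) _ hker hLK
  have hMK : M ≤ Cb.comap (QuotientGroup.mk' M) := by
    intro m hm
    rw [Subgroup.mem_comap, QuotientGroup.mk'_apply, (QuotientGroup.eq_one_iff m).mpr hm]
    exact Cb.one_mem
  have hKsn : Subgroup.normalizer ((Cb.comap (QuotientGroup.mk' M) : Subgroup G) : Set G) ≤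
      Cb.comap (QuotientGroup.mk' M) := by
    intro g hg
    rw [Subgroup.mem_comap, ← hCb.2, Subgroup.mem_normalizer_iff]
    intro hbar
    obtain ⟨h, rfl⟩ := QuotientGroup.mk'_surjective M hbar
    have h1 := Subgroup.mem_normalizer_iff.mp hg h
    rw [Subgroup.mem_comap, Subgroup.mem_comap, map_mul, map_mul, map_inv] at h1
    exact h1
  exact ⟨_, carter_of_carter_subgroup M _ hMK hKsn C0 hC0 htop⟩

theorem carter_exists (n : ℕ)
    (IHe : ∀ m < n, ∀ (H : Type u) [Group H] [Finite H] [Group.IsSolvable H], Nat.card H = m →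
      ∃ C : Subgroup H, IsCarterLead C)
    (IHc : ∀ m < n, ∀ (H : Type u) [Group H] [Finite H] [Group.IsSolvable H], Nat.card H = m →
      ∀ C D : Subgroup H, IsCarterLead C → IsCarterLead D → ∃ g : H, MulAut.conj g • C = D)
    (G : Type u) [Group G] [Finite G] [Group.IsSolvable G] (hn : Nat.card G = n) :
    ∃ C : Subgroup G, IsCarterLead C := by
  by_cases hnil : Group.IsNilpotent G
  · haveI := hnil
    refine ⟨⊤, Group.nilpotent_of_mulEquiv Subgroup.topEquiv.symm, ?_⟩
    exact eq_top_iff.mpr Subgroup.le_normalizer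
  · have hG : (⊥ : Subgroup G) ≠ ⊤ := by
      intro h
      apply hnil
      haveI : Subsingleton (Subgroup G) := subsingleton_of_bot_eq_top h
      haveI : Subsingleton G := Subgroup.subsingleton_iff.mp inferInstance
      infer_instance
    obtain ⟨M, hMn, hMbot, hmin⟩ := exists_minimal_normal hG
    haveI := hMn
    have hMab := minimal_normal_comm M hMbot hmin
    have hlt : Nat.card (G ⧸ M) < n := by rw [← hn]; exact card_quotient_lt M hMbot
    obtain ⟨Cb, hCb⟩ := IHe _ hlt (G ⧸ M) rfl
    by_cases hK : Cb.comap (QuotientGroup.mk' M) = ⊤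
    · -- G ⧸ M is nilpotent
      have hCbtop : Cb = ⊤ := by
        rw [eq_top_iff]
        intro xbar _
        obtain ⟨x, rfl⟩ := QuotientGroup.mk'_surjective M xbar
        have h0 : x ∈ Cb.comap (QuotientGroup.mk' M) := by rw [hK]; exact Subgroup.mem_top x
        exact h0
      subst hCbtop
      haveI hQnil : Group.IsNilpotent (G ⧸ M) := by
        haveI := hCb.1
        exact Group.nilpotent_of_mulEquiv Subgroup.topEquiv
      have hex : ∃ C : Subgroup G, IsCoatom C ∧ ¬ M ≤ C := by
        by_contra hall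
        push Not at hall
        apply hnil
        refine ((Group.isNilpotent_of_finite_tfae (G := G)).out 0 2).mpr ?_
        intro C hCco
        have hMC := hall C hCco
        rw [← Subgroup.normalizer_eq_top_iff]
        by_contra hne
        have hself : Subgroup.normalizer (C : Set G) = C := by
          by_contra hne2
          have hlt' : C < Subgroup.normalizer (C : Set G) :=
            lt_of_le_of_ne Subgroup.le_normalizer (Ne.symm hne2)
          exact hne (hCco.2 _ hlt')
        have hker : (QuotientGroup.mk' M).ker ≤ C := by rw [QuotientGroup.ker_mk']; exact hMC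
        exact hCco.1 (eq_top_of_self_normalizing_of_nilpotent_quot (QuotientGroup.mk' M)
          (QuotientGroup.mk'_surjective M) C hker hself)
      obtain ⟨C, hCco, hMC⟩ := hex
      have hCM : C ⊔ M = ⊤ := by
        apply hCco.2
        apply lt_of_le_of_ne le_sup_left
        intro h
        apply hMC
        rw [h]; exact le_sup_right
      have hMC0 : M ⊓ C = ⊥ := inf_eq_bot_of_minimal M hmin hMab C hCM hMC
      refine ⟨C, ?_, ?_⟩
      · have hinj : Function.Injective ((QuotientGroup.mk' M).comp C.subtype) := by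
          rw [← MonoidHom.ker_eq_bot_iff, eq_bot_iff]
          intro c hc
          rw [MonoidHom.mem_ker] at hc
          have h1 : (c : G) ∈ M := by
            have h0 : QuotientGroup.mk' M (c : G) = 1 := hc
            rwa [QuotientGroup.mk'_apply, QuotientGroup.eq_one_iff] at h0
          have h2 : (c : G) ∈ M ⊓ C := Subgroup.mem_inf.mpr ⟨h1, c.2⟩
          rw [hMC0, Subgroup.mem_bot] at h2
          rw [Subgroup.mem_bot]
          exact Subtype.ext h2
        exact Group.nilpotent_of_mulEquiv (MonoidHom.ofInjective hinj).symm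
      · by_contra hne
        have hlt' : C < Subgroup.normalizer (C : Set G) :=
          lt_of_le_of_ne Subgroup.le_normalizer (Ne.symm hne)
        have hCn : C.Normal := Subgroup.normalizer_eq_top_iff.mp (hCco.2 _ hlt')
        apply hnil
        have hcomm : ∀ c ∈ C, ∀ m ∈ M, c * m = m * c := by
          intro c hc m hm
          have h1 : c * m * c⁻¹ * m⁻¹ ∈ M ⊓ C := by
            refine Subgroup.mem_inf.mpr ⟨M.mul_mem (hMn.conj_mem m hm c) (M.inv_mem hm), ?_⟩
            have h2 := hCn.conj_mem c⁻¹ (C.inv_mem hc) m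
            have e : c * m * c⁻¹ * m⁻¹ = c * (m * c⁻¹ * m⁻¹) := by group
            rw [e]; exact C.mul_mem hc h2
          rw [hMC0, Subgroup.mem_bot] at h1
          have e : c * m = (c * m * c⁻¹ * m⁻¹) * (m * c) := by group
          rw [e, h1, one_mul]
        have hMcen : M ≤ Subgroup.center G := by
          intro m hm
          rw [Subgroup.mem_center_iff]
          intro g
          have hg : g ∈ ((C ⊔ M : Subgroup G) : Set G) := by
            rw [hCM]; exact Subgroup.mem_top g
          rw [Subgroup.mul_normal C M] at hg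
          obtain ⟨c, hc, m', hm', rfl⟩ := Set.mem_mul.mp hg
          calc c * m' * m = c * (m' * m) := by group
            _ = c * (m * m') := by rw [hMab m' hm' m hm]
            _ = (c * m) * m' := by group
            _ = (m * c) * m' := by rw [hcomm c hc m hm]
            _ = m * (c * m') := by group
        exact Subgroup.isNilpotent_of_ker_le_center (QuotientGroup.mk' M)
          (by rw [QuotientGroup.ker_mk']; exact hMcen)
    · exact carter_exists_of_proper n IHe IHc G hn M Cb hCb hK

theorem carter_main : ∀ (n : ℕ) (G : Type u) [Group G] [Finite G] [Group.IsSolvable G],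
    Nat.card G = n →
    (∃ C : Subgroup G, IsCarterLead C) ∧
    ∀ C D : Subgroup G, IsCarterLead C → IsCarterLead D → ∃ g : G, MulAut.conj g • C = D := by
  intro n
  induction n using Nat.strong_induction_on with
  | _ n IH =>
  intro G _ _ _ hn
  have IHc : ∀ m < n, ∀ (H : Type u) [Group H] [Finite H] [Group.IsSolvable H], Nat.card H = m →
      ∀ C D : Subgroup H, IsCarterLead C → IsCarterLead D → ∃ g : H, MulAut.conj g • C = D :=
    fun m hm H _ _ _ hH => (IH m hm H hH).2
  have IHe : ∀ m < n, ∀ (H : Type u) [Group H] [Finite H] [Group.IsSolvable H], Nat.card H = m →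
      ∃ C : Subgroup H, IsCarterLead C := fun m hm H _ _ _ hH => (IH m hm H hH).1
  exact ⟨carter_exists n IHe IHc G hn, fun C D hC hD => carter_conj_main n IHc G hn C D hC hD⟩

end Cfsg.Agent.Lib.Lead
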