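import Mathlib

/-! Central extensions and transfer into an abelian Sylow subgroup. -/

namespace Cfsg.Agent.Lib.Lead

open scoped IsMulCommutative in
theorem perfect_central_cyclic_sylow {G H : Type*} [Group G] [Group H] [Finite G] [Finite H]
    {p : ℕ} [Fact p.Prime] (hcyc : ∀ P : Sylow p G, IsCyclic P) (σ : H →* G)
    (hz : σ.ker ≤ Subgroup.center H) (hH : commutator H = ⊤) : ¬ p ∣ Nat.card σ.ker := by
  classical
  intro hdvd
  have hp : p.Prime := Fact.out
  obtain ⟨z', hz'⟩ := exists_prime_orderOf_dvd_card' (G := σ.ker) p hdvd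
  have hzo : orderOf (z' : H) = p := by rw [Subgroup.orderOf_coe]; exact hz'
  have hzc : (z' : H) ∈ Subgroup.center H := hz z'.2
  have hpz : IsPGroup p (Subgroup.zpowers (z' : H)) := by
    apply IsPGroup.of_card (n := 1)
    rw [Nat.card_zpowers, hzo, pow_one]
  obtain ⟨Q, hQ⟩ := hpz.exists_le_sylow
  have hzQ : (z' : H) ∈ (Q : Subgroup H) := hQ (Subgroup.mem_zpowers _)
  have hQcomm : IsMulCommutative (Q : Subgroup H) := by
    have hmapP : IsPGroup p ((Q : Subgroup H).map σ) := Q.isPGroup'.map σ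
    obtain ⟨P, hP⟩ := hmapP.exists_le_sylow
    haveI : IsCyclic (P : Subgroup G) := hcyc P
    haveI : IsCyclic ((Q : Subgroup H).map σ) := Subgroup.isCyclic_of_le hP
    apply MonoidHom.isMulCommutative_of_isCyclic_of_ker_le_center
      (σ.subgroupMap (Q : Subgroup H))
    intro x hx
    rw [MonoidHom.mem_ker] at hx
    have h1 : σ (x : H) = 1 := congrArg Subtype.val hx
    have h2 : (x : H) ∈ Subgroup.center H := hz (MonoidHom.mem_ker.2 h1)
    rw [Subgroup.mem_center_iff] at h2 ⊢
    intro g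
    exact Subtype.ext (h2 g)
  haveI := hQcomm
  have htr : ∀ g : H, MonoidHom.transfer (MonoidHom.id (Q : Subgroup H)) g = 1 := by
    intro g
    have hk : commutator H ≤ (MonoidHom.transfer (MonoidHom.id (Q : Subgroup H))).ker :=
      Abelianization.commutator_subset_ker _
    rw [hH] at hk
    exact MonoidHom.mem_ker.1 (hk (Subgroup.mem_top g))
  have hkey : ∀ (k : ℕ) (g₀ : H), g₀⁻¹ * (z' : H) ^ k * g₀ ∈ (Q : Subgroup H) →
      g₀⁻¹ * (z' : H) ^ k * g₀ = (z' : H) ^ k := by
    intro k g₀ _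
    have hc : (z' : H) ^ k ∈ Subgroup.center H := Subgroup.pow_mem _ hzc k
    rw [Subgroup.mem_center_iff] at hc
    rw [mul_assoc, ← hc g₀, ← mul_assoc, inv_mul_cancel, one_mul]
  have h1 := MonoidHom.transfer_eq_pow (MonoidHom.id (Q : Subgroup H)) (z' : H) hkey
  rw [htr] at h1
  have h2 : (z' : H) ^ (Q : Subgroup H).index = 1 := (congrArg Subtype.val h1).symm
  have h3 : p ∣ (Q : Subgroup H).index := by
    have h3' := orderOf_dvd_of_pow_eq_one h2
    rwa [hzo] at h3'
  exact Q.not_dvd_index h3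

end Cfsg.Agent.Lib.Lead
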