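import Mathlib
import Cfsg.Agent.Lib.Lead.CharFS
import Cfsg.Agent.Lib.Lead.CharMisc
import Cfsg.Agent.Lib.Lead.CharZeros
import Cfsg.Agent.Lib.Lead.CharQuot
import Cfsg.Agent.Lib.Lead.ClassNum
import Cfsg.Agent.Lib.Lead.CharBurnside

set_option autoImplicit false

namespace Cfsg.Agent.Lib.Lead

open scoped ComplexConjugate

theorem card_sq_eq_one_eq {G : Type*} [Group G] [Fintype G] :
    Nat.card {s : G // s * s = 1} = 1 + Nat.card {x : G // orderOf x = 2} := by
  classical
  rw [Nat.card_eq_fintype_card, Nat.card_eq_fintype_card, Fintype.card_subtype,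
    Fintype.card_subtype]
  have h : Finset.univ.filter (fun s : G => s * s = 1) =
      insert 1 (Finset.univ.filter (fun x : G => orderOf x = 2)) := by
    ext s
    rw [Finset.mem_filter, Finset.mem_insert, Finset.mem_filter]
    simp only [Finset.mem_univ, true_and]
    constructor
    · intro hs
      have h1 : orderOf s ∣ 2 := orderOf_dvd_of_pow_eq_one (by rw [pow_two]; exact hs)
      rcases (Nat.dvd_prime Nat.prime_two).mp h1 with h2 | h2
      · left; exact orderOf_eq_one_iff.mp h2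
      · right; exact h2
    · rintro (rfl | hs)
      · simp
      · have := pow_orderOf_eq_one s
        rw [hs, pow_two] at this
        exact this
  rw [h, Finset.card_insert_of_notMem, add_comm]
  rw [Finset.mem_filter]
  simp

theorem brauer_fowler_char {G : Type*} [Group G] [Fintype G] (heven : Even (Nat.card G)) (t : ℕ)
    (ht : Nat.card {x : G // orderOf x = 2} = t) :
    (∃ x : G, x ≠ 1 ∧ ((Subgroup.centralizer ({x} : Set G)).index : ℚ) ≤
      (((Nat.card G : ℚ) - 1) / t) ^ 2) ∧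
    ∃ χ : Cfsg.IrrCharacter G, (χ : G → ℂ) ≠ (fun _ => 1) ∧
      (∀ g : G, ((χ : G → ℂ) g).im = 0) ∧
      (Cfsg.charDegree (χ : G → ℂ) : ℚ) ≤ ((Nat.card G : ℚ) - 1) / t := by
  classical
  haveI := Fintype.ofFinite (Cfsg.IrrCharacter G)
  have ht1 : 1 ≤ t := by
    obtain ⟨x, hx⟩ := exists_prime_orderOf_dvd_card' (G := G) 2 heven.two_dvd
    rw [← ht]
    haveI : Nonempty {x : G // orderOf x = 2} := ⟨⟨x, hx⟩⟩
    exact Nat.card_pos
  have hg1 : 2 ≤ Nat.card G := by
    obtain ⟨r, hr⟩ := heven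
    have := Nat.card_pos (α := G)
    omega
  have hfs : ∀ χ : Cfsg.IrrCharacter G, ∃ a b : ℕ,
      (Nat.card G : ℂ)⁻¹ * ∑ s : G, (χ : G → ℂ) (s * s) = (a : ℂ) - b ∧ a + b ≤ 1 ∧
      (a + b = 1 → ∀ g : G, ((χ : G → ℂ) g).im = 0) := by
    intro χ
    obtain ⟨n, ρ, hρ, hρχ⟩ := χ.2
    haveI := hρ
    obtain ⟨a, b, h1, h2⟩ := frobenius_schur_aux ρ
    rw [hρχ] at h1 h2
    refine ⟨a, b, h1, ?_, ?_⟩
    · by_cases hr : ∀ g, conj ((χ : G → ℂ) g) = (χ : G → ℂ) g
      · rw [if_pos hr] at h2
        have : a + b = 1 := by exact_mod_cast h2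
        omega
      · rw [if_neg hr] at h2
        have : a + b = 0 := by exact_mod_cast h2
        omega
    · intro hab g
      by_cases hr : ∀ g, conj ((χ : G → ℂ) g) = (χ : G → ℂ) g
      · exact Complex.conj_eq_iff_im.mp (hr g)
      · rw [if_neg hr] at h2
        have : a + b = 0 := by exact_mod_cast h2
        omega
  choose a b hab hab1 habr using hfs
  obtain ⟨d, hdef⟩ : ∃ d : Cfsg.IrrCharacter G → ℕ,
      ∀ χ, d χ = Cfsg.charDegree (χ : G → ℂ) := ⟨_, fun _ => rfl⟩
  have hd : ∀ χ : Cfsg.IrrCharacter G, (χ : G → ℂ) 1 = (d χ : ℂ) := by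
    intro χ
    rw [hdef χ]
    exact (charDegree_irr χ.2).1
  have hcount : (1 + t : ℤ) = ∑ χ : Cfsg.IrrCharacter G, ((a χ : ℤ) - b χ) * d χ := by
    have h1 := card_sq_eq_one (G := G)
    rw [card_sq_eq_one_eq, ht, finsum_eq_sum_of_fintype] at h1
    have h2 : ((1 + t : ℕ) : ℂ) =
        ((∑ χ : Cfsg.IrrCharacter G, ((a χ : ℤ) - b χ) * d χ : ℤ) : ℂ) := by
      rw [h1]
      push_cast
      apply Finset.sum_congr rfl
      intro χ _
      rw [hab χ, hd χ]
    exact_mod_cast h2
  obtain ⟨χ₀, hχ₀⟩ : ∃ χ₀ : Cfsg.IrrCharacter G, (χ₀ : G → ℂ) = fun _ => 1 :=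
    ⟨⟨fun _ => 1, isIrrCharacter_one G⟩, rfl⟩
  have hd₀ : d χ₀ = 1 := by
    have h1 : ((χ₀ : G → ℂ) 1) = (d χ₀ : ℂ) := hd χ₀
    rw [hχ₀] at h1
    have h1' : (1:ℂ) = (d χ₀ : ℂ) := h1
    exact_mod_cast h1'.symm
  have E1 : t ≤ ∑ χ ∈ Finset.univ.erase χ₀, (a χ + b χ) * d χ := by
    have h1 : (1 + t : ℤ) ≤ ∑ χ : Cfsg.IrrCharacter G, ((a χ + b χ : ℕ) : ℤ) * d χ := by
      rw [hcount]
      apply Finset.sum_le_sum
      intro χ _
      have h3 : ((a χ : ℤ) - b χ) ≤ ((a χ + b χ : ℕ) : ℤ) := by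
        push_cast
        linarith [Int.natCast_nonneg (b χ)]
      exact mul_le_mul_of_nonneg_right h3 (Int.natCast_nonneg _)
    have h2 : (1 + t : ℕ) ≤ ∑ χ : Cfsg.IrrCharacter G, (a χ + b χ) * d χ := by
      exact_mod_cast h1
    rw [← Finset.add_sum_erase Finset.univ _ (Finset.mem_univ χ₀), hd₀] at h2
    have := hab1 χ₀
    omega
  have E2 : ∑ χ ∈ Finset.univ.erase χ₀, d χ ^ 2 + 1 = Nat.card G := by
    have h1 := sum_sq_degrees_nat d hd
    rw [← Finset.add_sum_erase Finset.univ _ (Finset.mem_univ χ₀), hd₀] at h1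
    omega
  have h3 : ∑ χ ∈ Finset.univ.erase χ₀, d χ ^ 2 = Nat.card G - 1 := by omega
  constructor
  · by_contra hcon
    push Not at hcon
    have hCS : t ^ 2 ≤ (Fintype.card (Cfsg.IrrCharacter G) - 1) * (Nat.card G - 1) := by
      have h1 := Finset.sum_mul_sq_le_sq_mul_sq (Finset.univ.erase χ₀) (fun χ => a χ + b χ) d
      have h2 : ∑ χ ∈ Finset.univ.erase χ₀, (a χ + b χ) ^ 2 ≤
          Fintype.card (Cfsg.IrrCharacter G) - 1 := by
        calc ∑ χ ∈ Finset.univ.erase χ₀, (a χ + b χ) ^ 2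
            ≤ ∑ χ ∈ Finset.univ.erase χ₀, 1 :=
              Finset.sum_le_sum (fun χ _ => by
                have h5 := hab1 χ
                calc (a χ + b χ) ^ 2 ≤ 1 ^ 2 := Nat.pow_le_pow_left h5 2
                  _ = 1 := one_pow 2)
          _ = Fintype.card (Cfsg.IrrCharacter G) - 1 := by
            rw [Finset.sum_const, smul_eq_mul, mul_one,
              Finset.card_erase_of_mem (Finset.mem_univ _), Finset.card_univ]
      calc t ^ 2 ≤ (∑ χ ∈ Finset.univ.erase χ₀, (a χ + b χ) * d χ) ^ 2 :=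
            Nat.pow_le_pow_left E1 2
        _ ≤ (∑ χ ∈ Finset.univ.erase χ₀, (a χ + b χ) ^ 2) *
            ∑ χ ∈ Finset.univ.erase χ₀, d χ ^ 2 := h1
        _ ≤ (Fintype.card (Cfsg.IrrCharacter G) - 1) * (Nat.card G - 1) := by
            rw [h3]
            exact Nat.mul_le_mul_right _ h2
    have hk : Fintype.card (Cfsg.IrrCharacter G) = Nat.card (ConjClasses G) := by
      rw [← Nat.card_eq_fintype_card]
      exact card_irr G
    have hsumC := sum_card_centralizer G
    rw [← Finset.add_sum_erase Finset.univ _ (Finset.mem_univ (1 : G)),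
      card_centralizer_one] at hsumC
    have hx : ∀ x ∈ Finset.univ.erase (1 : G),
        (Nat.card G - 1) ^ 2 * Nat.card (Subgroup.centralizer ({x} : Set G)) <
          Nat.card G * t ^ 2 := by
      intro x hx
      have hx1 : x ≠ 1 := Finset.ne_of_mem_erase hx
      have h1 := hcon x hx1
      have h2 := Subgroup.card_mul_index (Subgroup.centralizer ({x} : Set G))
      have htq : (0 : ℚ) < t := by exact_mod_cast ht1
      have h4 : ((Nat.card G : ℚ) - 1) ^ 2 <
          (Subgroup.centralizer ({x} : Set G)).index * (t : ℚ) ^ 2 := by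
        rw [div_pow, div_lt_iff₀ (by positivity)] at h1
        exact h1
      have hcpos : (0 : ℚ) < Nat.card (Subgroup.centralizer ({x} : Set G)) := by
        exact_mod_cast Nat.card_pos
      have h5 : (Nat.card G : ℚ) = Nat.card (Subgroup.centralizer ({x} : Set G)) *
          (Subgroup.centralizer ({x} : Set G)).index := by exact_mod_cast h2.symm
      have h6 : ((Nat.card G : ℚ) - 1) ^ 2 * Nat.card (Subgroup.centralizer ({x} : Set G)) <
          (Nat.card G : ℚ) * (t : ℚ) ^ 2 := by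
        have h7 := mul_lt_mul_of_pos_right h4 hcpos
        calc ((Nat.card G : ℚ) - 1) ^ 2 * Nat.card (Subgroup.centralizer ({x} : Set G))
            < (Subgroup.centralizer ({x} : Set G)).index * (t : ℚ) ^ 2 *
              Nat.card (Subgroup.centralizer ({x} : Set G)) := h7
          _ = (Nat.card G : ℚ) * (t : ℚ) ^ 2 := by rw [h5]; ring
      have h8 : (((Nat.card G - 1) ^ 2 * Nat.card (Subgroup.centralizer ({x} : Set G)) : ℕ) : ℚ) <
          ((Nat.card G * t ^ 2 : ℕ) : ℚ) := by
        push_cast [Nat.cast_sub (by omega : 1 ≤ Nat.card G)]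
        exact h6
      exact_mod_cast h8
    have hne : (Finset.univ.erase (1 : G)).Nonempty := by
      rw [← Finset.card_pos, Finset.card_erase_of_mem (Finset.mem_univ _), Finset.card_univ,
        ← Nat.card_eq_fintype_card]
      omega
    have hlt := Finset.sum_lt_sum_of_nonempty hne hx
    rw [← Finset.mul_sum, Finset.sum_const, smul_eq_mul,
      Finset.card_erase_of_mem (Finset.mem_univ _), Finset.card_univ,
      ← Nat.card_eq_fintype_card] at hlt
    have h7 : ∑ x ∈ Finset.univ.erase (1 : G), Nat.card (Subgroup.centralizer ({x} : Set G)) =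
        (Fintype.card (Cfsg.IrrCharacter G) - 1) * Nat.card G := by
      rw [hk]
      have hkpos : 1 ≤ Nat.card (ConjClasses G) := Nat.card_pos
      rw [Nat.sub_mul, one_mul]
      omega
    rw [h7] at hlt
    have h8 : (Nat.card G - 1) * (Nat.card G * t ^ 2) ≤ (Nat.card G - 1) *
        (Nat.card G * ((Fintype.card (Cfsg.IrrCharacter G) - 1) * (Nat.card G - 1))) :=
      Nat.mul_le_mul_left _ (Nat.mul_le_mul_left _ hCS)
    have h9 : (Nat.card G - 1) ^ 2 * ((Fintype.card (Cfsg.IrrCharacter G) - 1) * Nat.card G) =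
        (Nat.card G - 1) *
          (Nat.card G * ((Fintype.card (Cfsg.IrrCharacter G) - 1) * (Nat.card G - 1))) := by
      ring
    omega
  · by_contra hcon
    push Not at hcon
    have hterm : ∀ χ ∈ Finset.univ.erase χ₀,
        Nat.card G * ((a χ + b χ) * d χ) ≤ t * d χ ^ 2 := by
      intro χ hχ
      have hχ0 : χ ≠ χ₀ := Finset.ne_of_mem_erase hχ
      have hab1χ := hab1 χ
      rcases Nat.eq_zero_or_pos (a χ + b χ) with h0 | h0
      · rw [h0]
        simp
      · have h1 : a χ + b χ = 1 := by omega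
        have hne1 : (χ : G → ℂ) ≠ fun _ => 1 := by
          intro h
          apply hχ0
          apply Subtype.ext
          rw [h, hχ₀]
        have h2 := hcon χ hne1 (habr χ h1)
        rw [← hdef χ] at h2
        have htq : (0 : ℚ) < t := by exact_mod_cast ht1
        rw [div_lt_iff₀ htq] at h2
        have h4 : Nat.card G ≤ d χ * t := by
          have h5 : ((Nat.card G : ℕ) : ℚ) < ((d χ * t + 1 : ℕ) : ℚ) := by
            push_cast
            linarith
          have h6 : Nat.card G < d χ * t + 1 := by exact_mod_cast h5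
          omega
        rw [h1, one_mul]
        calc Nat.card G * d χ ≤ d χ * t * d χ := Nat.mul_le_mul_right _ h4
          _ = t * d χ ^ 2 := by ring
    have hs := Finset.sum_le_sum hterm
    rw [← Finset.mul_sum, ← Finset.mul_sum, h3] at hs
    have h4 : Nat.card G * t ≤
        Nat.card G * ∑ χ ∈ Finset.univ.erase χ₀, (a χ + b χ) * d χ :=
      Nat.mul_le_mul_left _ E1
    have h5 : t * (Nat.card G - 1) + t = Nat.card G * t := by
      have hgp : Nat.card G - 1 + 1 = Nat.card G := by omega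
      calc t * (Nat.card G - 1) + t = t * (Nat.card G - 1 + 1) := by ring
        _ = Nat.card G * t := by rw [hgp]; ring
    omega

end Cfsg.Agent.Lib.Lead
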