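import Mathlib
import Cfsg.Agent.Lib.Lead.CharOrbit
import Cfsg.Agent.Lib.Lead.CharCenter
import Cfsg.Agent.Lib.Lead.CharRing
import Cfsg.Agent.Lib.Lead.CharInt
import Cfsg.Agent.Lib.Lead.CharInd3

set_option autoImplicit false

namespace Cfsg.Agent.Lib.Lead

open scoped ComplexConjugate

/-- an irreducible constituent of a character is trivial wherever the character is -/
theorem constituent_ker {K : Type*} [Group K] [Fintype K] {ψ θ : K → ℂ}
    (hψ : Cfsg.IsCharacter K ψ) (hθ : Cfsg.IsIrrCharacter K θ)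
    (hne : Cfsg.classInner ψ θ ≠ 0) (b : K) (hb : ψ b = ψ 1) : θ b = θ 1 := by
  classical
  haveI := Fintype.ofFinite (Cfsg.IrrCharacter K)
  obtain ⟨n, hn, hn'⟩ := isCharacter_expansion hψ
  have h2 : ∀ x : K, (ψ x).re = ∑ χ : Cfsg.IrrCharacter K, (n χ : ℝ) * ((χ : K → ℂ) x).re := by
    intro x
    have h3 := congrFun hn x
    rw [Finset.sum_apply] at h3
    rw [h3, Complex.re_sum]
    apply Finset.sum_congr rfl
    intro χ _
    rw [Pi.smul_apply, smul_eq_mul]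
    simp
  have hsum : ∑ χ : Cfsg.IrrCharacter K,
      (n χ : ℝ) * (((χ : K → ℂ) 1).re - ((χ : K → ℂ) b).re) = 0 := by
    have h1 : (ψ 1).re - (ψ b).re = 0 := by rw [hb]; ring
    rw [← h1, h2 1, h2 b, ← Finset.sum_sub_distrib]
    apply Finset.sum_congr rfl
    intros; ring
  have hnonneg : ∀ χ ∈ (Finset.univ : Finset (Cfsg.IrrCharacter K)),
      0 ≤ (n χ : ℝ) * (((χ : K → ℂ) 1).re - ((χ : K → ℂ) b).re) := by
    intro χ _
    apply mul_nonneg (Nat.cast_nonneg _)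
    linarith [(irr_eq_one_of_re (isCharacter_of_isIrrCharacter χ.2) b).1]
  have h3 := (Finset.sum_eq_zero_iff_of_nonneg hnonneg).mp hsum ⟨θ, hθ⟩ (Finset.mem_univ _)
  have hnθ : (n ⟨θ, hθ⟩ : ℝ) ≠ 0 := by
    have h4 := hn' ⟨θ, hθ⟩
    intro h0
    apply hne
    rw [h4]
    exact_mod_cast h0
  rcases mul_eq_zero.mp h3 with h | h
  · exact absurd h hnθ
  · exact (irr_eq_one_of_re (isCharacter_of_isIrrCharacter hθ) b).2 (by linarith)

theorem degree_sq_central_bound {G : Type*} [Group G] [Finite G] (ψ : G → ℂ)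
    (hψ : Cfsg.IsIrrCharacter G ψ) (B C D : Subgroup G) (hDC : D ≤ C)
    (hcent : ∀ d ∈ D, ∀ c ∈ C, d * c * d⁻¹ * c⁻¹ ∈ B) (hker : ∀ b ∈ B, ψ b = ψ 1) :
    ‖ψ 1‖ ^ 2 * (Nat.card C : ℝ) * (Nat.card D : ℝ) ≤ (Nat.card G : ℝ) ^ 2 := by
  classical
  haveI := Fintype.ofFinite G
  haveI : Fintype C := Fintype.ofFinite _
  have hψc := isCharacter_of_isIrrCharacter hψ
  have hres : Cfsg.IsCharacter C (fun c : C => ψ c) := isCharacter_restrict C hψc
  obtain ⟨N, hN0, hN⟩ := irr_one hψ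
  have hres1 : (fun c : C => ψ c) 1 ≠ 0 := by
    show ψ ((1 : C) : G) ≠ 0
    rw [Subgroup.coe_one, hN]
    exact_mod_cast hN0
  obtain ⟨θ, hθ, hθne⟩ := exists_constituent hres hres1
  obtain ⟨m, hm0, hm⟩ := irr_one hθ
  have h5 : N ≤ C.index * m := by
    have hind := isCharacter_indFun C θ (isCharacter_of_isIrrCharacter hθ)
    have hne : Cfsg.classInner (Cfsg.indFun C θ) ψ ≠ 0 := by
      rw [frobenius_reciprocity C θ ψ (isClassFunction_of_irr hψ)]
      intro h0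
      apply hθne
      rw [← classInner_conj_symm, h0, map_zero]
    apply degree_le_of_constituent hind hψ hne N (C.index * m) hN
    rw [indFun_one, hm]
    push_cast
    ring
  have h2 : ∀ b : C, (b : G) ∈ B → θ b = θ 1 := by
    intro b hb
    apply constituent_ker hres hθ hθne b
    show ψ (b : G) = ψ ((1 : C) : G)
    rw [Subgroup.coe_one]
    exact hker b hb
  have hself := classInner_irr_self hθ
  obtain ⟨k, σ, hσ, hσθ⟩ := hθ
  haveI := hσ
  have hk : (Module.finrank ℂ (Fin k → ℂ) : ℂ) = (m : ℂ) := by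
    rw [← Representation.char_one σ, hσθ, hm]
  have hk' : (Module.finrank ℂ (Fin k → ℂ) : ℝ) = (m : ℝ) := by exact_mod_cast hk
  have h3 : ∀ d : C, (d : G) ∈ D → ‖θ d‖ = (m : ℝ) := by
    intro d hd
    rw [← hσθ, ← hk', norm_char_eq_iff]
    refine ⟨σ.character d / (Module.finrank ℂ (Fin k → ℂ) : ℂ), ?_⟩
    apply schur_scalar σ (σ d)
    intro c
    have h1 : σ (d * c * d⁻¹ * c⁻¹) = LinearMap.id := by
      rw [← char_eq_finrank_iff, ← Representation.char_one σ, hσθ]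
      exact h2 _ (hcent d hd c c.2)
    show σ d * σ c = σ c * σ d
    have h4 : σ d * σ c = σ (d * c * d⁻¹ * c⁻¹) * (σ c * σ d) := by
      rw [← map_mul, ← map_mul, ← map_mul]
      congr 1
      group
    rw [h4, h1]
    rfl
  have h4 : (m : ℝ) ^ 2 * (Nat.card D : ℝ) ≤ (Nat.card C : ℝ) := by
    have hsumC : ∑ c : C, ‖θ c‖ ^ 2 = (Nat.card C : ℝ) := by
      unfold Cfsg.classInner at hself
      have hC0 : (Nat.card C : ℂ) ≠ 0 := by exact_mod_cast Nat.card_pos.ne'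
      have h1 : ∑ c : C, θ c * conj (θ c) = (Nat.card C : ℂ) := by
        rw [inv_mul_eq_iff_eq_mul₀ hC0] at hself
        rw [hself, mul_one]
      have h6 : ((∑ c : C, ‖θ c‖ ^ 2 : ℝ) : ℂ) = (Nat.card C : ℂ) := by
        rw [← h1]
        push_cast
        apply Finset.sum_congr rfl
        intro c _
        rw [Complex.mul_conj, Complex.normSq_eq_norm_sq]
        push_cast
        rfl
      exact_mod_cast h6
    have hsub : ∑ c ∈ Finset.univ.filter (fun c : C => (c : G) ∈ D), ‖θ c‖ ^ 2 ≤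
        ∑ c : C, ‖θ c‖ ^ 2 :=
      Finset.sum_le_sum_of_subset_of_nonneg (Finset.filter_subset _ _)
        (fun _ _ _ => by positivity)
    have hcardD : (Finset.univ.filter (fun c : C => (c : G) ∈ D)).card = Nat.card D := by
      rw [← Fintype.card_subtype, ← Nat.card_eq_fintype_card]
      apply Nat.card_congr
      exact ⟨fun c => ⟨c.1.1, c.2⟩, fun d => ⟨⟨d.1, hDC d.2⟩, d.2⟩, fun c => rfl, fun d => rfl⟩
    have hfil : ∑ c ∈ Finset.univ.filter (fun c : C => (c : G) ∈ D), ‖θ c‖ ^ 2 =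
        (Nat.card D : ℝ) * (m : ℝ) ^ 2 := by
      rw [Finset.sum_congr rfl (fun c hc => by rw [h3 c (Finset.mem_filter.mp hc).2]),
        Finset.sum_const, nsmul_eq_mul, hcardD]
    rw [hsumC, hfil] at hsub
    linarith
  have hG : (Nat.card G : ℝ) = (C.index : ℝ) * (Nat.card C : ℝ) := by
    have h6 := Subgroup.card_mul_index C
    rw [← h6]
    push_cast
    ring
  have hNn : ‖ψ 1‖ = (N : ℝ) := by
    rw [hN]
    simp
  rw [hNn, hG]
  have h5' : (N : ℝ) ≤ (C.index : ℝ) * (m : ℝ) := by exact_mod_cast h5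
  have hCpos : (0 : ℝ) ≤ Nat.card C := by positivity
  have hDpos : (0 : ℝ) ≤ Nat.card D := by positivity
  have hNpos : (0 : ℝ) ≤ N := by positivity
  calc (N : ℝ) ^ 2 * (Nat.card C : ℝ) * (Nat.card D : ℝ)
      ≤ ((C.index : ℝ) * (m : ℝ)) ^ 2 * (Nat.card C : ℝ) * (Nat.card D : ℝ) := by gcongr
    _ = (C.index : ℝ) ^ 2 * (Nat.card C : ℝ) * ((m : ℝ) ^ 2 * (Nat.card D : ℝ)) := by ring
    _ ≤ (C.index : ℝ) ^ 2 * (Nat.card C : ℝ) * (Nat.card C : ℝ) := by gcongr
    _ = ((C.index : ℝ) * (Nat.card C : ℝ)) ^ 2 := by ring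

end Cfsg.Agent.Lib.Lead
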