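import Mathlib
import Cfsg.Agent.Lib.Lead.CharInt
import Cfsg.Agent.Lib.Lead.CharOrtho
import Cfsg.Agent.Lib.Lead.CharMisc

set_option autoImplicit false

namespace Cfsg.Agent.Lib.Lead

open scoped ComplexConjugate ComplexOrder
open Matrix

theorem conj_single_apply {n : ℕ} (A : Matrix (Fin n) (Fin n) ℂ) (k l i j : Fin n) :
    (Aᵀ * Matrix.single k l (1 : ℂ) * A) i j = A k i * A l j := by
  rw [Matrix.mul_apply, Finset.sum_eq_single l]
  · rw [Matrix.mul_single_apply_same]; simp [Matrix.transpose_apply]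
  · intro b _ hb
    rw [Matrix.mul_single_apply_of_ne _ _ _ _ _ hb, zero_mul]
  · intro h; exact absurd (Finset.mem_univ _) h

section
variable {G : Type*} [Group G] [Fintype G] {n : ℕ} (ρ : Representation ℂ G (Fin n → ℂ))

theorem toMatrix'_rho_mul (g h : G) : LinearMap.toMatrix' (ρ (g * h)) =
    LinearMap.toMatrix' (ρ g) * LinearMap.toMatrix' (ρ h) := by
  rw [map_mul, Module.End.mul_eq_comp, LinearMap.toMatrix'_comp]

theorem toMatrix'_rho_one : LinearMap.toMatrix' (ρ 1) = 1 := by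
  rw [map_one]; exact LinearMap.toMatrix'_one

theorem character_eq_trace (g : G) : ρ.character g = (LinearMap.toMatrix' (ρ g)).trace := by
  show LinearMap.trace ℂ _ (ρ g) = _
  rw [LinearMap.trace_eq_matrix_trace ℂ (Pi.basisFun ℂ (Fin n)), LinearMap.toMatrix_eq_toMatrix']

theorem matrix_schur [ρ.IsIrreducible] (C : Matrix (Fin n) (Fin n) ℂ)
    (hC : ∀ g, C * LinearMap.toMatrix' (ρ g) = LinearMap.toMatrix' (ρ g) * C) :
    C = (C.trace / (n : ℂ)) • (1 : Matrix (Fin n) (Fin n) ℂ) := by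
  have h1 := schur_scalar ρ (Matrix.toLin' C) (by
    intro g
    have h := congrArg Matrix.toLin' (hC g)
    rw [Matrix.toLin'_mul, Matrix.toLin'_mul, Matrix.toLin'_toMatrix'] at h
    exact h)
  have h3 : LinearMap.trace ℂ _ (Matrix.toLin' C) = C.trace := by
    rw [LinearMap.trace_eq_matrix_trace ℂ (Pi.basisFun ℂ (Fin n)),
      LinearMap.toMatrix_eq_toMatrix', LinearMap.toMatrix'_toLin']
  have h2 := congrArg LinearMap.toMatrix' h1
  rw [LinearMap.toMatrix'_toLin', map_smul, LinearMap.toMatrix'_id, h3,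
    Module.finrank_fin_fun] at h2
  exact h2

theorem fs_matrix [hirr : ρ.IsIrreducible] (hreal : ∀ g : G, (ρ.character g).im = 0) :
    ∃ M₀ : Matrix (Fin n) (Fin n) ℂ, M₀ ≠ 0 ∧
      (∀ g : G, (LinearMap.toMatrix' (ρ g)).transpose * M₀ * LinearMap.toMatrix' (ρ g) = M₀) ∧
      ∀ M : Matrix (Fin n) (Fin n) ℂ,
        (∀ g : G, (LinearMap.toMatrix' (ρ g)).transpose * M * LinearMap.toMatrix' (ρ g) = M) →
        M.transpose = ((Nat.card G : ℂ)⁻¹ * ∑ s : G, ρ.character (s * s)) • M ∧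
          (M ≠ 0 → M.det ≠ 0) := by
  classical
  obtain ⟨X, hX⟩ : ∃ X : G → Matrix (Fin n) (Fin n) ℂ,
      ∀ g, X g = LinearMap.toMatrix' (ρ g) := ⟨_, fun _ => rfl⟩
  simp only [← hX]
  have hXmul : ∀ g h, X (g * h) = X g * X h := by
    intro g h; rw [hX, hX, hX]; exact toMatrix'_rho_mul ρ g h
  have hXone : X 1 = 1 := by rw [hX]; exact toMatrix'_rho_one ρ
  have hXinv : ∀ g, X g⁻¹ * X g = 1 := by intro g; rw [← hXmul, inv_mul_cancel, hXone]
  have htr : ∀ g, ρ.character g = (X g).trace := by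
    intro g; rw [hX]; exact character_eq_trace ρ g
  have hG : (Nat.card G : ℂ) ≠ 0 := by exact_mod_cast Nat.card_pos.ne'
  have hsumsq : ∑ g : G, (X g).trace * (X g).trace = (Nat.card G : ℂ) := by
    have h1 := classInner_irr_self (χ := ρ.character) ⟨n, ρ, hirr, rfl⟩
    unfold Cfsg.classInner at h1
    have h2 : ∑ g : G, ρ.character g * conj (ρ.character g) = (Nat.card G : ℂ) := by
      field_simp at h1; exact h1
    rw [← h2]
    apply Finset.sum_congr rfl
    intro g _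
    rw [← htr, Complex.conj_eq_iff_im.mpr (hreal g)]
  -- the averaging operator
  have hΦinv : ∀ B : Matrix (Fin n) (Fin n) ℂ, ∀ h : G,
      (X h)ᵀ * (∑ g : G, (X g)ᵀ * B * X g) * X h = ∑ g : G, (X g)ᵀ * B * X g := by
    intro B h
    rw [Finset.mul_sum, Finset.sum_mul, ← Equiv.sum_comp (Equiv.mulRight h)
      (fun g => (X g)ᵀ * B * X g)]
    apply Finset.sum_congr rfl
    intro g _
    simp only [Equiv.coe_mulRight, hXmul, Matrix.transpose_mul, Matrix.mul_assoc]
  have hΦT : ∀ B : Matrix (Fin n) (Fin n) ℂ,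
      (∑ g : G, (X g)ᵀ * B * X g)ᵀ = ∑ g : G, (X g)ᵀ * Bᵀ * X g := by
    intro B
    rw [Matrix.transpose_sum]
    apply Finset.sum_congr rfl
    intro g _
    simp only [Matrix.transpose_mul, Matrix.transpose_transpose, Matrix.mul_assoc]
  have hentry : ∀ a b : Fin n, (∑ g : G, (X g)ᵀ * Matrix.single a b (1 : ℂ) * X g) b a =
      ∑ g : G, X g a b * X g b a := by
    intro a b
    rw [Matrix.sum_apply]
    apply Finset.sum_congr rfl
    intro g _
    rw [conj_single_apply]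
  have hentry' : ∀ a b : Fin n, (∑ g : G, (X g)ᵀ * Matrix.single b a (1 : ℂ) * X g) b a =
      ∑ g : G, X g b b * X g a a := by
    intro a b
    rw [Matrix.sum_apply]
    apply Finset.sum_congr rfl
    intro g _
    rw [conj_single_apply]
  have htrsq : ∀ g : G, (X g).trace * (X g).trace = ∑ a, ∑ b, X g b b * X g a a := by
    intro g
    simp only [Matrix.trace, Matrix.diag_apply, Finset.sum_mul, Finset.mul_sum]
  -- existence
  have hex : ∃ B : Matrix (Fin n) (Fin n) ℂ, (∑ g : G, (X g)ᵀ * B * X g) ≠ 0 := by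
    by_contra hcon
    push Not at hcon
    apply hG
    rw [← hsumsq, Finset.sum_congr rfl (fun g _ => htrsq g), Finset.sum_comm]
    apply Finset.sum_eq_zero
    intro a _
    rw [Finset.sum_comm]
    apply Finset.sum_eq_zero
    intro b _
    rw [← hentry' a b, hcon]
    rfl
  obtain ⟨B₀, hB₀⟩ := hex
  obtain ⟨M₀, hM₀def⟩ : ∃ M₀ : Matrix (Fin n) (Fin n) ℂ, M₀ = ∑ g : G, (X g)ᵀ * B₀ * X g :=
    ⟨_, rfl⟩
  rw [← hM₀def] at hB₀
  have hM₀inv : ∀ g : G, (X g)ᵀ * M₀ * X g = M₀ := by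
    intro g; rw [hM₀def]; exact hΦinv B₀ g
  have hn0 : (n : ℂ) ≠ 0 := by
    have h0 : n ≠ 0 := by
      rintro rfl
      apply hB₀
      ext i j
      exact i.elim0
    exact_mod_cast h0
  have hMX : ∀ M : Matrix (Fin n) (Fin n) ℂ, (∀ g : G, (X g)ᵀ * M * X g = M) →
      ∀ h : G, M * X h = (X h⁻¹)ᵀ * M := by
    intro M hM h
    have h1 := hM h⁻¹
    calc M * X h = ((X h⁻¹)ᵀ * M * X h⁻¹) * X h := by rw [h1]
      _ = (X h⁻¹)ᵀ * M * (X h⁻¹ * X h) := by simp only [Matrix.mul_assoc]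
      _ = (X h⁻¹)ᵀ * M := by rw [hXinv, Matrix.mul_one]
  have hstar : ∀ M : Matrix (Fin n) (Fin n) ℂ, (∀ g : G, (X g)ᵀ * M * X g = M) →
      ∀ B : Matrix (Fin n) (Fin n) ℂ, (∑ g : G, X g * B * (X g)ᵀ) * M =
        ((Nat.card G : ℂ) * (B * M).trace / (n : ℂ)) • (1 : Matrix (Fin n) (Fin n) ℂ) := by
    intro M hM B
    have hcomm : ∀ h : G, (∑ g : G, X g * B * (X g)ᵀ) * M * X h =
        X h * ((∑ g : G, X g * B * (X g)ᵀ) * M) := by
      intro h
      rw [Matrix.mul_assoc, hMX M hM h, Finset.sum_mul, Finset.sum_mul, Finset.mul_sum,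
        ← Equiv.sum_comp (Equiv.mulLeft h)
          (fun g => X g * B * (X g)ᵀ * ((X h⁻¹)ᵀ * M))]
      apply Finset.sum_congr rfl
      intro g _
      have e1 : (X h)ᵀ * (X h⁻¹)ᵀ = 1 := by
        rw [← Matrix.transpose_mul, hXinv, Matrix.transpose_one]
      calc X (h * g) * B * (X (h * g))ᵀ * ((X h⁻¹)ᵀ * M)
          = X h * (X g * B * (X g)ᵀ) * ((X h)ᵀ * (X h⁻¹)ᵀ) * M := by
            rw [hXmul, Matrix.transpose_mul]; simp only [Matrix.mul_assoc]
        _ = X h * (X g * B * (X g)ᵀ * M) := by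
            rw [e1, Matrix.mul_one, Matrix.mul_assoc]
    have hsch := matrix_schur ρ ((∑ g : G, X g * B * (X g)ᵀ) * M)
      (fun g => by rw [← hX]; exact hcomm g)
    have htrC : ((∑ g : G, X g * B * (X g)ᵀ) * M).trace =
        (Nat.card G : ℂ) * (B * M).trace := by
      rw [Finset.sum_mul, Matrix.trace_sum]
      have h1 : ∀ g : G, (X g * B * (X g)ᵀ * M).trace = (B * M).trace := by
        intro g
        calc (X g * B * (X g)ᵀ * M).trace = (X g * (B * ((X g)ᵀ * M))).trace := by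
              simp only [Matrix.mul_assoc]
          _ = (B * ((X g)ᵀ * M) * X g).trace := Matrix.trace_mul_comm _ _
          _ = (B * ((X g)ᵀ * M * X g)).trace := by simp only [Matrix.mul_assoc]
          _ = (B * M).trace := by rw [hM g]
      rw [Finset.sum_congr rfl (fun g _ => h1 g), Finset.sum_const, Finset.card_univ,
        nsmul_eq_mul, ← Nat.card_eq_fintype_card]
    rw [htrC] at hsch
    exact hsch
  -- the special matrix T with T * M₀ = c
  obtain ⟨T, hTdef⟩ : ∃ T : Matrix (Fin n) (Fin n) ℂ,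
      T = ∑ g : G, X g * M₀ᴴ * (X g)ᵀ := ⟨_, rfl⟩
  obtain ⟨c, hcdef⟩ : ∃ c : ℂ, c = (Nat.card G : ℂ) * (M₀ᴴ * M₀).trace / (n : ℂ) := ⟨_, rfl⟩
  have hc0 : c ≠ 0 := by
    rw [hcdef]
    apply div_ne_zero (mul_ne_zero hG _) hn0
    intro h0
    exact hB₀ (Matrix.trace_conjTranspose_mul_self_eq_zero_iff.mp h0)
  have hTM : T * M₀ = c • (1 : Matrix (Fin n) (Fin n) ℂ) := by
    rw [hTdef, hcdef]; exact hstar M₀ hM₀inv M₀ᴴ
  have hMT : M₀ * (c⁻¹ • T) = 1 := by
    have h1 : (c⁻¹ • T) * M₀ = 1 := by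
      rw [Matrix.smul_mul, hTM, smul_smul, inv_mul_cancel₀ hc0, one_smul]
    exact (Matrix.mul_eq_one_comm_of_card_eq (Fin n) (Fin n) ℂ rfl).mp h1
  have hdet₀ : M₀.det ≠ 0 := by
    intro h0
    have h1 := congrArg Matrix.det hMT
    rw [Matrix.det_mul, h0, zero_mul, Matrix.det_one] at h1
    exact zero_ne_one h1
  have hprop : ∀ M : Matrix (Fin n) (Fin n) ℂ, (∀ g : G, (X g)ᵀ * M * X g = M) →
      ∃ lam : ℂ, M = lam • M₀ := by
    intro M hM
    have h1 : T * M = ((Nat.card G : ℂ) * (M₀ᴴ * M).trace / (n : ℂ)) •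
        (1 : Matrix (Fin n) (Fin n) ℂ) := by
      rw [hTdef]; exact hstar M hM M₀ᴴ
    refine ⟨c⁻¹ * ((Nat.card G : ℂ) * (M₀ᴴ * M).trace / (n : ℂ)), ?_⟩
    calc M = (M₀ * (c⁻¹ • T)) * M := by rw [hMT, Matrix.one_mul]
      _ = c⁻¹ • (M₀ * (T * M)) := by
          rw [Matrix.mul_smul, Matrix.smul_mul, Matrix.mul_assoc]
      _ = (c⁻¹ * ((Nat.card G : ℂ) * (M₀ᴴ * M).trace / (n : ℂ))) • M₀ := by
          rw [h1, Matrix.mul_smul, Matrix.mul_one, smul_smul]
  have hTinv : ∀ M : Matrix (Fin n) (Fin n) ℂ, (∀ g : G, (X g)ᵀ * M * X g = M) →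
      ∀ g : G, (X g)ᵀ * Mᵀ * X g = Mᵀ := by
    intro M hM g
    have h1 := congrArg Matrix.transpose (hM g)
    refine Eq.trans ?_ h1
    simp only [Matrix.transpose_mul, Matrix.transpose_transpose, Matrix.mul_assoc]
  obtain ⟨ε, hε⟩ := hprop M₀ᵀ (hTinv M₀ hM₀inv)
  have hall : ∀ M : Matrix (Fin n) (Fin n) ℂ, (∀ g : G, (X g)ᵀ * M * X g = M) →
      Mᵀ = ε • M := by
    intro M hM
    obtain ⟨lam, hlam⟩ := hprop M hM
    rw [hlam, Matrix.transpose_smul, hε, smul_smul, smul_smul, mul_comm]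
  have hFS : ∑ g : G, (X g * X g).trace = ε * ∑ g : G, (X g).trace * (X g).trace := by
    have h1 : ∀ a b : Fin n, ∑ g : G, X g a b * X g b a = ε * ∑ g : G, X g b b * X g a a := by
      intro a b
      have h2 := hall _ (hΦinv (Matrix.single b a (1 : ℂ)))
      rw [hΦT, Matrix.transpose_single] at h2
      have h3 := congrFun (congrFun h2 b) a
      rw [hentry a b, Matrix.smul_apply, hentry' a b, smul_eq_mul] at h3
      exact h3
    calc ∑ g : G, (X g * X g).trace = ∑ g : G, ∑ a, ∑ b, X g a b * X g b a := by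
          apply Finset.sum_congr rfl; intro g _
          simp only [Matrix.trace, Matrix.diag_apply, Matrix.mul_apply]
      _ = ∑ a, ∑ b, ∑ g : G, X g a b * X g b a := by
          rw [Finset.sum_comm]; apply Finset.sum_congr rfl; intro a _; rw [Finset.sum_comm]
      _ = ∑ a, ∑ b, ε * ∑ g : G, X g b b * X g a a := by
          apply Finset.sum_congr rfl; intro a _
          apply Finset.sum_congr rfl; intro b _; exact h1 a b
      _ = ε * ∑ a, ∑ b, ∑ g : G, X g b b * X g a a := by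
          simp only [Finset.mul_sum]
      _ = ε * ∑ g : G, ∑ a, ∑ b, X g b b * X g a a := by
          congr 1
          symm
          rw [Finset.sum_comm]; apply Finset.sum_congr rfl; intro a _; rw [Finset.sum_comm]
      _ = ε * ∑ g : G, (X g).trace * (X g).trace := by
          congr 1
          apply Finset.sum_congr rfl; intro g _; rw [htrsq g]
  have hν : (Nat.card G : ℂ)⁻¹ * ∑ s : G, ρ.character (s * s) = ε := by
    have h1 : ∑ s : G, ρ.character (s * s) = ∑ g : G, (X g * X g).trace := by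
      apply Finset.sum_congr rfl; intro g _; rw [htr, hXmul]
    rw [h1, hFS, hsumsq]
    field_simp
  refine ⟨M₀, hB₀, hM₀inv, ?_⟩
  intro M hM
  refine ⟨by rw [hν]; exact hall M hM, ?_⟩
  intro hMne
  obtain ⟨lam, hlam⟩ := hprop M hM
  have hlam0 : lam ≠ 0 := by
    rintro rfl
    apply hMne
    rw [hlam, zero_smul]
  rw [hlam, Matrix.det_smul]
  exact mul_ne_zero (pow_ne_zero _ hlam0) hdet₀

end

end Cfsg.Agent.Lib.Lead

namespace Cfsg.Agent.Lib.Lead

open Matrix in
theorem fs_odd_degree {G : Type*} [Group G] [Fintype G] (χ : G → ℂ)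
    (hχ : Cfsg.IsIrrCharacter G χ) (hreal : ∀ g : G, (χ g).im = 0) (d : ℕ) (hd : χ 1 = d)
    (hodd : Odd d) : (Nat.card G : ℂ)⁻¹ * ∑ s : G, χ (s * s) = 1 := by
  obtain ⟨n, ρ, hirr, rfl⟩ := hχ
  haveI := hirr
  obtain ⟨M₀, hM₀, hinv, hall⟩ := fs_matrix ρ hreal
  obtain ⟨hT, hdet⟩ := hall M₀ hinv
  have hdet0 := hdet hM₀
  obtain ⟨ν, hν⟩ : ∃ ν : ℂ, ν = (Nat.card G : ℂ)⁻¹ * ∑ s : G, ρ.character (s * s) := ⟨_, rfl⟩
  rw [← hν] at hT ⊢
  have hn : n = d := by
    rw [Representation.char_one, Module.finrank_fin_fun] at hd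
    exact_mod_cast hd
  have h1 := congrArg Matrix.det hT
  rw [Matrix.det_transpose, Matrix.det_smul, Fintype.card_fin] at h1
  have h2 : ν ^ n = 1 := by
    have h7 : ν ^ n * M₀.det = 1 * M₀.det := by rw [one_mul]; exact h1.symm
    exact mul_right_cancel₀ hdet0 h7
  have h3 : ν ^ 2 = 1 := by
    have h4 : M₀ = (ν * ν) • M₀ := by
      have h8 := congrArg Matrix.transpose hT
      rw [Matrix.transpose_transpose, Matrix.transpose_smul, hT, smul_smul] at h8
      exact h8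
    obtain ⟨i, j, hij⟩ : ∃ i j, M₀ i j ≠ 0 := by
      by_contra hcon
      push Not at hcon
      apply hM₀
      ext i j
      exact hcon i j
    have h5 := congrFun (congrFun h4 i) j
    rw [Matrix.smul_apply, smul_eq_mul] at h5
    have h6 : (ν * ν) * M₀ i j = 1 * M₀ i j := by rw [one_mul]; exact h5.symm
    rw [pow_two]; exact mul_right_cancel₀ hij h6
  rw [hn] at h2
  obtain ⟨k, hk⟩ := hodd
  rw [hk, pow_succ, pow_mul, h3, one_pow, one_mul] at h2
  exact h2

end Cfsg.Agent.Lib.Lead
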