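import Mathlib
import Cfsg.Prelude.Def_Characters
import Cfsg.Agent.Lib.Lead.CharQuot
import Cfsg.Agent.Lib.Helper3.PGroup

set_option autoImplicit false

namespace Cfsg.Agent.Lib.Lead

open scoped ComplexConjugate

section faithful

variable {G : Type*} [Group G]

/-- In a group with cyclic centre of `p`-power order, a nontrivial normal subgroup of a `p`-group
contains every central element of order `p`. -/
theorem central_order_p_mem_normal [Finite G] (p : ℕ) [Fact p.Prime] (hG : IsPGroup p G)
    [IsCyclic (Subgroup.center G)] (z₀ : Subgroup.center G) (hz₀ : orderOf z₀ = p)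
    (N : Subgroup G) [N.Normal] (hNbot : N ≠ ⊥) : (z₀ : G) ∈ N := by
  classical
  haveI : Fintype (Subgroup.center G) := Fintype.ofFinite _
  have hp : p.Prime := Fact.out
  obtain ⟨x, hxN, hx1, hxZ⟩ := Cfsg.Agent.Lib.Helper3.exists_ne_one_mem_center_of_normal hG N hNbot
  -- Cauchy in N ⊓ Z
  have hNZp : IsPGroup p ↥(N ⊓ Subgroup.center G) := hG.to_subgroup _
  have hpdvd : p ∣ Nat.card ↥(N ⊓ Subgroup.center G) := by
    obtain ⟨k, hk⟩ := IsPGroup.iff_card.mp hNZp
    rw [hk]
    have hk0 : k ≠ 0 := by
      rintro rfl
      rw [pow_zero] at hk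
      have hbot : N ⊓ Subgroup.center G = ⊥ := Subgroup.card_eq_one.mp hk
      have hxmem : x ∈ N ⊓ Subgroup.center G := ⟨hxN, hxZ⟩
      rw [hbot, Subgroup.mem_bot] at hxmem
      exact hx1 hxmem
    exact dvd_pow_self p hk0
  obtain ⟨y, hy⟩ := exists_prime_orderOf_dvd_card' p hpdvd
  -- y as an element of the centre
  let y' : Subgroup.center G := ⟨(y : G), y.2.2⟩
  have hy' : orderOf y' = p := by
    rw [← hy, ← Subgroup.orderOf_coe y, ← Subgroup.orderOf_coe y']
  have hS : (Finset.univ.filter (fun a : Subgroup.center G => a ^ p = 1)).card ≤ p :=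
    IsCyclic.card_pow_eq_one_le hp.pos
  have hT : (Finset.univ.filter (fun a : Subgroup.center G => a ∈ Subgroup.zpowers y')).card = p := by
    rw [← Fintype.card_subtype, ← Nat.card_eq_fintype_card]
    exact (Nat.card_zpowers y').trans hy'
  have hTS : Finset.univ.filter (fun a : Subgroup.center G => a ∈ Subgroup.zpowers y') ⊆
      Finset.univ.filter (fun a : Subgroup.center G => a ^ p = 1) := by
    intro a ha
    rw [Finset.mem_filter] at ha ⊢
    refine ⟨Finset.mem_univ _, ?_⟩
    obtain ⟨i, rfl⟩ := Subgroup.mem_zpowers_iff.mp ha.2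
    rw [← zpow_natCast, ← zpow_mul, mul_comm, zpow_mul, zpow_natCast, ← hy', pow_orderOf_eq_one,
      one_zpow]
  have hTS' := Finset.eq_of_subset_of_card_le hTS (by rw [hT]; exact hS)
  have hz₀S : z₀ ∈ Finset.univ.filter (fun a : Subgroup.center G => a ^ p = 1) := by
    rw [Finset.mem_filter]
    exact ⟨Finset.mem_univ _, by rw [← hz₀]; exact pow_orderOf_eq_one z₀⟩
  rw [← hTS', Finset.mem_filter] at hz₀S
  obtain ⟨i, hi⟩ := Subgroup.mem_zpowers_iff.mp hz₀S.2
  have h1 : (z₀ : G) = (y : G) ^ i := by
    rw [← hi]
    rfl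
  rw [h1]
  exact N.zpow_mem y.2.1 i

/-- A finite `p`-group has a faithful irreducible representation iff its centre is cyclic. -/
theorem faithful_irr_iff_center_cyclic [Finite G] (p : ℕ) [Fact p.Prime] (hG : IsPGroup p G) :
    (∃ (n : ℕ) (ρ : Representation ℂ G (Fin n → ℂ)), ρ.IsIrreducible ∧ Function.Injective ρ) ↔
      IsCyclic (Subgroup.center G) := by
  classical
  haveI : Fintype G := Fintype.ofFinite G
  have hp : p.Prime := Fact.out
  constructor
  · rintro ⟨n, ρ, hirr, hinj⟩
    haveI := hirr
    have hfin : Module.finrank ℂ (Fin n → ℂ) = n := by simp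
    have hn0 : (n : ℂ) ≠ 0 := by
      have := finrank_pos_of_irr ρ
      rw [hfin] at this
      exact_mod_cast this.ne'
    have hscal : ∀ z : Subgroup.center G,
        ρ z = (ρ.character z / (n : ℂ)) • (LinearMap.id : (Fin n → ℂ) →ₗ[ℂ] (Fin n → ℂ)) := by
      intro z
      have := schur_scalar ρ (ρ z) (fun g => by
        have h1 : ρ z * ρ g = ρ g * ρ z := by
          rw [← map_mul, ← map_mul, Subgroup.mem_center_iff.mp z.2 g]
        exact h1)
      rw [hfin] at this
      exact this
    have htr : ∀ c : ℂ, LinearMap.trace ℂ (Fin n → ℂ)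
        (c • (LinearMap.id : (Fin n → ℂ) →ₗ[ℂ] (Fin n → ℂ))) = c * n := by
      intro c
      rw [map_smul, LinearMap.trace_id, hfin, smul_eq_mul]
    let f : Subgroup.center G →* ℂ :=
      { toFun := fun z => ρ.character z / (n : ℂ)
        map_one' := by
          show ρ.character ((1 : Subgroup.center G) : G) / (n : ℂ) = 1
          rw [Subgroup.coe_one, Representation.char_one, hfin]
          exact div_self hn0
        map_mul' := by
          intro z w
          show ρ.character ((z * w : Subgroup.center G) : G) / (n : ℂ) =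
            ρ.character z / n * (ρ.character w / n)
          have h1 : ρ ((z * w : Subgroup.center G) : G) =
              ((ρ.character z / n) * (ρ.character w / n)) •
                (LinearMap.id : (Fin n → ℂ) →ₗ[ℂ] (Fin n → ℂ)) := by
            rw [Subgroup.coe_mul, map_mul, hscal z, hscal w]
            apply LinearMap.ext
            intro v
            simp only [Module.End.mul_apply, LinearMap.smul_apply, LinearMap.id_apply, mul_smul]
          have h2 : ρ.character ((z * w : Subgroup.center G) : G) =
              ((ρ.character z / n) * (ρ.character w / n)) * n := by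
            show LinearMap.trace ℂ (Fin n → ℂ) (ρ ((z * w : Subgroup.center G) : G)) = _
            rw [h1, htr]
          rw [h2]
          field_simp }
    have hf : Function.Injective f := by
      intro z w hzw
      have h1 : ρ.character z / (n : ℂ) = ρ.character w / (n : ℂ) := hzw
      apply Subtype.ext
      apply hinj
      rw [hscal z, hscal w, h1]
    exact isCyclic_of_injective_ringHom f hf
  · intro hcyc
    haveI := hcyc
    by_cases htriv : Subsingleton G
    · refine ⟨1, Representation.trivial ℂ G (Fin 1 → ℂ),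
        isIrreducible_of_finrank_eq_one _ (by simp), fun a b _ => Subsingleton.elim a b⟩
    · haveI : Nontrivial G := not_subsingleton_iff_nontrivial.mp htriv
      have hZnt : Nontrivial (Subgroup.center G) := hG.center_nontrivial
      have hpZ : p ∣ Nat.card (Subgroup.center G) := by
        obtain ⟨k, hk⟩ := IsPGroup.iff_card.mp (hG.to_subgroup (Subgroup.center G))
        rw [hk]
        have hk0 : k ≠ 0 := by
          rintro rfl
          rw [pow_zero] at hk
          exact (Finite.one_lt_card_iff_nontrivial.mpr hZnt).ne' hk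
        exact dvd_pow_self p hk0
      obtain ⟨z₀, hz₀⟩ := exists_prime_orderOf_dvd_card' p hpZ
      have hz₀1 : (z₀ : G) ≠ 1 := by
        intro h
        have h1 : z₀ = 1 := Subtype.ext h
        rw [h1, orderOf_one] at hz₀
        exact hp.one_lt.ne' hz₀.symm
      have hnc : ¬ IsConj (z₀ : G) 1 := fun h => hz₀1 (isConj_one_left.mp h)
      rw [isConj_iff_irr] at hnc
      have hex : ∃ χ : Cfsg.IrrCharacter G, (χ : G → ℂ) (z₀ : G) ≠ (χ : G → ℂ) 1 := by
        by_contra hcon
        apply hnc
        intro χ
        by_contra h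
        exact hcon ⟨χ, h⟩
      obtain ⟨χ, hχ⟩ := hex
      obtain ⟨n, ρ, hirr, hρ⟩ := χ.2
      refine ⟨n, ρ, hirr, ?_⟩
      have hker : MonoidHom.ker ρ = ⊥ := by
        by_contra hne
        have h1 := central_order_p_mem_normal p hG z₀ hz₀ (MonoidHom.ker ρ) hne
        rw [MonoidHom.mem_ker] at h1
        apply hχ
        rw [← hρ]
        unfold Representation.character
        rw [h1, map_one ρ]
      exact (MonoidHom.ker_eq_bot_iff ρ).mp hker

end faithful

end Cfsg.Agent.Lib.Lead
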