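import Mathlib
import Cfsg.Agent.Lib.Lead.CharNormal
import Cfsg.Agent.Lib.Lead.CharPerm
import Cfsg.Agent.Lib.Lead.CharCenter
import Cfsg.Agent.Lib.Lead.CharRing
import Cfsg.Agent.Lib.Lead.CharBurnside
import Cfsg.Agent.Lib.Lead.GlaubClass

set_option autoImplicit false

namespace Cfsg.Agent.Lib.Lead

open scoped ComplexConjugate

variable {G : Type*} [Group G]

/-- Nonprincipal irreducible characters of a normal subgroup containing the centralizers of its
nonidentity elements induce irreducibly. -/
theorem frobker_indFun_irr [Fintype G] (K : Subgroup G) [hKn : K.Normal]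
    (hC : ∀ n ∈ K, n ≠ 1 → Subgroup.centralizer ({n} : Set G) ≤ K) (τ : K → ℂ)
    (hτ : Cfsg.IsIrrCharacter K τ) (hτ1 : τ ≠ fun _ => 1) :
    Cfsg.IsIrrCharacter G (Cfsg.indFun K τ) := by
  classical
  haveI : Fintype K := Fintype.ofFinite _
  apply isIrrCharacter_of_norm_one (isCharacter_indFun K τ (isCharacter_of_isIrrCharacter hτ))
  have h1 := classInner_indFun_normal K τ τ hτ hτ
  have hne : (Nat.card K : ℂ) ≠ 0 := by exact_mod_cast Nat.card_pos.ne'
  have hτcl : ∀ g h : K, τ (h * g * h⁻¹) = τ g := isClassFunction_of_irr hτ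
  have hcard : Nat.card {g : G // τ = τ ∘ conjHom K g} = Nat.card K := by
    apply Nat.card_congr
    refine Equiv.subtypeEquivRight ?_
    intro g
    constructor
    · intro hg
      by_contra hgK
      let α : K ≃* K := MulEquiv.ofBijective (conjHom K g)
        ⟨(Finite.injective_iff_surjective).mpr (conjHom_surjective K g), conjHom_surjective K g⟩
      have hb := brauer_perm_aut α
      have hfixC : ∀ C : ConjClasses K, ConjClasses.map α.toMonoidHom C = C → C = 1 := by
        intro C hC'
        obtain ⟨k, rfl⟩ := ConjClasses.mk_surjective C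
        change ConjClasses.mk (α k) = ConjClasses.mk k at hC'
        rw [ConjClasses.mk_eq_mk_iff_isConj, isConj_iff] at hC'
        obtain ⟨x, hx⟩ := hC'
        have hx' : (x : G) * (g * (k : G) * g⁻¹) * (x : G)⁻¹ = k := congrArg Subtype.val hx
        have hcomm : ((x : G) * g) * k = k * ((x : G) * g) := by
          have e : ((x : G) * g) * k = ((x : G) * (g * (k : G) * g⁻¹) * (x : G)⁻¹) * ((x : G) * g) := by
            group
          rw [e, hx']
        have hxg : (x : G) * g ∉ K := by
          intro hmem
          apply hgK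
          have := K.mul_mem (K.inv_mem x.2) hmem
          simpa using this
        have hk1 : (k : G) = 1 := by
          by_contra hk1
          apply hxg
          apply hC k k.2 hk1
          rw [Subgroup.mem_centralizer_iff]
          intro z hz
          rw [Set.mem_singleton_iff] at hz
          subst hz
          exact hcomm.symm
        have : k = 1 := Subtype.ext hk1
        rw [this]; rfl
      have hcardC : Nat.card {C : ConjClasses K // ConjClasses.map α.toMonoidHom C = C} ≤ 1 := by
        rw [Finite.card_le_one_iff_subsingleton]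
        constructor
        intro a b
        exact Subtype.ext ((hfixC a a.2).trans (hfixC b b.2).symm)
      rw [hb] at hcardC
      rw [Finite.card_le_one_iff_subsingleton] at hcardC
      have h2 : (⟨⟨τ, hτ⟩, hg.symm⟩ : {χ : Cfsg.IrrCharacter K // (χ : K → ℂ) ∘ α = (χ : K → ℂ)}) =
          ⟨⟨fun _ => 1, isIrrCharacter_one K⟩, rfl⟩ := hcardC.elim _ _
      exact hτ1 (congrArg (fun z => (z.1 : K → ℂ)) h2)
    · intro hg
      funext k
      exact (hτcl k ⟨g, hg⟩).symm
  rw [hcard] at h1
  field_simp at h1
  exact h1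

/-- An irreducible character whose kernel does not contain a "Frobenius kernel" `N` is induced
from an irreducible character of `N`. -/
theorem frobker_irr_induced [Fintype G] (N : Subgroup G) [N.Normal]
    (hC : ∀ n ∈ N, n ≠ 1 → Subgroup.centralizer ({n} : Set G) ≤ N) (χ : G → ℂ)
    (hχ : Cfsg.IsIrrCharacter G χ) (hker : ∃ n ∈ N, χ n ≠ χ 1) :
    ∃ φ : N → ℂ, Cfsg.IsIrrCharacter N φ ∧ χ = Cfsg.indFun N φ := by
  classical
  haveI : Fintype N := Fintype.ofFinite _
  haveI : Fintype (Cfsg.IrrCharacter N) := Fintype.ofFinite _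
  have hres : Cfsg.IsCharacter N (fun n : N => χ n) :=
    isCharacter_restrict N (isCharacter_of_isIrrCharacter hχ)
  have hex : ∃ φ : N → ℂ, Cfsg.IsIrrCharacter N φ ∧ φ ≠ (fun _ => 1) ∧
      Cfsg.classInner (fun n : N => χ n) φ ≠ 0 := by
    by_contra hcon
    have hcon' : ∀ φ : Cfsg.IrrCharacter N, (φ : N → ℂ) ≠ (fun _ => 1) →
        Cfsg.classInner (fun n : N => χ n) φ = 0 := by
      intro φ hφ
      by_contra h
      exact hcon ⟨φ.1, φ.2, hφ, h⟩
    have hexp := classFunction_expansion_sum (fun n : N => χ n)
      (isClassFunction_of_isCharacter hres)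
    have h1 : ∀ n : N, χ n = Cfsg.classInner (fun n : N => χ n) (fun _ => 1) := by
      intro n
      have h2 := congrFun hexp n
      rw [Finset.sum_apply, Finset.sum_eq_single
        (⟨fun _ => 1, isIrrCharacter_one N⟩ : Cfsg.IrrCharacter N)] at h2
      · simpa using h2
      · intro φ _ hφ
        have : (φ : N → ℂ) ≠ fun _ => 1 := fun h => hφ (Subtype.ext h)
        rw [hcon' φ this]; simp
      · intro h; exact absurd (Finset.mem_univ _) h
    obtain ⟨n, hn, hne⟩ := hker
    apply hne
    have h3 := h1 ⟨n, hn⟩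
    have h4 := h1 1
    rw [Subgroup.coe_one] at h4
    exact h3.trans h4.symm
  obtain ⟨φ, hφ, hφ1, hinner⟩ := hex
  refine ⟨φ, hφ, ?_⟩
  have hirr := frobker_indFun_irr N hC φ hφ hφ1
  have h1 := classInner_irr hirr hχ
  have h2 := frobenius_reciprocity N φ χ (isClassFunction_of_irr hχ)
  by_contra hne
  rw [if_neg (fun h => hne h.symm)] at h1
  rw [h1] at h2
  apply hinner
  rw [← classInner_conj_symm, ← h2, map_zero]

end Cfsg.Agent.Lib.Lead
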