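import Mathlib
import Cfsg.Agent.Lib.Lead.CharInd
import Cfsg.Agent.Lib.Lead.CharMisc

set_option autoImplicit false

namespace Cfsg.Agent.Lib.Lead

/-- the fibres of the quotient map have the size of the subgroup -/
theorem card_fiber_mk' {G : Type*} [Group G] (A : Subgroup G) [A.Normal] (q : G ⧸ A) :
    Nat.card {x : G // QuotientGroup.mk' A x = q} = Nat.card A := by
  obtain ⟨x₀, rfl⟩ := QuotientGroup.mk'_surjective A q
  apply Nat.card_congr
  refine ⟨fun x => ⟨x₀⁻¹ * x.1, ?_⟩, fun a => ⟨x₀ * a.1, ?_⟩, ?_, ?_⟩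
  · have := x.2
    exact QuotientGroup.eq.mp this.symm
  · show QuotientGroup.mk' A (x₀ * a.1) = QuotientGroup.mk' A x₀
    have h1 : QuotientGroup.mk' A (a : G) = 1 := (QuotientGroup.eq_one_iff a.1).mpr a.2
    rw [map_mul, h1, mul_one]
  · intro x; apply Subtype.ext; show x₀ * (x₀⁻¹ * x.1) = x.1; group
  · intro a; apply Subtype.ext; show x₀⁻¹ * (x₀ * a.1) = a.1; group

theorem card_eq_card_map_mk_mul {G : Type*} [Group G] [Finite G] (A H : Subgroup G) [A.Normal]
    (hAH : A ≤ H) : Nat.card H = Nat.card ↥(H.map (QuotientGroup.mk' A)) * Nat.card A := by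
  have h1 : (H.map (QuotientGroup.mk' A)).comap (QuotientGroup.mk' A) = H := by
    apply Subgroup.comap_map_eq_self
    rw [QuotientGroup.ker_mk']; exact hAH
  have h2 : ((H.map (QuotientGroup.mk' A)).comap (QuotientGroup.mk' A)).index =
      (H.map (QuotientGroup.mk' A)).index :=
    Subgroup.index_comap_of_surjective _ (QuotientGroup.mk'_surjective A)
  rw [h1] at h2
  have h3 := Subgroup.card_mul_index H
  have h4 := Subgroup.card_mul_index (H.map (QuotientGroup.mk' A))
  have h5 : Nat.card G = Nat.card (G ⧸ A) * Nat.card A :=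
    Subgroup.card_eq_card_quotient_mul_card_subgroup A
  have hpos : 0 < H.index := Nat.pos_of_ne_zero Subgroup.index_ne_zero_of_finite
  apply Nat.eq_of_mul_eq_mul_right hpos
  rw [h3, h5, ← h4, h2]; ring

/-- induction commutes with inflation -/
theorem indFun_inflation {G : Type*} [Group G] [Fintype G] (A H : Subgroup G) [A.Normal]
    (hAH : A ≤ H) [Fintype (G ⧸ A)] [Fintype ↥(H.map (QuotientGroup.mk' A))] (θ : H → ℂ)
    (θ₁ : ↥(H.map (QuotientGroup.mk' A)) → ℂ)
    (hθ : ∀ x : H, θ₁ ⟨QuotientGroup.mk' A x, Subgroup.mem_map_of_mem _ x.2⟩ = θ x) (g : G) :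
    Cfsg.indFun (H.map (QuotientGroup.mk' A)) θ₁ (QuotientGroup.mk' A g) = Cfsg.indFun H θ g := by
  classical
  have ha : ∀ y : G, Cfsg.extendByZero (H.map (QuotientGroup.mk' A)) θ₁ (QuotientGroup.mk' A y) =
      Cfsg.extendByZero H θ y := by
    intro y
    by_cases hy : y ∈ H
    · rw [extendByZero_mem H θ hy, extendByZero_mem _ θ₁ (Subgroup.mem_map_of_mem _ hy)]
      exact hθ ⟨y, hy⟩
    · rw [extendByZero_not_mem H θ hy, extendByZero_not_mem]
      rintro ⟨h, hh, hhy⟩
      apply hy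
      have h1 : h⁻¹ * y ∈ A := QuotientGroup.eq.mp hhy
      have h2 : y = h * (h⁻¹ * y) := by group
      rw [h2]
      exact H.mul_mem hh (hAH h1)
  have hsum : ∑ x : G, Cfsg.extendByZero H θ (x⁻¹ * g * x) = (Nat.card A : ℂ) *
      ∑ q : G ⧸ A, Cfsg.extendByZero (H.map (QuotientGroup.mk' A)) θ₁
        (q⁻¹ * QuotientGroup.mk' A g * q) := by
    have h1 := sum_card_fiber_mul (QuotientGroup.mk' A) (fun q : G ⧸ A =>
      Cfsg.extendByZero (H.map (QuotientGroup.mk' A)) θ₁ (q⁻¹ * QuotientGroup.mk' A g * q))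
    rw [Finset.mul_sum]
    rw [Finset.sum_congr rfl (fun q _ => by rw [card_fiber_mk' A q])] at h1
    rw [h1]
    apply Finset.sum_congr rfl
    intro x _
    rw [← ha, map_mul, map_mul, map_inv]
  have hcard := card_eq_card_map_mk_mul A H hAH
  have hA : (Nat.card A : ℂ) ≠ 0 := by exact_mod_cast Nat.card_pos.ne'
  have hM : (Nat.card ↥(H.map (QuotientGroup.mk' A)) : ℂ) ≠ 0 := by
    exact_mod_cast Nat.card_pos.ne'
  unfold Cfsg.indFun
  rw [hsum, hcard]
  push_cast
  field_simp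

end Cfsg.Agent.Lib.Lead
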