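import Mathlib
import Cfsg.Agent.Lib.Lead.CharGallagher
import Cfsg.Agent.Lib.Lead.CharComplete
import Cfsg.Agent.Lib.Lead.CharInfl
import Cfsg.Agent.Lib.Lead.CharMisc
import Cfsg.Agent.Lib.Lead.CharBurnside

set_option autoImplicit false

namespace Cfsg.Agent.Lib.Lead

open scoped ComplexConjugate

theorem gallagher_average {G : Type*} [Group G] [Fintype G] (N : Subgroup G) [hN : N.Normal]
    [Fintype N] (χ : G → ℂ) (hχ : Cfsg.IsIrrCharacter G χ)
    (hχN : Cfsg.IsIrrCharacter N (fun n : N => χ n)) (ψ : G → ℂ)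
    (hψ : Cfsg.IsIrrCharacter G ψ) (η : G → ℂ)
    (hη : η = fun g => (Nat.card N : ℂ)⁻¹ * ∑ n : N, ψ ((n : G) * g) * conj (χ ((n : G) * g))) :
    (Cfsg.classInner (fun n : N => ψ n) (fun n : N => χ n) ≠ 0 → Cfsg.IsIrrCharacter G η) ∧
    (Cfsg.classInner (fun n : N => ψ n) (fun n : N => χ n) = 0 → η = 0) ∧
    (ψ = χ → η = fun _ => 1) := by
  classical
  haveI : Fintype (G ⧸ N) := Fintype.ofFinite _
  haveI : Fintype (Cfsg.IrrCharacter (G ⧸ N)) := Fintype.ofFinite _
  have hψcl := isClassFunction_of_isCharacter (isCharacter_of_isIrrCharacter hψ)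
  have hχcl := isClassFunction_of_isCharacter (isCharacter_of_isIrrCharacter hχ)
  have hcardN : (Nat.card N : ℂ) ≠ 0 := by exact_mod_cast Nat.card_pos.ne'
  have hη1 : ∀ (m : N) (g : G), η ((m : G) * g) = η g := by
    intro m g
    rw [hη]
    show (Nat.card N : ℂ)⁻¹ * ∑ n : N, ψ ((n : G) * ((m : G) * g)) *
        conj (χ ((n : G) * ((m : G) * g))) =
      (Nat.card N : ℂ)⁻¹ * ∑ n : N, ψ ((n : G) * g) * conj (χ ((n : G) * g))
    congr 1
    rw [← Equiv.sum_comp (Equiv.mulRight m)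
      (fun n : N => ψ ((n : G) * g) * conj (χ ((n : G) * g)))]
    apply Finset.sum_congr rfl
    intro n _
    simp only [Equiv.coe_mulRight, Subgroup.coe_mul, mul_assoc]
  have hηcl : Cfsg.IsClassFunction G η := by
    intro g x
    rw [hη]
    show (Nat.card N : ℂ)⁻¹ * ∑ n : N, ψ ((n : G) * (x * g * x⁻¹)) *
        conj (χ ((n : G) * (x * g * x⁻¹))) =
      (Nat.card N : ℂ)⁻¹ * ∑ n : N, ψ ((n : G) * g) * conj (χ ((n : G) * g))
    congr 1
    have hbij : Function.Bijective (conjHom N x⁻¹) :=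
      ⟨Finite.injective_iff_surjective.mpr (conjHom_surjective N x⁻¹),
        conjHom_surjective N x⁻¹⟩
    rw [← hbij.sum_comp (fun n : N => ψ ((n : G) * g) * conj (χ ((n : G) * g)))]
    apply Finset.sum_congr rfl
    intro n _
    have e : ((conjHom N x⁻¹ n : N) : G) * g = x⁻¹ * ((n : G) * (x * g * x⁻¹)) * x⁻¹⁻¹ := by
      show x⁻¹ * (n : G) * x⁻¹⁻¹ * g = _
      group
    rw [e, hψcl, hχcl]
  obtain ⟨ηb, hηb⟩ : ∃ ηb : G ⧸ N → ℂ, ∀ g : G, ηb (QuotientGroup.mk' N g) = η g := by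
    refine ⟨fun q => η q.out, ?_⟩
    intro g
    obtain ⟨u, hu⟩ := QuotientGroup.mk_out_eq_mul N g
    show η (QuotientGroup.mk g : G ⧸ N).out = η g
    rw [hu]
    have e : g * (u : G) = ((⟨g * u * g⁻¹, hN.conj_mem u u.2 g⟩ : N) : G) * g := by
      show g * (u : G) = g * u * g⁻¹ * g
      group
    rw [e, hη1]
  have hηbcl : Cfsg.IsClassFunction (G ⧸ N) ηb := by
    intro q c
    obtain ⟨g, rfl⟩ := QuotientGroup.mk'_surjective N q
    obtain ⟨x, rfl⟩ := QuotientGroup.mk'_surjective N c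
    rw [← map_inv, ← map_mul, ← map_mul, hηb, hηb, hηcl]
  have hinner : ∀ β : Cfsg.IrrCharacter (G ⧸ N), Cfsg.classInner ηb (β : G ⧸ N → ℂ) =
      Cfsg.classInner ψ (((β : G ⧸ N → ℂ) ∘ QuotientGroup.mk' N) * χ) := by
    intro β
    have h1 := sum_card_fiber_mul (QuotientGroup.mk' N)
      (fun q : G ⧸ N => ηb q * conj ((β : G ⧸ N → ℂ) q))
    simp_rw [card_fiber_mk'] at h1
    rw [← Finset.mul_sum] at h1
    have h2 : ∑ g : G, ηb (QuotientGroup.mk' N g) *
        conj ((β : G ⧸ N → ℂ) (QuotientGroup.mk' N g)) =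
        ∑ g : G, ψ g * conj ((β : G ⧸ N → ℂ) (QuotientGroup.mk' N g) * χ g) := by
      have h3 : ∀ g : G, ηb (QuotientGroup.mk' N g) *
          conj ((β : G ⧸ N → ℂ) (QuotientGroup.mk' N g)) =
          (Nat.card N : ℂ)⁻¹ * ∑ n : N, ψ ((n : G) * g) *
            conj ((β : G ⧸ N → ℂ) (QuotientGroup.mk' N ((n : G) * g)) * χ ((n : G) * g)) := by
        intro g
        rw [hηb, hη]
        show (Nat.card N : ℂ)⁻¹ * (∑ n : N, ψ ((n : G) * g) * conj (χ ((n : G) * g))) *
          conj ((β : G ⧸ N → ℂ) (QuotientGroup.mk' N g)) = _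
        rw [mul_assoc, Finset.sum_mul]
        congr 1
        apply Finset.sum_congr rfl
        intro n _
        have e : QuotientGroup.mk' N ((n : G) * g) = QuotientGroup.mk' N g := by
          rw [map_mul]
          have e1 : QuotientGroup.mk' N (n : G) = 1 := (QuotientGroup.eq_one_iff _).mpr n.2
          rw [e1, one_mul]
        rw [e, map_mul]; ring
      rw [Finset.sum_congr rfl (fun g _ => h3 g), ← Finset.mul_sum, Finset.sum_comm]
      have h4 : ∀ n : N, ∑ g : G, ψ ((n : G) * g) *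
          conj ((β : G ⧸ N → ℂ) (QuotientGroup.mk' N ((n : G) * g)) * χ ((n : G) * g)) =
          ∑ g : G, ψ g * conj ((β : G ⧸ N → ℂ) (QuotientGroup.mk' N g) * χ g) := by
        intro n
        exact Equiv.sum_comp (Equiv.mulLeft (n : G))
          (fun g => ψ g * conj ((β : G ⧸ N → ℂ) (QuotientGroup.mk' N g) * χ g))
      rw [Finset.sum_congr rfl (fun n _ => h4 n), Finset.sum_const, Finset.card_univ,
        nsmul_eq_mul, ← Nat.card_eq_fintype_card, ← mul_assoc, inv_mul_cancel₀ hcardN, one_mul]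
    unfold Cfsg.classInner
    have hcard : (Nat.card G : ℂ) = (Nat.card N : ℂ) * (Nat.card (G ⧸ N) : ℂ) := by
      have h5 := Subgroup.card_mul_index N
      rw [Subgroup.index_eq_card] at h5
      exact_mod_cast h5.symm
    have hQ : (Nat.card (G ⧸ N) : ℂ) ≠ 0 := by exact_mod_cast Nat.card_pos.ne'
    rw [hcard]
    have h5 : ∑ g : G, ψ g * conj ((((β : G ⧸ N → ℂ) ∘ QuotientGroup.mk' N) * χ) g) =
        (Nat.card N : ℂ) * ∑ q : G ⧸ N, ηb q * conj ((β : G ⧸ N → ℂ) q) := by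
      rw [h1, h2]; rfl
    rw [h5]
    field_simp
  have hone : Cfsg.IsIrrCharacter N (fun _ => (1 : ℂ)) := isIrrCharacter_one N
  have hprod : Cfsg.IsIrrCharacter N ((fun _ => (1 : ℂ)) * fun n : N => χ n) := by
    have e : ((fun _ : N => (1 : ℂ)) * fun n : N => χ n) = fun n : N => χ n := by
      funext n; simp
    rw [e]; exact hχN
  obtain ⟨hG1, -, -⟩ := gallagher_core N (fun _ => (1 : ℂ)) hone (fun _ _ => rfl) χ
    (isCharacter_of_isIrrCharacter hχ) hprod
  have hinfl : ∀ β : Cfsg.IrrCharacter (G ⧸ N),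
      Cfsg.IsIrrCharacter G ((β : G ⧸ N → ℂ) ∘ QuotientGroup.mk' N) :=
    fun β => isIrrCharacter_comp_surj _ (QuotientGroup.mk'_surjective N) β.2
  have hinflne : ∀ β : Cfsg.IrrCharacter (G ⧸ N),
      Cfsg.classInner (Cfsg.indFun N (fun _ => (1 : ℂ)))
        ((β : G ⧸ N → ℂ) ∘ QuotientGroup.mk' N) ≠ 0 := by
    intro β
    rw [frobenius_reciprocity N _ _
      (isClassFunction_of_isCharacter (isCharacter_of_isIrrCharacter (hinfl β)))]
    unfold Cfsg.classInner
    obtain ⟨d, hd0, hd⟩ := irr_one β.2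
    have h1 : ∀ n : N, (1 : ℂ) * conj (((β : G ⧸ N → ℂ) ∘ QuotientGroup.mk' N) (n : G)) =
        (d : ℂ) := by
      intro n
      have e1 : QuotientGroup.mk' N (n : G) = 1 := (QuotientGroup.eq_one_iff _).mpr n.2
      rw [Function.comp_apply, e1, hd, one_mul, Complex.conj_natCast]
    rw [Finset.sum_congr rfl (fun n _ => h1 n), Finset.sum_const, Finset.card_univ,
      nsmul_eq_mul, ← Nat.card_eq_fintype_card, ← mul_assoc, inv_mul_cancel₀ hcardN, one_mul]
    exact_mod_cast hd0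
  have hGirr : ∀ β : Cfsg.IrrCharacter (G ⧸ N),
      Cfsg.IsIrrCharacter G (((β : G ⧸ N → ℂ) ∘ QuotientGroup.mk' N) * χ) := by
    intro β
    apply isIrrCharacter_of_norm_one (isCharacter_mul
      (isCharacter_of_isIrrCharacter (hinfl β)) (isCharacter_of_isIrrCharacter hχ))
    rw [hG1 _ _ (hinfl β) (hinfl β) (hinflne β) (hinflne β), if_pos rfl]
  have hcoef : ∀ β : Cfsg.IrrCharacter (G ⧸ N), Cfsg.classInner ηb (β : G ⧸ N → ℂ) =
      if ψ = ((β : G ⧸ N → ℂ) ∘ QuotientGroup.mk' N) * χ then 1 else 0 := by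
    intro β
    rw [hinner β, classInner_irr hψ (hGirr β)]
  have hexp := classFunction_expansion_sum ηb hηbcl
  have hdich : η = 0 ∨ ∃ β : Cfsg.IrrCharacter (G ⧸ N),
      η = (β : G ⧸ N → ℂ) ∘ QuotientGroup.mk' N ∧
        ψ = ((β : G ⧸ N → ℂ) ∘ QuotientGroup.mk' N) * χ := by
    by_cases hex : ∃ β : Cfsg.IrrCharacter (G ⧸ N),
        ψ = ((β : G ⧸ N → ℂ) ∘ QuotientGroup.mk' N) * χ
    · right
      obtain ⟨β₀, hβ₀⟩ := hex
      refine ⟨β₀, ?_, hβ₀⟩
      have h1 : ηb = (β₀ : G ⧸ N → ℂ) := by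
        rw [hexp, Finset.sum_eq_single β₀]
        · rw [hcoef β₀, if_pos hβ₀, one_smul]
        · intro β _ hne
          rw [hcoef β, if_neg, zero_smul]
          intro hβ
          apply hne
          have h2 := hG1 _ _ (hinfl β) (hinfl β₀) (hinflne β) (hinflne β₀)
          rw [← hβ, ← hβ₀, classInner_irr_self hψ] at h2
          have h3 : (β : G ⧸ N → ℂ) ∘ QuotientGroup.mk' N =
              (β₀ : G ⧸ N → ℂ) ∘ QuotientGroup.mk' N := by
            by_contra hcon
            rw [if_neg hcon] at h2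
            exact one_ne_zero h2
          apply Subtype.ext
          funext q
          obtain ⟨g, rfl⟩ := QuotientGroup.mk'_surjective N q
          exact congrFun h3 g
        · intro h; exact absurd (Finset.mem_univ _) h
      funext g
      rw [← hηb g, h1]; rfl
    · left
      have h1 : ηb = 0 := by
        rw [hexp]
        apply Finset.sum_eq_zero
        intro β _
        rw [hcoef β, if_neg (fun h => hex ⟨β, h⟩), zero_smul]
      funext g
      rw [← hηb g, h1]; rfl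
  have hη_one : η 1 = Cfsg.classInner (fun n : N => ψ n) (fun n : N => χ n) := by
    rw [hη]
    show (Nat.card N : ℂ)⁻¹ * ∑ n : N, ψ ((n : G) * 1) * conj (χ ((n : G) * 1)) =
      (Nat.card N : ℂ)⁻¹ * ∑ n : N, ψ (n : G) * conj (χ (n : G))
    simp only [mul_one]
  refine ⟨?_, ?_, ?_⟩
  · intro hne
    rcases hdich with h0 | ⟨β, hβ, -⟩
    · exfalso; apply hne; rw [← hη_one, h0]; rfl
    · rw [hβ]; exact hinfl β
  · intro h0
    rcases hdich with h | ⟨β, hβ, -⟩
    · exact h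
    · exfalso
      rw [← hη_one, hβ] at h0
      obtain ⟨d, hd0, hd⟩ := irr_one β.2
      have h1 : (β : G ⧸ N → ℂ) (QuotientGroup.mk' N 1) = 0 := h0
      rw [map_one, hd] at h1
      exact hd0 (by exact_mod_cast h1)
  · intro hψχ
    have h1 : η 1 = 1 := by
      rw [hη_one, hψχ]; exact classInner_irr_self hχN
    rcases hdich with h0 | ⟨β, hβ, hβ2⟩
    · exfalso
      rw [h0] at h1
      exact zero_ne_one h1
    · obtain ⟨one, hone'⟩ : ∃ o : Cfsg.IrrCharacter (G ⧸ N), (o : G ⧸ N → ℂ) = fun _ => 1 :=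
        ⟨⟨fun _ => 1, isIrrCharacter_one _⟩, rfl⟩
      have h2 := hG1 _ _ (hinfl β) (hinfl one) (hinflne β) (hinflne one)
      have e1 : ((one : G ⧸ N → ℂ) ∘ QuotientGroup.mk' N) * χ = ψ := by
        rw [hψχ, hone']; funext g; simp
      rw [← hβ2, e1, classInner_irr_self hψ] at h2
      have h3 : (β : G ⧸ N → ℂ) ∘ QuotientGroup.mk' N =
          (one : G ⧸ N → ℂ) ∘ QuotientGroup.mk' N := by
        by_contra hcon
        rw [if_neg hcon] at h2
        exact one_ne_zero h2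
      rw [hβ, h3, hone']
      rfl

end Cfsg.Agent.Lib.Lead
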