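import Mathlib
import Cfsg.Agent.Lib.Lead.CharGalSum
import Cfsg.Agent.Lib.Lead.CharQuot
import Cfsg.Agent.Lib.Lead.CharClifford
import Cfsg.Agent.Lib.Lead.CharOrbit
import Cfsg.Agent.Lib.Lead.CharPZero
import Cfsg.Agent.Lib.Lead.CharInfl
import Cfsg.Agent.Lib.Lead.CharCenter
import Cfsg.Agent.Lib.Lead.CharArtin
import Cfsg.Agent.Lib.Lead.CharMisc

set_option autoImplicit false

namespace Cfsg.Agent.Lib.Lead

theorem irr_ne_zero_of_normal_abelian_sylow {G : Type*} [Group G] [Finite G] (p : ℕ)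
    [Fact p.Prime] (P : Sylow p G) [hN : (P : Subgroup G).Normal]
    (hab : ∀ a ∈ P, ∀ b ∈ P, a * b = b * a) (g : G) (hg : g ∈ P) (χ : G → ℂ)
    (hχ : Cfsg.IsIrrCharacter G χ) : χ g ≠ 0 := by
  classical
  haveI := Fintype.ofFinite G
  haveI : Fintype (P : Subgroup G) := Fintype.ofFinite _
  intro h0
  have hχP : Cfsg.IsCharacter (P : Subgroup G) (fun n : (P : Subgroup G) => χ n) :=
    isCharacter_restrict _ (isCharacter_of_isIrrCharacter hχ)
  obtain ⟨d, hd0, hd⟩ := irr_one hχ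
  obtain ⟨lam, hlam, hc⟩ := exists_constituent hχP (by
    show χ ((1 : (P : Subgroup G)) : G) ≠ 0
    rw [Subgroup.coe_one, hd]; exact_mod_cast hd0)
  have hcl := clifford_char (P : Subgroup G) hN χ hχ lam hlam hc
  have hst := sum_conj_eq_stab_smul' (P : Subgroup G) lam
  have hsum0 : ∑ x : G, lam (conjHom (P : Subgroup G) x ⟨g, hg⟩) = 0 := by
    have h1 := congrFun hcl ⟨g, hg⟩
    have h2 := congrFun hst ⟨g, hg⟩
    rw [Pi.smul_apply, smul_eq_mul] at h1 h2
    have h0' : (fun n : (P : Subgroup G) => χ n) ⟨g, hg⟩ = 0 := h0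
    rcases mul_eq_zero.mp (h1.symm.trans h0') with h | h
    · exact absurd h hc
    · rw [h, mul_zero, Finset.sum_apply] at h2
      exact h2
  have hPcomm : ∀ a b : (P : Subgroup G), a * b = b * a :=
    fun a b => Subtype.ext (hab a a.2 b b.2)
  have hlin : lam 1 = 1 := commutative_iff_degrees.mp hPcomm ⟨lam, hlam⟩
  have hmul := linear_char_mul hlam hlin
  have hpowk : ∀ (u : (P : Subgroup G)) (k : ℕ), lam (u ^ k) = lam u ^ k := by
    intro u k
    induction k with
    | zero => simp [hlin]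
    | succ k ih => rw [pow_succ, hmul, ih, pow_succ]
  obtain ⟨j, hj⟩ := IsPGroup.exists_card_eq P.2
  have hroot : ∀ u : (P : Subgroup G), lam u ^ (p ^ j) = 1 := by
    intro u
    rw [← hpowk, ← hj, pow_card_eq_one', hlin]
  have hconst : ∀ (x : G) (u : (P : Subgroup G)),
      lam (conjHom (P : Subgroup G) (x * u) ⟨g, hg⟩) =
        lam (conjHom (P : Subgroup G) x ⟨g, hg⟩) := by
    intro x u
    rw [← conjHom_mul]
    congr 2
    apply Subtype.ext
    show (u : G) * g * (u : G)⁻¹ = g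
    rw [hab u u.2 g hg, mul_inv_cancel_right]
  haveI : Fintype (G ⧸ (P : Subgroup G)) := Fintype.ofFinite _
  have hq : ∑ q : G ⧸ (P : Subgroup G), lam (conjHom (P : Subgroup G) q.out ⟨g, hg⟩) = 0 := by
    have h1 := sum_card_fiber_mul (QuotientGroup.mk' (P : Subgroup G))
      (fun q : G ⧸ (P : Subgroup G) => lam (conjHom (P : Subgroup G) q.out ⟨g, hg⟩))
    have h2 : ∑ x : G, lam (conjHom (P : Subgroup G)
        (QuotientGroup.mk' (P : Subgroup G) x).out ⟨g, hg⟩) = 0 := by
      rw [← hsum0]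
      apply Finset.sum_congr rfl
      intro x _
      obtain ⟨u, hu⟩ := QuotientGroup.mk_out_eq_mul (P : Subgroup G) x
      show lam (conjHom (P : Subgroup G) (QuotientGroup.mk x : G ⧸ (P : Subgroup G)).out
        ⟨g, hg⟩) = _
      rw [hu, hconst]
    rw [h2] at h1
    simp_rw [card_fiber_mk'] at h1
    rw [← Finset.mul_sum] at h1
    rcases mul_eq_zero.mp h1 with h | h
    · exfalso
      have hpos := Nat.card_pos (α := (P : Subgroup G))
      have h' : Nat.card (P : Subgroup G) = 0 := by exact_mod_cast h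
      omega
    · exact h
  have hdvd : p ∣ Nat.card (G ⧸ (P : Subgroup G)) := by
    apply prime_dvd_of_sum_roots_eq_zero p j (fun i => lam (conjHom (P : Subgroup G)
      ((Finite.equivFin (G ⧸ (P : Subgroup G))).symm i).out ⟨g, hg⟩))
    · intro i; exact hroot _
    · rw [← hq]
      exact Equiv.sum_comp (Finite.equivFin (G ⧸ (P : Subgroup G))).symm
        (fun q => lam (conjHom (P : Subgroup G) q.out ⟨g, hg⟩))
  have hnd := P.not_dvd_index
  rw [Subgroup.index_eq_card] at hnd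
  exact hnd hdvd

theorem card_irr_le_of_self_centralizing {G : Type*} [Group G] [Finite G] (p : ℕ)
    [Fact p.Prime] (P : Sylow p G) [(P : Subgroup G).Normal]
    (hab : ∀ a ∈ P, ∀ b ∈ P, a * b = b * a) (g : G) (hg : g ∈ P)
    (hC : Subgroup.centralizer ({g} : Set G) = P) :
    Nat.card (Cfsg.IrrCharacter G) ≤ Nat.card P ∧
      (Nat.card (Cfsg.IrrCharacter G) = Nat.card P → commutator G ≤ P) := by
  classical
  haveI := Fintype.ofFinite G
  haveI := Fintype.ofFinite (Cfsg.IrrCharacter G)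
  obtain ⟨ι, hι, m, hD, hm, hAM⟩ := exists_galois_system G
  have hcent : ∀ i, Subgroup.centralizer ({g ^ m i} : Set G) = P := by
    intro i
    rw [← hC]
    have hcop : (m i).Coprime (orderOf g) :=
      Nat.Coprime.coprime_dvd_right (orderOf_dvd_natCard g) (hm i)
    obtain ⟨k, hk⟩ := exists_pow_eq_self_of_coprime hcop
    ext z
    simp only [Subgroup.mem_centralizer_iff, Set.mem_singleton_iff, forall_eq]
    constructor
    · intro h
      have h2 : Commute ((g ^ m i) ^ k) z := Commute.pow_left h k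
      rw [hk] at h2
      exact h2
    · intro h
      exact Commute.pow_left h (m i)
  have hT : ∑ χ : Cfsg.IrrCharacter G, ∑ i : ι, ‖(χ : G → ℂ) (g ^ m i)‖ ^ 2 =
      (Fintype.card ι : ℝ) * (Nat.card P : ℝ) := by
    rw [Finset.sum_comm]
    have h1 : ∀ i : ι, ∑ χ : Cfsg.IrrCharacter G, ‖(χ : G → ℂ) (g ^ m i)‖ ^ 2 =
        (Nat.card P : ℝ) := by
      intro i
      have h2 := normSq_sum_irr (g ^ m i)
      rw [hcent i] at h2
      rw [← h2]
      apply Finset.sum_congr rfl
      intro χ _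
      rw [Complex.normSq_eq_norm_sq]
    rw [Finset.sum_congr rfl (fun i _ => h1 i), Finset.sum_const, Finset.card_univ, nsmul_eq_mul]
  have hge : ∀ χ : Cfsg.IrrCharacter G,
      (Fintype.card ι : ℝ) ≤ ∑ i : ι, ‖(χ : G → ℂ) (g ^ m i)‖ ^ 2 :=
    fun χ => hAM χ (isCharacter_of_isIrrCharacter χ.2) g
      (irr_ne_zero_of_normal_abelian_sylow p P hab g hg χ χ.2)
  have hDpos : (0 : ℝ) < Fintype.card ι := by exact_mod_cast hD
  have hk : (Nat.card (Cfsg.IrrCharacter G) : ℝ) * (Fintype.card ι : ℝ) ≤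
      (Fintype.card ι : ℝ) * (Nat.card P : ℝ) := by
    rw [← hT, Nat.card_eq_fintype_card, ← Finset.card_univ (α := Cfsg.IrrCharacter G),
      ← nsmul_eq_mul, ← Finset.sum_const]
    exact Finset.sum_le_sum (fun χ _ => hge χ)
  constructor
  · have h1 : (Nat.card (Cfsg.IrrCharacter G) : ℝ) ≤ (Nat.card P : ℝ) := by nlinarith
    exact_mod_cast h1
  · intro heq
    have heach : ∀ χ : Cfsg.IrrCharacter G,
        ∑ i : ι, ‖(χ : G → ℂ) (g ^ m i)‖ ^ 2 = (Fintype.card ι : ℝ) := by
      by_contra hcon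
      push Not at hcon
      obtain ⟨χ₀, hχ₀⟩ := hcon
      have hlt : (Fintype.card ι : ℝ) < ∑ i : ι, ‖(χ₀ : G → ℂ) (g ^ m i)‖ ^ 2 :=
        lt_of_le_of_ne (hge χ₀) (Ne.symm hχ₀)
      have h1 : ∑ χ : Cfsg.IrrCharacter G, (Fintype.card ι : ℝ) <
          ∑ χ : Cfsg.IrrCharacter G, ∑ i : ι, ‖(χ : G → ℂ) (g ^ m i)‖ ^ 2 :=
        Finset.sum_lt_sum (fun χ _ => hge χ) ⟨χ₀, Finset.mem_univ _, hlt⟩
      rw [hT, Finset.sum_const, Finset.card_univ, nsmul_eq_mul, ← Nat.card_eq_fintype_card,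
        heq] at h1
      linarith [mul_comm (Nat.card P : ℝ) (Fintype.card ι : ℝ)]
    have hquot : ∀ a b : G ⧸ (P : Subgroup G), a * b = b * a := by
      refine commutative_iff_degrees.mpr ?_
      intro φ
      have h1 := heach (inflIrr (QuotientGroup.mk' (P : Subgroup G))
        (QuotientGroup.mk'_surjective _) φ)
      have h2 : ∀ i : ι, ((inflIrr (QuotientGroup.mk' (P : Subgroup G))
          (QuotientGroup.mk'_surjective _) φ : Cfsg.IrrCharacter G) : G → ℂ) (g ^ m i) =
            (φ : G ⧸ (P : Subgroup G) → ℂ) 1 := by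
        intro i
        show (φ : G ⧸ (P : Subgroup G) → ℂ) (QuotientGroup.mk' (P : Subgroup G) (g ^ m i)) = _
        have e : QuotientGroup.mk' (P : Subgroup G) (g ^ m i) = 1 := by
          rw [QuotientGroup.mk'_apply, QuotientGroup.eq_one_iff]
          exact Subgroup.pow_mem _ hg _
        rw [e]
      rw [Finset.sum_congr rfl (fun i _ => by rw [h2 i]), Finset.sum_const, Finset.card_univ,
        nsmul_eq_mul] at h1
      obtain ⟨d, hd0, hd⟩ := irr_one φ.2
      rw [hd] at h1 ⊢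
      have h3 : ‖(d : ℂ)‖ ^ 2 = 1 :=
        mul_left_cancel₀ hDpos.ne' (h1.trans (mul_one _).symm)
      rw [Complex.norm_natCast] at h3
      have h4 : (d : ℝ) = 1 := by
        have hdnn : (0 : ℝ) ≤ d := Nat.cast_nonneg d
        nlinarith
      exact_mod_cast h4
    rw [commutator_def, Subgroup.commutator_le]
    intro a _ b _
    rw [← QuotientGroup.eq_one_iff, commutatorElement_def]
    simp only [QuotientGroup.mk_mul, QuotientGroup.mk_inv]
    rw [hquot (a : G ⧸ (P : Subgroup G)) b]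
    group

end Cfsg.Agent.Lib.Lead
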