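import Mathlib
import Cfsg.Prelude.Def_Characters
import Cfsg.Agent.Lib.Lead.CharQuot

set_option autoImplicit false

namespace Cfsg.Agent.Lib.Lead

open scoped ComplexConjugate

section twotrans

variable {G : Type*} [Group G]

theorem isCharacter_perm [Finite G] (X : Type*) [MulAction G X] [Finite X] :
    Cfsg.IsCharacter G (fun g : G => (Nat.card (MulAction.fixedBy X g) : ℂ)) := by
  classical
  haveI : Module.Finite ℂ (MonoidAlgebra ℂ X) := Module.Finite.of_basis (MonoidAlgebra.basis X ℂ)
  have h := isCharacter_of_rep (Representation.ofMulAction ℂ G X)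
  have h2 : (Representation.ofMulAction ℂ G X).character =
      (fun g : G => (Nat.card (MulAction.fixedBy X g) : ℂ)) := by
    funext g; exact char_ofMulAction X g
  rwa [h2] at h

/-- the diagonal indicator on orbits of pairs -/
def diagInd (G : Type*) [Group G] (X : Type*) [MulAction G X] [DecidableEq X] :
    MulAction.orbitRel.Quotient G (X × X) → Bool :=
  Quotient.lift (fun p : X × X => decide (p.1 = p.2)) (by
    intro p q hpq
    have hpq' : p ∈ MulAction.orbit G q := hpq
    obtain ⟨g, rfl⟩ := hpq'
    simp only [Prod.smul_fst, Prod.smul_snd, decide_eq_decide]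
    constructor
    · intro h; exact smul_left_cancel g h
    · intro h; rw [h])

theorem card_orbits_pairs_eq_two_iff (X : Type*) [MulAction G X] [Finite X]
    [MulAction.IsPretransitive G X] (hX : 2 ≤ Nat.card X) :
    Nat.card (MulAction.orbitRel.Quotient G (X × X)) = 2 ↔
      MulAction.IsMultiplyPretransitive G X 2 := by
  classical
  haveI : Fintype X := Fintype.ofFinite X
  haveI : Finite (MulAction.orbitRel.Quotient G (X × X)) := Quotient.finite _
  have hex : ∃ x y : X, x ≠ y := by
    have h1 : 1 < Nat.card X := hX
    rw [Nat.card_eq_fintype_card, Fintype.one_lt_card_iff] at h1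
    exact h1
  obtain ⟨x₀, y₀, hxy₀⟩ := hex
  have hsurj : Function.Surjective (diagInd G X) := by
    intro b
    cases b
    · exact ⟨Quotient.mk'' (x₀, y₀), by
        show decide (x₀ = y₀) = false
        simp [hxy₀]⟩
    · exact ⟨Quotient.mk'' (x₀, x₀), by
        show decide (x₀ = x₀) = true
        simp⟩
  have hbij_iff : Function.Bijective (diagInd G X) ↔
      Nat.card (MulAction.orbitRel.Quotient G (X × X)) = 2 := by
    rw [Nat.bijective_iff_surjective_and_card]
    constructor
    · rintro ⟨_, h⟩; rw [h]; simp
    · intro h; exact ⟨hsurj, by rw [h]; simp⟩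
  rw [← hbij_iff, MulAction.is_two_pretransitive_iff]
  constructor
  · intro hb a b c d hab hcd
    have h1 : diagInd G X (Quotient.mk'' (c, d)) = diagInd G X (Quotient.mk'' (a, b)) := by
      show decide (c = d) = decide (a = b)
      simp [hab, hcd]
    have h2 := hb.1 h1
    have h3 : (c, d) ∈ MulAction.orbit G (a, b) := Quotient.exact h2
    obtain ⟨g, hg⟩ := h3
    refine ⟨g, ?_, ?_⟩
    · exact congrArg Prod.fst hg
    · exact congrArg Prod.snd hg
  · intro h2t
    refine ⟨?_, hsurj⟩
    intro u v huv
    induction u using Quotient.inductionOn with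
    | h p =>
      induction v using Quotient.inductionOn with
      | h q =>
        have huv' : decide (p.1 = p.2) = decide (q.1 = q.2) := huv
        apply Quotient.sound
        show p ∈ MulAction.orbit G q
        by_cases hq : q.1 = q.2
        · have hp : p.1 = p.2 := by
            simp only [hq, decide_true, decide_eq_true_eq] at huv'
            exact huv'
          obtain ⟨g, hg⟩ := MulAction.exists_smul_eq G q.1 p.1
          refine ⟨g, ?_⟩
          apply Prod.ext
          · exact hg
          · show g • q.2 = p.2
            rw [← hq, hg, hp]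
        · have hp : p.1 ≠ p.2 := by
            intro hp
            simp only [hp, decide_true, hq, decide_false] at huv'
            exact absurd huv' (by simp)
          obtain ⟨g, hg1, hg2⟩ := h2t hq hp
          exact ⟨g, Prod.ext hg1 hg2⟩

theorem classInner_perm_one [Fintype G] (X : Type*) [MulAction G X] [Finite X]
    [MulAction.IsPretransitive G X] [Nonempty X] :
    Cfsg.classInner (fun g : G => (Nat.card (MulAction.fixedBy X g) : ℂ)) (fun _ => 1) = 1 := by
  classical
  obtain ⟨x⟩ := ‹Nonempty X›
  haveI : Fintype (MulAction.stabilizer G x) := Fintype.ofFinite _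
  rw [perm_char_eq_indFun X x,
    frobenius_reciprocity _ _ _ (isClassFunction_of_irr (isIrrCharacter_one G))]
  exact classInner_one_one

theorem classInner_perm_perm [Fintype G] (X : Type*) [MulAction G X] [Finite X] :
    Cfsg.classInner (fun g : G => (Nat.card (MulAction.fixedBy X g) : ℂ))
      (fun g : G => (Nat.card (MulAction.fixedBy X g) : ℂ)) =
      (Nat.card (MulAction.orbitRel.Quotient G (X × X)) : ℂ) := by
  classical
  haveI : Fintype X := Fintype.ofFinite X
  haveI : Fintype (MulAction.orbitRel.Quotient G (X × X)) := Fintype.ofFinite _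
  have hB := MulAction.sum_card_fixedBy_eq_card_orbits_mul_card_group G (X × X)
  have hfix : ∀ g : G, Fintype.card (MulAction.fixedBy (X × X) g) =
      Nat.card (MulAction.fixedBy X g) * Nat.card (MulAction.fixedBy X g) := by
    intro g
    rw [← Nat.card_eq_fintype_card, ← Nat.card_prod]
    apply Nat.card_congr
    refine ⟨fun p => (⟨p.1.1, congrArg Prod.fst p.2⟩, ⟨p.1.2, congrArg Prod.snd p.2⟩),
      fun q => ⟨(q.1.1, q.2.1), Prod.ext q.1.2 q.2.2⟩, ?_, ?_⟩
    · intro p; rfl
    · intro q; rfl
  unfold Cfsg.classInner
  have h1 : ∑ g : G, (Nat.card (MulAction.fixedBy X g) : ℂ) *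
      conj (Nat.card (MulAction.fixedBy X g) : ℂ) =
      ((∑ g : G, Fintype.card (MulAction.fixedBy (X × X) g) : ℕ) : ℂ) := by
    push_cast
    apply Finset.sum_congr rfl
    intro g _
    rw [Complex.conj_natCast, hfix g]
    push_cast
    rfl
  rw [h1, hB, ← Nat.card_eq_fintype_card, ← Nat.card_eq_fintype_card]
  have hne : (Nat.card G : ℂ) ≠ 0 := by exact_mod_cast Nat.card_pos.ne'
  push_cast
  field_simp

/-- 2-transitivity criterion. -/
theorem irr_perm_sub_one_iff [Finite G] (X : Type*) [MulAction G X] [Finite X]
    [MulAction.IsPretransitive G X] (hX : 2 ≤ Nat.card X) :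
    Cfsg.IsIrrCharacter G (fun g => (Nat.card (MulAction.fixedBy X g) : ℂ) - 1) ↔
      MulAction.IsMultiplyPretransitive G X 2 := by
  classical
  haveI : Fintype G := Fintype.ofFinite G
  haveI : Nonempty X := by
    have : 0 < Nat.card X := by omega
    exact (Nat.card_pos_iff.mp this).1
  rw [← card_orbits_pairs_eq_two_iff X hX]
  have hπ := isCharacter_perm (G := G) X
  have h1 := classInner_perm_one (G := G) X
  have h1' : Cfsg.classInner (fun _ : G => (1 : ℂ))
      (fun g : G => (Nat.card (MulAction.fixedBy X g) : ℂ)) = 1 := by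
    rw [← classInner_conj_symm, h1]; simp
  have hfun : (fun g : G => (Nat.card (MulAction.fixedBy X g) : ℂ) - 1) =
      (fun g : G => (Nat.card (MulAction.fixedBy X g) : ℂ)) - (fun _ => 1) := rfl
  have hnorm : Cfsg.classInner (fun g : G => (Nat.card (MulAction.fixedBy X g) : ℂ) - 1)
      (fun g : G => (Nat.card (MulAction.fixedBy X g) : ℂ) - 1) =
      (Nat.card (MulAction.orbitRel.Quotient G (X × X)) : ℂ) - 1 := by
    rw [hfun, classInner_sub_left, classInner_sub_right, classInner_sub_right,
      classInner_perm_perm, h1, h1', classInner_one_one]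
    ring
  have hchar : Cfsg.IsCharacter G (fun g => (Nat.card (MulAction.fixedBy X g) : ℂ) - 1) := by
    apply isCharacter_of_nat_inner
    · rw [hfun]
      exact isClassFunction_sub (isClassFunction_of_isCharacter hπ)
        (isClassFunction_of_irr (isIrrCharacter_one G))
    · intro χ hχ
      rw [hfun, classInner_sub_left, classInner_irr (isIrrCharacter_one G) hχ]
      by_cases h : (fun _ : G => (1 : ℂ)) = χ
      · rw [if_pos h, ← h, h1]
        exact ⟨0, by simp⟩
      · rw [if_neg h, sub_zero]
        exact classInner_char_irr_nat hπ hχ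
  constructor
  · intro hirr
    have h2 := classInner_irr_self hirr
    rw [hnorm] at h2
    have h3 : (Nat.card (MulAction.orbitRel.Quotient G (X × X)) : ℂ) = 2 := by
      linear_combination h2
    exact_mod_cast h3
  · intro h2
    apply isIrrCharacter_of_norm_one hchar
    rw [hnorm, h2]
    norm_num

end twotrans

end Cfsg.Agent.Lib.Lead
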