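import Mathlib
import Cfsg.Agent.Lib.Lead.FrobCenter
import Cfsg.Agent.Lib.Lead.CharFrob
import Cfsg.Agent.Lib.Helper7.FrobSemidirect

/-! Frobenius groups whose complement contains a quaternion group: the kernel has odd square
order; realisation of every odd square. -/

namespace Cfsg.Agent.Lib.Lead

theorem exists_sq_add_sq_add_one (n : ℕ) (hn : Odd n) : ∃ a b : ℕ, n ∣ a ^ 2 + b ^ 2 + 1 := by
  obtain ⟨k, hk⟩ := hn
  have hq : 4 * n ≠ 0 := by omega
  have hcop : Nat.Coprime (2 * n - 1) (4 * n) := by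
    rw [← Nat.isCoprime_iff_coprime]
    have e : ((2 * n - 1 : ℕ) : ℤ) = 2 * (n : ℤ) - 1 := by
      have h1 : 1 ≤ 2 * n := by omega
      rw [Nat.cast_sub h1]; push_cast; ring
    rw [e]
    exact ⟨-(2 * (n : ℤ) + 1), (n : ℤ), by push_cast; ring⟩
  obtain ⟨l, _, hl, hmod⟩ := Nat.forall_exists_prime_gt_and_modEq 0 hq hcop
  haveI : Fact l.Prime := ⟨hl⟩
  have h4 : l % 4 = (2 * n - 1) % 4 := hmod.of_dvd (dvd_mul_right 4 n)
  obtain ⟨a, b, hab⟩ := Nat.Prime.sq_add_sq (p := l) (by omega)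
  refine ⟨a, b, ?_⟩
  rw [hab]
  have h5 : l ≡ 2 * n - 1 [MOD n] := hmod.of_dvd (dvd_mul_left n 4)
  have h6 : l + 1 ≡ 2 * n - 1 + 1 [MOD n] := Nat.ModEq.add_right 1 h5
  have h7 : 2 * n - 1 + 1 = 2 * n := by omega
  rw [h7] at h6
  exact (Nat.modEq_zero_iff_dvd).1 (h6.trans ((Nat.modEq_zero_iff_dvd).2 (dvd_mul_left n 2)))

theorem eq_zero_of_add_self_of_odd {M : Type*} [AddCommGroup M] [Finite M]
    (hodd : Odd (Nat.card M)) (x : M) (h : x + x = 0) : x = 0 := by
  have h1 : addOrderOf x ∣ 2 := addOrderOf_dvd_of_nsmul_eq_zero (by rw [two_nsmul]; exact h)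
  have h2 : addOrderOf x ∣ Nat.card M := addOrderOf_dvd_natCard x
  have h3 : addOrderOf x ∣ Nat.gcd 2 (Nat.card M) := Nat.dvd_gcd h1 h2
  have h4 : Nat.Coprime 2 (Nat.card M) := Nat.coprime_two_left.2 hodd
  rw [h4.gcd_eq_one] at h3
  exact AddMonoid.addOrderOf_eq_one_iff.1 (Nat.dvd_one.1 h3)

theorem eq_one_of_mul_self_of_odd {G : Type*} [Group G] [Finite G]
    (hodd : Odd (Nat.card G)) (x : G) (h : x * x = 1) : x = 1 := by
  have h1 : orderOf x ∣ 2 := orderOf_dvd_of_pow_eq_one (by rw [pow_two]; exact h)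
  have h2 : orderOf x ∣ Nat.card G := orderOf_dvd_natCard x
  have h3 : orderOf x ∣ Nat.gcd 2 (Nat.card G) := Nat.dvd_gcd h1 h2
  have h4 : Nat.Coprime 2 (Nat.card G) := Nat.coprime_two_left.2 hodd
  rw [h4.gcd_eq_one] at h3
  exact orderOf_eq_one_iff.1 (Nat.dvd_one.1 h3)

theorem card_isSquare_of_quat {M : Type*} [AddCommGroup M] [Finite M] (hodd : Odd (Nat.card M))
    (I J : M →+ M) (hI : ∀ x, I (I x) = -x) (hJ : ∀ x, J (J x) = -x)
    (hIJ : ∀ x, I (J x) = -J (I x)) : IsSquare (Nat.card M) := by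
  classical
  obtain ⟨a, b, hab⟩ := exists_sq_add_sq_add_one (Nat.card M) hodd
  have hkill : ∀ x : M, (a ^ 2 + b ^ 2 + 1) • x = 0 := by
    intro x
    obtain ⟨c, hc⟩ := hab
    rw [hc, mul_smul]
    exact card_nsmul_eq_zero'
  have h2 : ∀ x : M, x + x = 0 → x = 0 := eq_zero_of_add_self_of_odd hodd
  have hJI : ∀ x, J (I x) = -I (J x) := fun x => by rw [hIJ, neg_neg]
  obtain ⟨T, hT⟩ : ∃ T : M → M, ∀ x, T x = a • I x + b • J x :=
    ⟨fun x => a • I x + b • J x, fun x => rfl⟩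
  have hTadd : ∀ x y, T (x + y) = T x + T y := by
    intro x y
    rw [hT, hT, hT, map_add, map_add, smul_add, smul_add]; abel
  have hTneg : ∀ x, T (-x) = -T x := by
    intro x
    rw [hT, hT, map_neg, map_neg, smul_neg, smul_neg]; abel
  have hTT : ∀ x, T (T x) = x := by
    intro x
    have hk := hkill x
    have hk' : (a * a) • x + (b * b) • x + x = 0 := by
      have e : a ^ 2 + b ^ 2 + 1 = a * a + b * b + 1 := by ring
      rw [e, add_smul, add_smul, one_smul] at hk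
      exact hk
    have hx : x = -((a * a) • x + (b * b) • x) := eq_neg_of_add_eq_zero_right hk'
    obtain ⟨y, hy⟩ : ∃ y, y = J (I x) := ⟨_, rfl⟩
    have e1 : I (T x) = a • (-x) + b • (-y) := by
      rw [hT, map_add, map_nsmul, map_nsmul, hI, hIJ, ← hy]
    have e2 : J (T x) = a • y + b • (-x) := by
      rw [hT, map_add, map_nsmul, map_nsmul, hJ, ← hy]
    calc T (T x) = a • (a • (-x) + b • (-y)) + b • (a • y + b • (-x)) := by
          rw [hT (T x), e1, e2]
      _ = -((a * a) • x + (b * b) • x) := by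
          simp only [smul_add, smul_neg, smul_smul]
          rw [mul_comm b a]; abel
      _ = x := hx.symm
  have hTsub : ∀ x y, T (x - y) = T x - T y := by
    intro x y
    rw [sub_eq_add_neg, hTadd, hTneg, ← sub_eq_add_neg]
  have hinj1 : Function.Injective
      (fun pq : {x : M // T x = x} × {x : M // T x = -x} => (pq.1 : M) + (pq.2 : M)) := by
    rintro ⟨⟨u, hu⟩, ⟨v, hv⟩⟩ ⟨⟨u', hu'⟩, ⟨v', hv'⟩⟩ h
    have h' : u + v = u' + v' := h
    have hd : u - u' = v' - v := sub_eq_sub_iff_add_eq_add.2 (by rw [h', add_comm])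
    have hTd1 : T (u - u') = u - u' := by rw [hTsub, hu, hu']
    have hTd2 : T (u - u') = -(u - u') := by rw [hd, hTsub, hv', hv]; abel
    have e : u - u' = -(u - u') := hTd1.symm.trans hTd2
    have hd0 : u - u' = 0 := h2 _ (eq_neg_iff_add_eq_zero.1 e)
    have huu : u = u' := sub_eq_zero.1 hd0
    have hvv : v = v' := by
      rw [huu] at h'
      exact add_left_cancel h'
    subst huu; subst hvv; rfl
  have hP : ∀ x, T (x + T x) = x + T x := fun x => by rw [hTadd, hTT, add_comm]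
  have hQ : ∀ x, T (x - T x) = -(x - T x) := fun x => by rw [hTsub, hTT]; abel
  have hinj2 : Function.Injective (fun x : M =>
      ((⟨x + T x, hP x⟩ : {x : M // T x = x}), (⟨x - T x, hQ x⟩ : {x : M // T x = -x}))) := by
    intro x x' h
    have h1 : x + T x = x' + T x' := congrArg (fun pq => (pq.1 : M)) h
    have h2' : x - T x = x' - T x' := congrArg (fun pq => (pq.2 : M)) h
    have h3 : (x - x') + (x - x') = 0 := by
      have h4 : (x + T x) + (x - T x) = (x' + T x') + (x' - T x') := by rw [h1, h2']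
      have e1 : (x + T x) + (x - T x) = x + x := by abel
      have e2 : (x' + T x') + (x' - T x') = x' + x' := by abel
      rw [e1, e2] at h4
      have e3 : (x - x') + (x - x') = (x + x) - (x' + x') := by abel
      rw [e3, h4, sub_self]
    exact sub_eq_zero.1 (h2 _ h3)
  have hJIJ : ∀ x, J (I (J x)) = I x := by
    intro x
    rw [hJI, hJ, map_neg, neg_neg]
  have hIJI : ∀ x, I (J (I x)) = J x := by
    intro x
    rw [hIJ, hI, map_neg, neg_neg]
  have hTU : ∀ x, T (I (J x)) = -(I (J (T x))) := by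
    intro x
    have e1 : T (I (J x)) = a • (-(J x)) + b • I x := by
      rw [hT, hI, hJIJ]
    have e2 : I (J (T x)) = a • J x + b • (-(I x)) := by
      rw [hT, map_add, map_nsmul, map_nsmul, map_add, map_nsmul, map_nsmul, hIJI, hJ, map_neg]
    rw [e1, e2]
    simp only [smul_neg]
    abel
  have hUU : ∀ x, I (J (I (J x))) = -x := by
    intro x
    rw [hJIJ, hI]
  have hUinj : ∀ x x' : M, I (J x) = I (J x') → x = x' := by
    intro x x' h
    have h' : I (J (I (J x))) = I (J (I (J x'))) := by rw [h]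
    rw [hUU, hUU] at h'
    exact neg_injective h'
  have hle1 : Nat.card {x : M // T x = x} ≤ Nat.card {x : M // T x = -x} := by
    apply Nat.card_le_card_of_injective (fun x : {x : M // T x = x} =>
      (⟨I (J x.1), by rw [hTU, x.2]⟩ : {x : M // T x = -x}))
    intro x x' h
    exact Subtype.ext (hUinj _ _ (congrArg Subtype.val h))
  have hle2 : Nat.card {x : M // T x = -x} ≤ Nat.card {x : M // T x = x} := by
    apply Nat.card_le_card_of_injective (fun x : {x : M // T x = -x} =>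
      (⟨I (J x.1), by rw [hTU, x.2, map_neg, map_neg, neg_neg]⟩ : {x : M // T x = x}))
    intro x x' h
    exact Subtype.ext (hUinj _ _ (congrArg Subtype.val h))
  have hc1 : Nat.card {x : M // T x = x} * Nat.card {x : M // T x = -x} ≤ Nat.card M := by
    rw [← Nat.card_prod]
    exact Nat.card_le_card_of_injective _ hinj1
  have hc2 : Nat.card M ≤ Nat.card {x : M // T x = x} * Nat.card {x : M // T x = -x} := by
    rw [← Nat.card_prod]
    exact Nat.card_le_card_of_injective _ hinj2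
  have heq : Nat.card {x : M // T x = x} = Nat.card {x : M // T x = -x} :=
    le_antisymm hle1 hle2
  refine ⟨Nat.card {x : M // T x = x}, ?_⟩
  have hfin := le_antisymm hc2 hc1
  rw [hfin, heq]

theorem card_isSquare_of_quat_mul {K : Type*} [Group K] [Finite K]
    (hcomm : ∀ x y : K, x * y = y * x) (hodd : Odd (Nat.card K))
    (I J : K →* K) (hI : ∀ x, I (I x) = x⁻¹) (hJ : ∀ x, J (J x) = x⁻¹)
    (hIJ : ∀ x, I (J x) = (J (I x))⁻¹) : IsSquare (Nat.card K) := by
  letI : CommGroup K := { ‹Group K› with mul_comm := hcomm }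
  exact card_isSquare_of_quat (M := Additive K) hodd (MonoidHom.toAdditive I)
    (MonoidHom.toAdditive J) hI hJ hIJ

theorem frob_quat_kernel_square {G : Type*} [Group G] [Finite G] (K H : Subgroup G) [K.Normal]
    (hc : Subgroup.IsComplement' K H) (hK : K ≠ ⊥)
    (hfpf : ∀ h ∈ H, h ≠ 1 → K ⊓ Subgroup.centralizer {h} = ⊥)
    (i j z : G) (hi : i ∈ H) (hj : j ∈ H) (hz1 : z ≠ 1) (hzz : z * z = 1)
    (hii : i * i = z) (hjj : j * j = z) (hij : i * j = z * (j * i)) :
    Odd (Nat.card K) ∧ IsSquare (Nat.card K) := by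
  classical
  have hzH : z ∈ H := hii ▸ H.mul_mem hi hi
  have hH : H ≠ ⊥ := by
    intro h
    rw [h, Subgroup.mem_bot] at hzH
    exact hz1 hzH
  have hcop := frob_coprime_card K H hc hK hH hfpf
  haveI : Fact (Nat.Prime 2) := ⟨Nat.prime_two⟩
  have hzo : orderOf z = 2 := orderOf_eq_prime (by rw [pow_two]; exact hzz) hz1
  have h2H : 2 ∣ Nat.card H := by
    have h1 : orderOf (⟨z, hzH⟩ : H) = 2 := by rw [← Subgroup.orderOf_coe]; exact hzo
    rw [← h1]; exact orderOf_dvd_natCard _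
  have hodd : Odd (Nat.card K) := by
    rw [← Nat.coprime_two_left]
    exact Nat.Coprime.coprime_dvd_left h2H hcop.symm
  have hinv : ∀ k ∈ K, z * k * z⁻¹ = k⁻¹ :=
    frob_involution_inverts K z hzz (hfpf z hzH hz1)
  have hKcomm : ∀ x ∈ K, ∀ y ∈ K, x * y = y * x := by
    intro x hx y hy
    have h1 := hinv (x * y) (K.mul_mem hx hy)
    have h2 := hinv x hx
    have h3 := hinv y hy
    have h4 : z * (x * y) * z⁻¹ = (z * x * z⁻¹) * (z * y * z⁻¹) := by group
    rw [h4, h2, h3] at h1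
    have h5 : (x⁻¹ * y⁻¹)⁻¹ = ((x * y)⁻¹)⁻¹ := by rw [h1]
    rw [mul_inv_rev, inv_inv, inv_inv, inv_inv] at h5
    exact h5.symm
  obtain ⟨I, hIdef⟩ : ∃ I : K →* K, ∀ k : K, (I k : G) = i * k * i⁻¹ :=
    ⟨(MulAut.conjNormal i : MulAut K).toMonoidHom, fun k => rfl⟩
  obtain ⟨J, hJdef⟩ : ∃ J : K →* K, ∀ k : K, (J k : G) = j * k * j⁻¹ :=
    ⟨(MulAut.conjNormal j : MulAut K).toMonoidHom, fun k => rfl⟩
  have hI : ∀ x : K, I (I x) = x⁻¹ := by
    intro x
    apply Subtype.ext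
    rw [hIdef, hIdef, Subgroup.coe_inv, ← hinv x x.2, ← hii]
    group
  have hJ : ∀ x : K, J (J x) = x⁻¹ := by
    intro x
    apply Subtype.ext
    rw [hJdef, hJdef, Subgroup.coe_inv, ← hinv x x.2, ← hjj]
    group
  have hIJ : ∀ x : K, I (J x) = (J (I x))⁻¹ := by
    intro x
    apply Subtype.ext
    have hmem : j * (i * (x : G) * i⁻¹) * j⁻¹ ∈ K := by
      have h := (J (I x)).2
      rwa [hJdef, hIdef] at h
    rw [hIdef, hJdef, Subgroup.coe_inv, hJdef, hIdef, ← hinv _ hmem]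
    have e1 : i * (j * (x : G) * j⁻¹) * i⁻¹ = (i * j) * x * (i * j)⁻¹ := by group
    have e2 : z * (j * (i * (x : G) * i⁻¹) * j⁻¹) * z⁻¹
        = (z * (j * i)) * x * (z * (j * i))⁻¹ := by group
    rw [e1, e2, hij]
  exact ⟨hodd, card_isSquare_of_quat_mul (K := K)
    (fun x y => Subtype.ext (hKcomm x x.2 y y.2)) hodd I J hI hJ hIJ⟩

theorem frob_setup {L : Type*} [Group L] [Finite L] (H : Subgroup L)
    (hF : Cfsg.IsFrobeniusComplement H) :
    ∃ K : Subgroup L, K.Normal ∧ Subgroup.IsComplement' K H ∧ K ≠ ⊥ ∧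
      (∀ h ∈ H, h ≠ 1 → K ⊓ Subgroup.centralizer {h} = ⊥) ∧
      Nat.card (Cfsg.frobeniusKernel H) = Nat.card K := by
  obtain ⟨K, hKset, hKn, hKH⟩ := frobenius_kernel H hF
  haveI := hKn
  have hK : K ≠ ⊥ := by
    intro h
    rw [h] at hKH
    exact hF.2.1 (Subgroup.isComplement'_bot_left.1 hKH)
  refine ⟨K, hKn, hKH, hK, (Cfsg.Agent.S0039.result K H hKH hK hF.1).1 hF, ?_⟩
  rw [← hKset]; rfl

theorem frob_noncyclic_sylow_kernel {L : Type*} [Group L] [Finite L] (H : Subgroup L)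
    (hF : Cfsg.IsFrobeniusComplement H)
    (hZ : ∃ (p : ℕ) (_ : Fact p.Prime) (P : Sylow p H), ¬ IsCyclic P) :
    Odd (Nat.card (Cfsg.frobeniusKernel H)) ∧ IsSquare (Nat.card (Cfsg.frobeniusKernel H)) := by
  classical
  obtain ⟨K, hKn, hKH, hK, hfpf, hKcard⟩ := frob_setup H hF
  haveI := hKn
  rw [hKcard]
  obtain ⟨p, hp, P, hP⟩ := hZ
  rcases frob_sylow_cyclic_or_quat K H hKH hK hfpf p P with h | ⟨n, ⟨e⟩⟩
  · exact absurd h hP
  · have hn : n ≠ 0 := by
      rintro rfl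
      apply hP
      haveI : IsCyclic (QuaternionGroup (2 ^ 0)) := by
        rw [pow_zero]; exact QuaternionGroup.quaternionGroup_one_isCyclic
      exact e.isCyclic.2 inferInstance
    obtain ⟨m, rfl⟩ : ∃ m, n = m + 1 := Nat.exists_eq_succ_of_ne_zero hn
    obtain ⟨ψ, hψinj, hψH⟩ : ∃ ψ : QuaternionGroup (2 ^ (m + 1)) →* L,
        Function.Injective ψ ∧ ∀ x, ψ x ∈ H :=
      ⟨H.subtype.comp ((P : Subgroup H).subtype.comp e.symm.toMonoidHom),
        H.subtype_injective.comp ((P : Subgroup H).subtype_injective.comp e.symm.injective),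
        fun x => (((P : Subgroup H).subtype (e.symm x))).2⟩
    have r1 : (QuaternionGroup.a (2 ^ m : ZMod (2 * 2 ^ (m + 1))) : QuaternionGroup (2 ^ (m + 1)))
        * QuaternionGroup.a (2 ^ m)
        = QuaternionGroup.a ((2 ^ (m + 1) : ℕ) : ZMod (2 * 2 ^ (m + 1))) := by
      rw [QuaternionGroup.a_mul_a]; congr 1; push_cast; ring
    have r2 : (QuaternionGroup.xa 0 : QuaternionGroup (2 ^ (m + 1))) * QuaternionGroup.xa 0
        = QuaternionGroup.a ((2 ^ (m + 1) : ℕ) : ZMod (2 * 2 ^ (m + 1))) := by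
      rw [QuaternionGroup.xa_mul_xa]; congr 1; simp
    have r3 : (QuaternionGroup.a ((2 ^ (m + 1) : ℕ) : ZMod (2 * 2 ^ (m + 1))) :
        QuaternionGroup (2 ^ (m + 1))) * QuaternionGroup.a ((2 ^ (m + 1) : ℕ) : ZMod (2 * 2 ^ (m + 1)))
        = 1 := by
      rw [QuaternionGroup.a_mul_a, QuaternionGroup.one_def]; congr 1
      calc ((2 ^ (m + 1) : ℕ) : ZMod (2 * 2 ^ (m + 1))) + ((2 ^ (m + 1) : ℕ) : ZMod (2 * 2 ^ (m + 1)))
          = ((2 * 2 ^ (m + 1) : ℕ) : ZMod (2 * 2 ^ (m + 1))) := by push_cast; ring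
        _ = 0 := ZMod.natCast_self _
    have r4 : (QuaternionGroup.a ((2 ^ (m + 1) : ℕ) : ZMod (2 * 2 ^ (m + 1))) :
        QuaternionGroup (2 ^ (m + 1))) ≠ 1 := by
      intro h
      rw [QuaternionGroup.one_def] at h
      have h' : ((2 ^ (m + 1) : ℕ) : ZMod (2 * 2 ^ (m + 1))) = 0 := QuaternionGroup.a.inj h
      have h'' := (ZMod.natCast_eq_zero_iff _ _).1 h'
      have hpos : 0 < 2 ^ (m + 1) := by positivity
      have := Nat.le_of_dvd hpos h''
      omega
    have r5 : (QuaternionGroup.a (2 ^ m : ZMod (2 * 2 ^ (m + 1))) : QuaternionGroup (2 ^ (m + 1)))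
        * QuaternionGroup.xa 0
        = QuaternionGroup.a ((2 ^ (m + 1) : ℕ) : ZMod (2 * 2 ^ (m + 1)))
          * (QuaternionGroup.xa 0 * QuaternionGroup.a (2 ^ m)) := by
      rw [QuaternionGroup.a_mul_xa, QuaternionGroup.xa_mul_a, QuaternionGroup.a_mul_xa]
      congr 1; push_cast; ring
    exact frob_quat_kernel_square K H hKH hK hfpf
      (ψ (QuaternionGroup.a (2 ^ m))) (ψ (QuaternionGroup.xa 0))
      (ψ (QuaternionGroup.a ((2 ^ (m + 1) : ℕ) : ZMod (2 * 2 ^ (m + 1)))))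
      (hψH _) (hψH _) (fun h => r4 (hψinj (h.trans (map_one ψ).symm)))
      (by rw [← map_mul, r3, map_one]) (by rw [← map_mul, r1]) (by rw [← map_mul, r2])
      (by rw [← map_mul, ← map_mul, ← map_mul, r5])

/-- the additive automorphism `(x, y) ↦ (-y, x)` -/
def quatIAdd (n : ℕ) : (ZMod n × ZMod n) ≃+ (ZMod n × ZMod n) where
  toFun v := (-v.2, v.1)
  invFun v := (v.2, -v.1)
  left_inv v := Prod.ext rfl (neg_neg v.2)
  right_inv v := Prod.ext (neg_neg v.1) rfl
  map_add' v w := Prod.ext (by show -(v.2 + w.2) = -v.2 + -w.2; ring) rfl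

/-- the additive automorphism `(x, y) ↦ (a x + b y, b x - a y)` when `a^2 + b^2 = -1` -/
def quatJAdd (n : ℕ) (a b : ZMod n) (h : a ^ 2 + b ^ 2 = -1) :
    (ZMod n × ZMod n) ≃+ (ZMod n × ZMod n) where
  toFun v := (a * v.1 + b * v.2, b * v.1 - a * v.2)
  invFun v := (-(a * v.1 + b * v.2), -(b * v.1 - a * v.2))
  left_inv v := Prod.ext
    (by show -(a * (a * v.1 + b * v.2) + b * (b * v.1 - a * v.2)) = v.1
        linear_combination (-v.1) * h)
    (by show -(b * (a * v.1 + b * v.2) - a * (b * v.1 - a * v.2)) = v.2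
        linear_combination (-v.2) * h)
  right_inv v := Prod.ext
    (by show a * (-(a * v.1 + b * v.2)) + b * (-(b * v.1 - a * v.2)) = v.1
        linear_combination (-v.1) * h)
    (by show b * (-(a * v.1 + b * v.2)) - a * (-(b * v.1 - a * v.2)) = v.2
        linear_combination (-v.2) * h)
  map_add' v w := Prod.ext
    (by show a * (v.1 + w.1) + b * (v.2 + w.2) = (a * v.1 + b * v.2) + (a * w.1 + b * w.2)
        ring)
    (by show b * (v.1 + w.1) - a * (v.2 + w.2) = (b * v.1 - a * v.2) + (b * w.1 - a * w.2)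
        ring)

theorem quatIAdd_sq (n : ℕ) (v : ZMod n × ZMod n) : quatIAdd n (quatIAdd n v) = -v :=
  Prod.ext rfl rfl

theorem quatJAdd_sq (n : ℕ) (a b : ZMod n) (h : a ^ 2 + b ^ 2 = -1) (v : ZMod n × ZMod n) :
    quatJAdd n a b h (quatJAdd n a b h v) = -v :=
  Prod.ext
    (by show a * (a * v.1 + b * v.2) + b * (b * v.1 - a * v.2) = -v.1
        linear_combination v.1 * h)
    (by show b * (a * v.1 + b * v.2) - a * (b * v.1 - a * v.2) = -v.2
        linear_combination v.2 * h)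

theorem quatIJI (n : ℕ) (a b : ZMod n) (h : a ^ 2 + b ^ 2 = -1) (v : ZMod n × ZMod n) :
    quatIAdd n (quatJAdd n a b h (quatIAdd n v)) = quatJAdd n a b h v :=
  Prod.ext
    (by show -(b * (-v.2) - a * v.1) = a * v.1 + b * v.2
        ring)
    (by show a * (-v.2) + b * v.1 = b * v.1 - a * v.2
        ring)

theorem quat_two_cases : ∀ g : QuaternionGroup 2, g ≠ 1 →
    g = QuaternionGroup.a 2 ∨ g * g = QuaternionGroup.a 2 := by
  decide

theorem exists_frob_quat_kernel (n : ℕ) (hn1 : 1 < n) (hodd : Odd n) :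
    ∃ (L : Type) (_ : Group L) (_ : Finite L) (H : Subgroup L), Cfsg.IsFrobeniusComplement H ∧
      Nonempty (H ≃* QuaternionGroup 2) ∧ Nat.card (Cfsg.frobeniusKernel H) = n * n := by
  classical
  haveI : NeZero n := ⟨by omega⟩
  haveI : Fact (1 < n) := ⟨hn1⟩
  obtain ⟨a₀, b₀, hab⟩ := exists_sq_add_sq_add_one n hodd
  have hab' : ((a₀ : ZMod n)) ^ 2 + (b₀ : ZMod n) ^ 2 = -1 := by
    have h := (ZMod.natCast_eq_zero_iff (a₀ ^ 2 + b₀ ^ 2 + 1) n).2 hab
    push_cast at h
    exact eq_neg_of_add_eq_zero_left h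
  obtain ⟨a, b, h⟩ : ∃ a b : ZMod n, a ^ 2 + b ^ 2 = -1 := ⟨_, _, hab'⟩
  obtain ⟨I, hI⟩ : ∃ I : MulAut (Multiplicative (ZMod n × ZMod n)),
      ∀ v, I v = Multiplicative.ofAdd (quatIAdd n (Multiplicative.toAdd v)) :=
    ⟨AddEquiv.toMultiplicative (quatIAdd n), fun v => rfl⟩
  obtain ⟨J, hJ⟩ : ∃ J : MulAut (Multiplicative (ZMod n × ZMod n)),
      ∀ v, J v = Multiplicative.ofAdd (quatJAdd n a b h (Multiplicative.toAdd v)) :=
    ⟨AddEquiv.toMultiplicative (quatJAdd n a b h), fun v => rfl⟩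
  have hII : ∀ v, I (I v) = v⁻¹ := by
    intro v
    rw [hI, hI, toAdd_ofAdd, quatIAdd_sq]; rfl
  have hJJ : ∀ v, J (J v) = v⁻¹ := by
    intro v
    rw [hJ, hJ, toAdd_ofAdd, quatJAdd_sq]; rfl
  have hI4 : I ^ (2 * 2) = 1 := by
    rw [pow_mul, pow_two, pow_two]
    apply MulEquiv.ext
    intro v
    simp only [MulAut.mul_apply, hII, inv_inv, MulAut.one_apply]
  have hJ2 : J * J = I ^ 2 := by
    rw [pow_two]
    apply MulEquiv.ext
    intro v
    rw [MulAut.mul_apply, MulAut.mul_apply, hJJ, hII]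
  have hIJI : I * J * I = J := by
    apply MulEquiv.ext
    intro v
    simp only [MulAut.mul_apply, hI, hJ, toAdd_ofAdd, quatIJI]
  have hax : J⁻¹ * I * J = I⁻¹ := by
    rw [mul_assoc, inv_mul_eq_iff_eq_mul, eq_comm, mul_inv_eq_iff_eq_mul]
    exact hIJI.symm
  obtain ⟨ψ, hψ⟩ : ∃ ψ : QuaternionGroup 2 →* MulAut (Multiplicative (ZMod n × ZMod n)),
      ψ (QuaternionGroup.a 2) = I * I := by
    refine ⟨quaternionLift 2 I J hI4 hJ2 hax, ?_⟩
    show I ^ ((2 : ZMod (2 * 2))).val = I * I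
    rw [show ((2 : ZMod (2 * 2))).val = 2 from rfl, pow_two]
  have hcardV : Nat.card (Multiplicative (ZMod n × ZMod n)) = n * n := by
    show Nat.card (ZMod n × ZMod n) = n * n
    rw [Nat.card_prod, Nat.card_zmod]
  have hoddV : Odd (Nat.card (Multiplicative (ZMod n × ZMod n))) := by
    rw [hcardV]; exact hodd.mul hodd
  have hfree : ∀ g : QuaternionGroup 2, g ≠ 1 →
      ∀ v : Multiplicative (ZMod n × ZMod n), ψ g v = v → v = 1 := by
    intro g hg v hv
    have hvv : v = v⁻¹ := by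
      rcases quat_two_cases g hg with h1 | h1
      · rw [h1, hψ, MulAut.mul_apply, hII] at hv
        exact hv.symm
      · have h2 : ψ g (ψ g v) = v⁻¹ := by
          rw [← MulAut.mul_apply, ← map_mul, h1, hψ, MulAut.mul_apply, hII]
        rw [hv, hv] at h2
        exact h2
    apply eq_one_of_mul_self_of_odd hoddV
    nth_rewrite 2 [hvv]
    exact mul_inv_cancel v
  haveI hfin : Finite (Multiplicative (ZMod n × ZMod n) ⋊[ψ] QuaternionGroup 2) :=
    Finite.of_equiv _ SemidirectProduct.equivProd.symm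
  have hF := Cfsg.Agent.Lib.Helper7.isFrobeniusComplement_range_inr ψ hfree
  refine ⟨Multiplicative (ZMod n × ZMod n) ⋊[ψ] QuaternionGroup 2, inferInstance, hfin,
    (SemidirectProduct.inr : QuaternionGroup 2 →* _).range, hF,
    ⟨Cfsg.Agent.Lib.Helper7.rangeInrEquiv ψ⟩, ?_⟩
  rw [frob_card_kernel _ hF]
  have h1 := (SemidirectProduct.inr : QuaternionGroup 2 →*
    Multiplicative (ZMod n × ZMod n) ⋊[ψ] QuaternionGroup 2).range.card_mul_index
  have h2 : Nat.card (Multiplicative (ZMod n × ZMod n) ⋊[ψ] QuaternionGroup 2)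
      = n * n * Nat.card (QuaternionGroup 2) := by
    rw [Nat.card_congr SemidirectProduct.equivProd, Nat.card_prod, hcardV]
  have h3 : Nat.card (SemidirectProduct.inr : QuaternionGroup 2 →*
      Multiplicative (ZMod n × ZMod n) ⋊[ψ] QuaternionGroup 2).range
      = Nat.card (QuaternionGroup 2) :=
    Nat.card_congr (Cfsg.Agent.Lib.Helper7.rangeInrEquiv ψ).toEquiv
  rw [h2, h3, mul_comm] at h1
  exact Nat.eq_of_mul_eq_mul_right Nat.card_pos h1

theorem frob_quat_kernel_iff (m : ℕ) :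
    (∃ (L : Type) (_ : Group L) (_ : Finite L) (H : Subgroup L), Cfsg.IsFrobeniusComplement H ∧
        Nonempty (H ≃* QuaternionGroup 2) ∧ Nat.card (Cfsg.frobeniusKernel H) = m) ↔
    (Odd m ∧ IsSquare m ∧ 1 < m) := by
  constructor
  · rintro ⟨L, iG, iF, H, hF, ⟨e⟩, hcard⟩
    obtain ⟨K, hKn, hKH, hK, hfpf, hKcard⟩ := frob_setup H hF
    haveI := hKn
    obtain ⟨ψ, hψinj, hψH⟩ : ∃ ψ : QuaternionGroup 2 →* L,
        Function.Injective ψ ∧ ∀ x, ψ x ∈ H :=
      ⟨H.subtype.comp e.symm.toMonoidHom, H.subtype_injective.comp e.symm.injective,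
        fun x => (e.symm x).2⟩
    have r1 : (QuaternionGroup.a 1 : QuaternionGroup 2) * QuaternionGroup.a 1
        = QuaternionGroup.a 2 := by decide
    have r2 : (QuaternionGroup.xa 0 : QuaternionGroup 2) * QuaternionGroup.xa 0
        = QuaternionGroup.a 2 := by decide
    have r3 : (QuaternionGroup.a 2 : QuaternionGroup 2) * QuaternionGroup.a 2 = 1 := by decide
    have r4 : (QuaternionGroup.a 2 : QuaternionGroup 2) ≠ 1 := by decide
    have r5 : (QuaternionGroup.a 1 : QuaternionGroup 2) * QuaternionGroup.xa 0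
        = QuaternionGroup.a 2 * (QuaternionGroup.xa 0 * QuaternionGroup.a 1) := by decide
    have hres := frob_quat_kernel_square K H hKH hK hfpf
      (ψ (QuaternionGroup.a 1)) (ψ (QuaternionGroup.xa 0)) (ψ (QuaternionGroup.a 2))
      (hψH _) (hψH _) (fun h => r4 (hψinj (h.trans (map_one ψ).symm)))
      (by rw [← map_mul, r3, map_one]) (by rw [← map_mul, r1]) (by rw [← map_mul, r2])
      (by rw [← map_mul, ← map_mul, ← map_mul, r5])
    rw [← hcard, hKcard]
    exact ⟨hres.1, hres.2, (Subgroup.one_lt_card_iff_ne_bot K).2 hK⟩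
  · rintro ⟨hodd, ⟨n, rfl⟩, h1⟩
    have hn_odd : Odd n := (Nat.odd_mul.1 hodd).1
    have hn1 : 1 < n := by
      by_contra hcon
      push Not at hcon
      have h2 : n * n ≤ 1 * 1 := Nat.mul_le_mul hcon hcon
      omega
    exact exists_frob_quat_kernel n hn1 hn_odd

end Cfsg.Agent.Lib.Lead
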