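import Mathlib
import Cfsg.Agent.Lib.Lead.FrobQuat
import Cfsg.Agent.Lib.Lead.SZ
import Cfsg.Agent.S0023

/-! Groups with an abelian maximal subgroup have derived length at most three. -/

set_option autoImplicit false

namespace Cfsg.Agent.Lib.Lead

open scoped Pointwise commutatorElement

theorem commutator_top_le_of_quot_comm {G : Type*} [Group G] (N : Subgroup G) [N.Normal]
    (h : ∀ x y : G ⧸ N, x * y = y * x) : ⁅(⊤ : Subgroup G), ⊤⁆ ≤ N := by
  rw [Subgroup.commutator_le]
  intro g₁ _ g₂ _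
  rw [← QuotientGroup.eq_one_iff]
  have h3 : ((⁅g₁, g₂⁆ : G) : G ⧸ N) = ⁅(g₁ : G ⧸ N), (g₂ : G ⧸ N)⁆ :=
    map_commutatorElement (QuotientGroup.mk' N) g₁ g₂
  rw [h3]
  exact commutatorElement_eq_one_iff_mul_comm.2 (h _ _)

theorem le_of_sup_eq_top_of_disjoint {G : Type*} [Group G] (N K H : Subgroup G)
    (hHN : H ≤ Subgroup.normalizer (N : Set G)) (hKH : K ⊓ H = ⊥) (hNK : N ≤ K)
    (htop : N ⊔ H = ⊤) : K ≤ N := by
  intro x hx
  have hx' : x ∈ ((N ⊔ H : Subgroup G) : Set G) := by rw [htop]; exact Subgroup.mem_top x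
  rw [Subgroup.coe_mul_of_right_le_normalizer_left N H hHN] at hx'
  obtain ⟨n, hn, h, hh, rfl⟩ := Set.mem_mul.1 hx'
  have hhK : h ∈ K := by
    have e : h = n⁻¹ * (n * h) := by group
    rw [e]; exact K.mul_mem (K.inv_mem (hNK hn)) hx
  have h1 : h ∈ K ⊓ H := Subgroup.mem_inf.2 ⟨hhK, hh⟩
  rw [hKH, Subgroup.mem_bot] at h1
  rw [h1, mul_one]; exact hn

theorem derived_two_of_normal_coatom {G : Type*} [Group G] (A : Subgroup G) (hA : IsCoatom A)
    (hAcomm : ∀ x ∈ A, ∀ y ∈ A, x * y = y * x) [A.Normal] : derivedSeries G 2 = ⊥ := by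
  have hcomm : ∀ x y : G ⧸ A, x * y = y * x := by
    intro x y
    by_cases hx : x = 1
    · rw [hx, one_mul, mul_one]
    · have htop : Subgroup.zpowers x = ⊤ := by
        have h1 : (Subgroup.zpowers x).comap (QuotientGroup.mk' A) = ⊤ := by
          apply hA.2
          refine lt_of_le_of_ne ?_ ?_
          · intro a ha
            rw [Subgroup.mem_comap]
            have : QuotientGroup.mk' A a = 1 := (QuotientGroup.eq_one_iff a).2 ha
            rw [this]; exact Subgroup.one_mem _
          · intro heq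
            obtain ⟨g, rfl⟩ := QuotientGroup.mk_surjective x
            have hg : g ∈ (Subgroup.zpowers (QuotientGroup.mk g : G ⧸ A)).comap
                (QuotientGroup.mk' A) := by
              rw [Subgroup.mem_comap]; exact Subgroup.mem_zpowers _
            rw [← heq] at hg
            exact hx ((QuotientGroup.eq_one_iff g).2 hg)
        have h2 := Subgroup.map_comap_eq_self_of_surjective (QuotientGroup.mk'_surjective A)
          (Subgroup.zpowers x)
        rw [h1, Subgroup.map_top_of_surjective _ (QuotientGroup.mk'_surjective A)] at h2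
        exact h2.symm
      have hy : y ∈ Subgroup.zpowers x := by rw [htop]; exact Subgroup.mem_top y
      obtain ⟨i, rfl⟩ := Subgroup.mem_zpowers_iff.1 hy
      exact ((Commute.refl x).zpow_right i).eq
  have hD1 : derivedSeries G 1 ≤ A := commutator_top_le_of_quot_comm A hcomm
  have e2 : derivedSeries G 2 = ⁅derivedSeries G 1, derivedSeries G 1⁆ := rfl
  rw [e2, eq_bot_iff]
  refine le_trans (Subgroup.commutator_mono hD1 hD1) ?_
  rw [Subgroup.commutator_le]
  intro g₁ h₁ g₂ h₂
  rw [Subgroup.mem_bot]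
  exact commutatorElement_eq_one_iff_mul_comm.2 (hAcomm g₁ h₁ g₂ h₂)

theorem derived_three_of_abelian_coatom {G : Type*} [Group G] [Finite G] (A : Subgroup G)
    (hA : IsCoatom A) (hAcomm : ∀ x ∈ A, ∀ y ∈ A, x * y = y * x) : derivedSeries G 3 = ⊥ := by
  classical
  have e3 : derivedSeries G 3 = ⁅derivedSeries G 2, derivedSeries G 2⁆ := rfl
  by_cases hAn : A.Normal
  · haveI := hAn
    rw [e3, derived_two_of_normal_coatom A hA hAcomm, Subgroup.commutator_bot_left]
  have hNA : Subgroup.normalizer (A : Set G) = A := by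
    by_contra hne
    have hlt : A < Subgroup.normalizer (A : Set G) :=
      lt_of_le_of_ne Subgroup.le_normalizer (Ne.symm hne)
    exact hAn (Subgroup.normalizer_eq_top_iff.1 (hA.2 _ hlt))
  have hZA : Subgroup.center G ≤ A := by
    have h := Subgroup.center_le_normalizer (A : Set G)
    rwa [hNA] at h
  have hinter : ∀ g : G, g ∉ A → A ⊓ (MulAut.conj g • A) ≤ Subgroup.center G := by
    intro g hg x hx
    obtain ⟨hxA, hxg⟩ := Subgroup.mem_inf.1 hx
    have hxg' : g⁻¹ * x * g ∈ A := mem_conj_smul.1 hxg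
    have hsup : A ⊔ (MulAut.conj g • A) = ⊤ := by
      by_contra hne
      have hle : MulAut.conj g • A ≤ A := by
        by_contra hnle
        apply hne
        apply hA.2
        refine lt_of_le_of_ne le_sup_left ?_
        intro heq
        apply hnle
        have h2 : MulAut.conj g • A ≤ A ⊔ MulAut.conj g • A := le_sup_right
        rwa [← heq] at h2
      have heq : MulAut.conj g • A = A :=
        Subgroup.eq_of_le_of_card_ge hle (card_conj_smul g A).ge
      apply hg
      have hgN : g ∈ Subgroup.normalizer (A : Set G) := by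
        rw [Subgroup.mem_normalizer_iff]
        intro h
        constructor
        · intro hh
          have := conj_mem_conj_smul (g := g) hh
          rwa [heq] at this
        · intro hh
          rw [← heq] at hh
          have h2 := mem_conj_smul.1 hh
          have e : g⁻¹ * (g * h * g⁻¹) * g = h := by group
          rwa [e] at h2
      rwa [hNA] at hgN
    have hcent : A ⊔ (MulAut.conj g • A) ≤ Subgroup.centralizer {x} := by
      apply sup_le
      · intro a ha
        rw [Subgroup.mem_centralizer_iff]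
        intro y hy
        rw [Set.mem_singleton_iff] at hy
        rw [hy]
        exact hAcomm x hxA a ha
      · intro b hb
        rw [Subgroup.mem_centralizer_iff]
        intro y hy
        rw [Set.mem_singleton_iff] at hy
        rw [hy]
        have hb' : g⁻¹ * b * g ∈ A := mem_conj_smul.1 hb
        have h := hAcomm _ hxg' _ hb'
        calc x * b = g * ((g⁻¹ * x * g) * (g⁻¹ * b * g)) * g⁻¹ := by group
          _ = g * ((g⁻¹ * b * g) * (g⁻¹ * x * g)) * g⁻¹ := by rw [h]
          _ = b * x := by group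
    rw [Subgroup.mem_center_iff]
    intro y
    have hy : y ∈ Subgroup.centralizer {x} := hcent (by rw [hsup]; exact Subgroup.mem_top y)
    rw [Subgroup.mem_centralizer_iff] at hy
    exact (hy x (Set.mem_singleton x)).symm
  obtain ⟨π, hπ⟩ : ∃ π : G →* G ⧸ Subgroup.center G,
      π = QuotientGroup.mk' (Subgroup.center G) := ⟨_, rfl⟩
  have hπs : Function.Surjective π := by rw [hπ]; exact QuotientGroup.mk'_surjective _
  have hker : π.ker = Subgroup.center G := by rw [hπ]; exact QuotientGroup.ker_mk' _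
  have hπmem : ∀ a : G, π a ∈ A.map π → a ∈ A := by
    intro a ha
    obtain ⟨a', ha', he⟩ := Subgroup.mem_map.1 ha
    have h1 : a'⁻¹ * a ∈ π.ker := by
      rw [MonoidHom.mem_ker, map_mul, map_inv, he, inv_mul_cancel]
    rw [hker] at h1
    have e : a = a' * (a'⁻¹ * a) := by group
    rw [e]; exact A.mul_mem ha' (hZA h1)
  have hĀbot : A.map π ≠ ⊥ := by
    intro h
    rw [Subgroup.map_eq_bot_iff, hker] at h
    apply hAn
    have : A = Subgroup.center G := le_antisymm h hZA
    rw [this]; infer_instance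
  have hĀtop : A.map π ≠ ⊤ := by
    intro h
    apply hA.1
    rw [eq_top_iff]
    intro a _
    apply hπmem
    rw [h]; exact Subgroup.mem_top _
  have hF : Cfsg.IsFrobeniusComplement (A.map π) := by
    unfold Cfsg.IsFrobeniusComplement
    refine ⟨hĀbot, hĀtop, ?_⟩
    intro q hq
    obtain ⟨g, rfl⟩ := hπs q
    have hg : g ∉ A := fun hg => hq (Subgroup.mem_map_of_mem π hg)
    rw [eq_bot_iff]
    intro y hy
    obtain ⟨hy1, hy2⟩ := Subgroup.mem_inf.1 hy
    obtain ⟨a, ha, rfl⟩ := Subgroup.mem_map.1 hy1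
    have hy2' : (π g)⁻¹ * π a * π g ∈ A.map π := mem_conj_smul.1 hy2
    have e : (π g)⁻¹ * π a * π g = π (g⁻¹ * a * g) := by rw [map_mul, map_mul, map_inv]
    rw [e] at hy2'
    have h3 : g⁻¹ * a * g ∈ A := hπmem _ hy2'
    have h4 : a ∈ A ⊓ (MulAut.conj g • A) := Subgroup.mem_inf.2 ⟨ha, mem_conj_smul.2 h3⟩
    have h5 : a ∈ π.ker := by rw [hker]; exact hinter g hg h4
    rw [Subgroup.mem_bot]
    exact MonoidHom.mem_ker.1 h5
  have hĀco : IsCoatom (A.map π) := by
    refine ⟨hĀtop, ?_⟩
    intro b hb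
    have hAb : A ≤ b.comap π := by
      intro a ha
      rw [Subgroup.mem_comap]
      exact hb.le (Subgroup.mem_map_of_mem π ha)
    have hne : A ≠ b.comap π := by
      intro heq
      apply hb.ne
      rw [heq, Subgroup.map_comap_eq_self_of_surjective hπs]
    have h1 := hA.2 _ (lt_of_le_of_ne hAb hne)
    have h2 := Subgroup.map_comap_eq_self_of_surjective hπs b
    rw [h1, Subgroup.map_top_of_surjective π hπs] at h2
    exact h2.symm
  obtain ⟨K, hKn, hKA, hKne, hfpf, -⟩ := frob_setup (A.map π) hF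
  haveI := hKn
  have hĀcomm : ∀ x ∈ A.map π, ∀ y ∈ A.map π, x * y = y * x := by
    intro x hx y hy
    obtain ⟨a, ha, rfl⟩ := Subgroup.mem_map.1 hx
    obtain ⟨b, hb, rfl⟩ := Subgroup.mem_map.1 hy
    rw [← map_mul, ← map_mul, hAcomm a ha b hb]
  have hcop : Nat.Coprime (Nat.card (A.map π)) (Nat.card K) :=
    (frob_coprime_card K (A.map π) hKA hKne hĀbot hfpf).symm
  have hsolv : Group.IsSolvable (A.map π) :=
    Group.isSolvable_of_comm (fun a b => Subtype.ext (hĀcomm a.1 a.2 b.1 b.2))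
  have hAK : A.map π ≤ Subgroup.normalizer (K : Set (G ⧸ Subgroup.center G)) := by
    rw [Subgroup.normalizer_eq_top]; exact le_top
  have hKcard : 1 < Nat.card K := (Subgroup.one_lt_card_iff_ne_bot K).2 hKne
  obtain ⟨r, hr, hrK⟩ := Nat.exists_prime_and_dvd hKcard.ne'
  haveI : Fact r.Prime := ⟨hr⟩
  obtain ⟨P, hP⟩ := Cfsg.Agent.S0023.result (A.map π) K hAK hcop (Or.inl hsolv) r
  have hPne : (P : Subgroup K) ≠ ⊥ := P.ne_bot_of_dvd_card hrK
  have hKdisj : K ⊓ A.map π = ⊥ := hKA.disjoint.eq_bot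
  obtain ⟨R, hRdef⟩ : ∃ R : Subgroup (G ⧸ Subgroup.center G),
      R = (P : Subgroup K).map K.subtype := ⟨_, rfl⟩
  rw [← hRdef] at hP
  have hRK : R ≤ K := by
    rw [hRdef]; intro x hx
    obtain ⟨y, _, rfl⟩ := Subgroup.mem_map.1 hx
    exact y.2
  have hRne : R ≠ ⊥ := by
    intro h
    apply hPne
    rw [hRdef] at h
    exact (Subgroup.map_eq_bot_iff_of_injective _ K.subtype_injective).1 h
  have hRtop : R ⊔ A.map π = ⊤ := by
    apply hĀco.2
    refine lt_of_le_of_ne le_sup_right ?_
    intro heq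
    apply hRne
    rw [eq_bot_iff, ← hKdisj]
    intro x hx
    exact Subgroup.mem_inf.2 ⟨hRK hx, by rw [heq]; exact Subgroup.mem_sup_left hx⟩
  have hKR : K ≤ R := le_of_sup_eq_top_of_disjoint R K (A.map π) hP hKdisj hRK hRtop
  have hKp : IsPGroup r K := by
    intro g
    have hgR : (g : G ⧸ Subgroup.center G) ∈ R := hKR g.2
    rw [hRdef] at hgR
    obtain ⟨y, hy, hyg⟩ := Subgroup.mem_map.1 hgR
    have hyg' : y = g := Subtype.ext hyg
    rw [hyg'] at hy
    obtain ⟨k, hk⟩ := P.isPGroup' ⟨g, hy⟩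
    exact ⟨k, congrArg Subtype.val hk⟩
  have hDK : ⁅K, K⁆ ≠ K := by
    intro h
    haveI : Nontrivial K := (Subgroup.nontrivial_iff_ne_bot K).2 hKne
    haveI : Group.IsNilpotent K := hKp.isNilpotent
    have hlt := Group.IsSolvable.commutator_lt_top_of_nontrivial K
    have h1 : (commutator K).map K.subtype = (⊤ : Subgroup K).map K.subtype := by
      rw [Subgroup.map_subtype_commutator, ← MonoidHom.range_eq_map, Subgroup.range_subtype]
      exact h
    exact hlt.ne (Subgroup.map_injective K.subtype_injective h1)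
  have hDle : ⁅K, K⁆ ≤ K := Subgroup.commutator_le_left K K
  have hDbot : ⁅K, K⁆ = ⊥ := by
    have hnorm : A.map π ≤ Subgroup.normalizer
        ((⁅K, K⁆ : Subgroup (G ⧸ Subgroup.center G)) : Set (G ⧸ Subgroup.center G)) := by
      rw [Subgroup.normalizer_eq_top]; exact le_top
    have hnt : ⁅K, K⁆ ⊔ A.map π ≠ ⊤ := fun htop =>
      hDK (le_antisymm hDle
        (le_of_sup_eq_top_of_disjoint _ K (A.map π) hnorm hKdisj hDle htop))
    have hle : ⁅K, K⁆ ≤ A.map π := by
      by_contra hnle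
      apply hnt
      apply hĀco.2
      refine lt_of_le_of_ne le_sup_right ?_
      intro heq
      apply hnle
      rw [heq]; exact le_sup_left
    rw [eq_bot_iff, ← hKdisj]
    exact le_inf hDle hle
  have hdecQ : ∀ x : G ⧸ Subgroup.center G, ∃ k ∈ K, ∃ a ∈ A.map π, x = k * a := by
    intro x
    obtain ⟨⟨k, a⟩, h, -⟩ := Subgroup.IsComplement.existsUnique hKA x
    exact ⟨k.1, k.2, a.1, a.2, h.symm⟩
  have hQKcomm : ∀ x y : (G ⧸ Subgroup.center G) ⧸ K, x * y = y * x := by
    intro x y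
    obtain ⟨g₁, rfl⟩ := QuotientGroup.mk_surjective x
    obtain ⟨g₂, rfl⟩ := QuotientGroup.mk_surjective y
    obtain ⟨k₁, hk₁, a₁, ha₁, rfl⟩ := hdecQ g₁
    obtain ⟨k₂, hk₂, a₂, ha₂, rfl⟩ := hdecQ g₂
    have h1 : ((k₁ * a₁ : G ⧸ Subgroup.center G) : (G ⧸ Subgroup.center G) ⧸ K)
        = (a₁ : (G ⧸ Subgroup.center G) ⧸ K) := by
      rw [QuotientGroup.mk_mul, (QuotientGroup.eq_one_iff k₁).2 hk₁, one_mul]
    have h2 : ((k₂ * a₂ : G ⧸ Subgroup.center G) : (G ⧸ Subgroup.center G) ⧸ K)
        = (a₂ : (G ⧸ Subgroup.center G) ⧸ K) := by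
      rw [QuotientGroup.mk_mul, (QuotientGroup.eq_one_iff k₂).2 hk₂, one_mul]
    rw [h1, h2, ← QuotientGroup.mk_mul, ← QuotientGroup.mk_mul, hĀcomm a₁ ha₁ a₂ ha₂]
  have hQ1 : derivedSeries (G ⧸ Subgroup.center G) 1 ≤ K :=
    commutator_top_le_of_quot_comm K hQKcomm
  have hQ2 : derivedSeries (G ⧸ Subgroup.center G) 2 = ⊥ := by
    have e2 : derivedSeries (G ⧸ Subgroup.center G) 2
        = ⁅derivedSeries (G ⧸ Subgroup.center G) 1,
            derivedSeries (G ⧸ Subgroup.center G) 1⁆ := rfl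
    rw [e2, eq_bot_iff, ← hDbot]
    exact Subgroup.commutator_mono hQ1 hQ1
  have hG2 : derivedSeries G 2 ≤ Subgroup.center G := by
    have h := map_derivedSeries_le_derivedSeries π 2
    rw [hQ2, le_bot_iff, Subgroup.map_eq_bot_iff, hker] at h
    exact h
  rw [e3, eq_bot_iff, Subgroup.commutator_le]
  intro g₁ h₁ g₂ h₂
  rw [Subgroup.mem_bot]
  exact commutatorElement_eq_one_iff_mul_comm.2 ((Subgroup.mem_center_iff.1 (hG2 h₁) g₂).symm)

end Cfsg.Agent.Lib.Lead
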