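import Mathlib
import Cfsg.Agent.Lib.Lead.SylowAux2
import Cfsg.Agent.Lib.Lead.SZ

set_option autoImplicit false

namespace Cfsg.Agent.Lib.Lead

open scoped Pointwise commutatorElement

universe u

theorem normalClosure_le_of_factor {G : Type*} [Group G] [Finite G] {p : ℕ} [Fact p.Prime]
    (H₁ H M : Subgroup G) (hM : IsPGroup p M) (hMn : ∀ h ∈ H₁, ∀ x ∈ M, h * x * h⁻¹ ∈ M)
    (hfac : ∀ g : G, ∃ x ∈ H₁, ∃ y ∈ H, g = x * y) (hp : ¬ p ∣ H.index) :
    Subgroup.normalClosure (M : Set G) ≤ H := by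
  obtain ⟨g, hg⟩ := exists_conj_le_of_not_dvd_index M H hM hp
  have hg' : ∀ x ∈ M, g * x * g⁻¹ ∈ H := fun x hx => hg (conj_mem_conj_smul hx)
  obtain ⟨x₁, hx₁, y, hy, hxy⟩ := hfac g⁻¹
  have hg2 : g = y⁻¹ * x₁⁻¹ := by
    rw [← inv_inv g, hxy]
    group
  have hMH : M ≤ H := by
    intro m hm
    have h1 := hg' _ (hMn x₁ hx₁ m hm)
    rw [hg2] at h1
    have h2 : y⁻¹ * x₁⁻¹ * (x₁ * m * x₁⁻¹) * (y⁻¹ * x₁⁻¹)⁻¹ = y⁻¹ * m * y := by group
    rw [h2] at h1
    have h3 : m = y * (y⁻¹ * m * y) * y⁻¹ := by group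
    rw [h3]
    exact H.mul_mem (H.mul_mem hy h1) (H.inv_mem hy)
  unfold Subgroup.normalClosure
  rw [Subgroup.closure_le]
  intro z hz
  rw [Group.mem_conjugatesOfSet_iff] at hz
  obtain ⟨m, hm, hconj⟩ := hz
  obtain ⟨c, rfl⟩ := isConj_iff.mp hconj
  obtain ⟨x₂, hx₂, y₂, hy₂, hc⟩ := hfac c⁻¹
  have hc2 : c = y₂⁻¹ * x₂⁻¹ := by
    rw [← inv_inv c, hc]
    group
  have h4 : x₂⁻¹ * m * x₂⁻¹⁻¹ ∈ M := hMn _ (H₁.inv_mem hx₂) m hm
  have h5 : c * m * c⁻¹ = y₂⁻¹ * (x₂⁻¹ * m * x₂⁻¹⁻¹) * y₂ := by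
    rw [hc2]
    group
  show c * m * c⁻¹ ∈ H
  rw [h5]
  exact H.mul_mem (H.mul_mem (H.inv_mem hy₂) (hMH h4)) hy₂

theorem solvable_factor : ∀ (n : ℕ) (G : Type u) [Group G] [Finite G] (H₁ H₂ H₃ : Subgroup G),
    Nat.card G = n → Group.IsSolvable H₁ → Group.IsSolvable H₂ → Group.IsSolvable H₃ →
    (∀ g : G, ∃ x ∈ H₁, ∃ y ∈ H₂, g = x * y) → (∀ g : G, ∃ x ∈ H₁, ∃ y ∈ H₃, g = x * y) →
    H₂.index.Coprime H₃.index → Group.IsSolvable G := by
  intro n
  induction n using Nat.strong_induction_on with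
  | _ n ih =>
  intro G _ _ H₁ H₂ H₃ hn h₁ h₂ h₃ h12 h13 hcop
  by_cases hH₁ : H₁ = ⊥
  · have htop : H₂ = ⊤ := by
      rw [eq_top_iff]
      intro g _
      obtain ⟨x, hx, y, hy, rfl⟩ := h12 g
      rw [hH₁, Subgroup.mem_bot] at hx
      rw [hx, one_mul]
      exact hy
    haveI := h₂
    exact Group.isSolvable_of_surjective (f := H₂.subtype) (fun g => ⟨⟨g, htop ▸ Subgroup.mem_top g⟩, rfl⟩)
  · haveI : Nontrivial H₁ := (Subgroup.nontrivial_iff_ne_bot H₁).mpr hH₁
    haveI := h₁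
    obtain ⟨p, hp, M', hM'n, hM'p, hM'1⟩ := exists_normal_pSubgroup_of_solvable H₁
    haveI : Fact p.Prime := ⟨hp⟩
    have hMp : IsPGroup p (M'.map H₁.subtype) := hM'p.map _
    have hMn : ∀ h ∈ H₁, ∀ x ∈ M'.map H₁.subtype, h * x * h⁻¹ ∈ M'.map H₁.subtype := by
      rintro h hh x ⟨x', hx', rfl⟩
      exact ⟨⟨h, hh⟩ * x' * ⟨h, hh⟩⁻¹, hM'n.conj_mem x' hx' ⟨h, hh⟩, rfl⟩
    have hM1 : M'.map H₁.subtype ≠ ⊥ := by
      intro h
      exact hM'1 ((Subgroup.map_eq_bot_iff_of_injective M' (Subgroup.subtype_injective H₁)).mp h)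
    have hpi : ¬ p ∣ H₂.index ∨ ¬ p ∣ H₃.index := by
      by_contra hcon
      push Not at hcon
      exact hp.one_lt.ne' (Nat.eq_one_of_dvd_coprimes hcop hcon.1 hcon.2)
    obtain ⟨N, hNn, hN1, hNs⟩ : ∃ N : Subgroup G, N.Normal ∧ N ≠ ⊥ ∧ Group.IsSolvable N := by
      rcases hpi with hpi | hpi
      · have hle := normalClosure_le_of_factor H₁ H₂ _ hMp hMn h12 hpi
        refine ⟨Subgroup.normalClosure (M'.map H₁.subtype : Set G), Subgroup.normalClosure_normal,
          ?_, ?_⟩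
        · intro h
          apply hM1
          rw [eq_bot_iff, ← h]
          exact Subgroup.le_normalClosure
        · haveI := h₂
          exact Group.isSolvable_of_isSolvable_injective (f := Subgroup.inclusion hle)
            (Subgroup.inclusion_injective hle)
      · have hle := normalClosure_le_of_factor H₁ H₃ _ hMp hMn h13 hpi
        refine ⟨Subgroup.normalClosure (M'.map H₁.subtype : Set G), Subgroup.normalClosure_normal,
          ?_, ?_⟩
        · intro h
          apply hM1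
          rw [eq_bot_iff, ← h]
          exact Subgroup.le_normalClosure
        · haveI := h₃
          exact Group.isSolvable_of_isSolvable_injective (f := Subgroup.inclusion hle)
            (Subgroup.inclusion_injective hle)
    haveI := hNn
    have hlt : Nat.card (G ⧸ N) < n := by
      rw [← hn]
      exact card_quotient_lt N hN1
    have hsurj := QuotientGroup.mk'_surjective N
    have hq : Group.IsSolvable (G ⧸ N) := by
      apply ih _ hlt (G ⧸ N) (H₁.map (QuotientGroup.mk' N)) (H₂.map (QuotientGroup.mk' N))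
        (H₃.map (QuotientGroup.mk' N)) rfl
      · exact Group.isSolvable_of_surjective (f := (QuotientGroup.mk' N).subgroupMap H₁)
          ((QuotientGroup.mk' N).subgroupMap_surjective H₁)
      · haveI := h₂
        exact Group.isSolvable_of_surjective (f := (QuotientGroup.mk' N).subgroupMap H₂)
          ((QuotientGroup.mk' N).subgroupMap_surjective H₂)
      · haveI := h₃
        exact Group.isSolvable_of_surjective (f := (QuotientGroup.mk' N).subgroupMap H₃)
          ((QuotientGroup.mk' N).subgroupMap_surjective H₃)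
      · intro q
        obtain ⟨g, rfl⟩ := hsurj q
        obtain ⟨x, hx, y, hy, rfl⟩ := h12 g
        exact ⟨_, Subgroup.mem_map_of_mem _ hx, _, Subgroup.mem_map_of_mem _ hy, map_mul _ x y⟩
      · intro q
        obtain ⟨g, rfl⟩ := hsurj q
        obtain ⟨x, hx, y, hy, rfl⟩ := h13 g
        exact ⟨_, Subgroup.mem_map_of_mem _ hx, _, Subgroup.mem_map_of_mem _ hy, map_mul _ x y⟩
      · exact Nat.Coprime.coprime_dvd_left (Subgroup.index_map_dvd H₂ hsurj)
          (Nat.Coprime.coprime_dvd_right (Subgroup.index_map_dvd H₃ hsurj) hcop)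
    haveI := hNs
    haveI := hq
    exact Group.isSolvable_of_ker_le_range N.subtype (QuotientGroup.mk' N)
      (by rw [QuotientGroup.ker_mk', Subgroup.range_subtype])

end Cfsg.Agent.Lib.Lead
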