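import Mathlib
import Cfsg.Agent.Lib.Helper2.Nilp
import Cfsg.Agent.Lib.Helper4.PCore

set_option autoImplicit false

namespace Cfsg.Agent.Lib.Lead

open scoped Pointwise commutatorElement

universe u

theorem pCore_frattini_quotient_le {G : Type u} [Group G] [Finite G] (p : ℕ) [Fact p.Prime] :
    Cfsg.pCore p (G ⧸ frattini G) ≤ (Cfsg.pCore p G).map (QuotientGroup.mk' (frattini G)) := by
  have hπs : Function.Surjective (QuotientGroup.mk' (frattini G)) := QuotientGroup.mk'_surjective _
  have hTn : (Cfsg.pCore p (G ⧸ frattini G)).Normal := Cfsg.Agent.Lib.Helper4.pCore_normal p _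
  have hTp : IsPGroup p (Cfsg.pCore p (G ⧸ frattini G)) := Cfsg.Agent.Lib.Helper4.pCore_isPGroup p _
  generalize Cfsg.pCore p (G ⧸ frattini G) = T at hTn hTp ⊢
  have hMn : (T.comap (QuotientGroup.mk' (frattini G))).Normal := hTn.comap _
  obtain S : Sylow p (T.comap (QuotientGroup.mk' (frattini G))) := default
  have hψs : Function.Surjective ((QuotientGroup.mk' (frattini G)).subgroupComap T) :=
    MonoidHom.subgroupComap_surjective_of_surjective _ T hπs
  have hStop : ((S.mapSurjective hψs : Sylow p T) : Subgroup T) = ⊤ :=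
    ((S.mapSurjective hψs).is_maximal' (hTp.to_subgroup ⊤) le_top).symm
  have key : ∀ x ∈ T.comap (QuotientGroup.mk' (frattini G)), ∃ s : G,
      s ∈ (S : Subgroup (T.comap (QuotientGroup.mk' (frattini G)))).map
        (T.comap (QuotientGroup.mk' (frattini G))).subtype ∧
      QuotientGroup.mk' (frattini G) s = QuotientGroup.mk' (frattini G) x := by
    intro x hx
    have h1 : ((QuotientGroup.mk' (frattini G)).subgroupComap T) ⟨x, hx⟩ ∈
        ((S.mapSurjective hψs : Sylow p T) : Subgroup T) := by rw [hStop]; trivial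
    rw [Sylow.coe_mapSurjective] at h1
    obtain ⟨s, hs, hs'⟩ := h1
    refine ⟨(s : G), ⟨s, hs, rfl⟩, ?_⟩
    exact congrArg Subtype.val hs'
  have hS₀p : IsPGroup p ((S : Subgroup (T.comap (QuotientGroup.mk' (frattini G)))).map
        (T.comap (QuotientGroup.mk' (frattini G))).subtype) := S.2.map _
  have hfr := Sylow.normalizer_sup_eq_top S
  generalize (S : Subgroup (T.comap (QuotientGroup.mk' (frattini G)))).map
        (T.comap (QuotientGroup.mk' (frattini G))).subtype = S₀ at key hS₀p hfr
  have hMle : T.comap (QuotientGroup.mk' (frattini G)) ≤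
      Subgroup.normalizer (S₀ : Set G) ⊔ frattini G := by
    intro x hx
    obtain ⟨s, hs, hsx⟩ := key x hx
    have h1 : s⁻¹ * x ∈ frattini G := by
      rw [← QuotientGroup.eq]; exact hsx
    have h2 : x = s * (s⁻¹ * x) := by group
    rw [h2]
    exact Subgroup.mul_mem _ (Subgroup.mem_sup_left (Subgroup.le_normalizer hs))
      (Subgroup.mem_sup_right h1)
  have hNtop : Subgroup.normalizer (S₀ : Set G) = ⊤ := by
    apply frattini_nongenerating
    rw [eq_top_iff, ← hfr]
    exact sup_le le_sup_left hMle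
  have hS₀n : S₀.Normal := Subgroup.normalizer_eq_top_iff.mp hNtop
  have hS₀le : S₀ ≤ Cfsg.pCore p G := Cfsg.Agent.Lib.Helper4.le_pCore hS₀n hS₀p
  intro t ht
  obtain ⟨x, rfl⟩ := hπs t
  obtain ⟨s, hs, hsx⟩ := key x ht
  exact ⟨s, hS₀le hs, hsx⟩

theorem fitting_frattini_quotient {G : Type u} [Group G] [Finite G] :
    Cfsg.fittingSubgroup (G ⧸ frattini G) =
      (Cfsg.fittingSubgroup G).map (QuotientGroup.mk' (frattini G)) := by
  apply le_antisymm
  · apply Cfsg.Agent.Lib.Helper2.subnormal_nilpotent_le _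
      (Subgroup.Normal.isSubnormal (Cfsg.Agent.Lib.Helper2.fitting_normal _))
      (Cfsg.Agent.Lib.Helper2.fitting_isNilpotent _)
    intro p hp
    exact (pCore_frattini_quotient_le p).trans
      (Subgroup.map_mono (Cfsg.Agent.Lib.Helper2.pCore_le_fitting p G))
  · apply le_sSup
    refine ⟨Subgroup.Normal.map (Cfsg.Agent.Lib.Helper2.fitting_normal G) _
      (QuotientGroup.mk'_surjective _), ?_⟩
    have := Cfsg.Agent.Lib.Helper2.fitting_isNilpotent G
    exact Group.nilpotent_of_surjective
      ((QuotientGroup.mk' (frattini G)).subgroupMap (Cfsg.fittingSubgroup G))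
      (MonoidHom.subgroupMap_surjective _ _)

end Cfsg.Agent.Lib.Lead
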