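import Mathlib
import Cfsg.Prelude.Def_ParabolicCharacters
import Cfsg.Agent.Lib.Helper4.GL2Borel
import Cfsg.Agent.Lib.Lead.SZ
import Cfsg.Agent.Lib.Lead.SylowAux
import Cfsg.Agent.S0263

set_option autoImplicit false

namespace Cfsg.Agent.Lib.Lead

variable {F : Type*} [Field F]

noncomputable def gl2U (b : F) : Matrix.GeneralLinearGroup (Fin 2) F :=
  Matrix.GeneralLinearGroup.mkOfDetNeZero !![1, b; 0, 1] (by simp [Matrix.det_fin_two])

theorem gl2U_val (b : F) :
    ((gl2U b : Matrix.GeneralLinearGroup (Fin 2) F) : Matrix (Fin 2) (Fin 2) F) =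
      !![1, b; 0, 1] := rfl

theorem gl2U_mul (a b : F) : gl2U a * gl2U b = gl2U (a + b) := by
  apply Units.ext
  rw [Units.val_mul, gl2U_val, gl2U_val, gl2U_val]
  ext i j
  fin_cases i <;> fin_cases j <;> simp [Matrix.mul_apply, Fin.sum_univ_two, add_comm]

theorem gl2U_zero : gl2U (0 : F) = 1 := by
  apply Units.ext
  rw [gl2U_val]
  ext i j
  fin_cases i <;> fin_cases j <;> simp

/-- the unipotent subgroup as the range of a homomorphism -/
noncomputable def gl2UHom : Multiplicative F →* Matrix.GeneralLinearGroup (Fin 2) F where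
  toFun b := gl2U (Multiplicative.toAdd b)
  map_one' := gl2U_zero
  map_mul' a b := by
    rw [gl2U_mul]; rfl

theorem gl2UHom_injective : Function.Injective (gl2UHom (F := F)) := by
  intro a b h
  have h1 := congrArg
    (fun g : Matrix.GeneralLinearGroup (Fin 2) F => (g : Matrix (Fin 2) (Fin 2) F) 0 1) h
  simpa [gl2UHom, gl2U_val] using h1

theorem mem_gl2U_range (g : Matrix.GeneralLinearGroup (Fin 2) F) :
    g ∈ (gl2UHom (F := F)).range ↔ ∃ b : F, g = gl2U b := by
  constructor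
  · rintro ⟨b, rfl⟩; exact ⟨Multiplicative.toAdd b, rfl⟩
  · rintro ⟨b, rfl⟩; exact ⟨Multiplicative.ofAdd b, rfl⟩

/-- if `k * u(b) = u(b') * k` with `b ≠ 0` then `k` is upper triangular -/
theorem borel_of_intertwine (k : Matrix.GeneralLinearGroup (Fin 2) F) (b b' : F) (hb : b ≠ 0)
    (h : k * gl2U b = gl2U b' * k) : k ∈ Cfsg.upperTriangularGL 2 F := by
  rw [Cfsg.Agent.Lib.Helper4.mem_borel2_iff]
  have h3 := congrArg
    (fun x : Matrix.GeneralLinearGroup (Fin 2) F => (x : Matrix (Fin 2) (Fin 2) F) 1 1) h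
  simp only [Units.val_mul, gl2U_val, Matrix.mul_apply, Fin.sum_univ_two] at h3
  simp at h3
  rcases h3 with h3 | h3
  · exact h3
  · exact absurd h3 hb

theorem normalizer_gl2U :
    Subgroup.normalizer ((gl2UHom (F := F)).range : Set (Matrix.GeneralLinearGroup (Fin 2) F)) =
      Cfsg.upperTriangularGL 2 F := by
  apply le_antisymm
  · intro g hg
    have h1 := (Subgroup.mem_normalizer_iff.mp hg (gl2U 1)).mp ((mem_gl2U_range _).mpr ⟨1, rfl⟩)
    obtain ⟨b', hb'⟩ := (mem_gl2U_range _).mp h1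
    have h2 : g * gl2U 1 = gl2U b' * g := by rw [← hb']; group
    exact borel_of_intertwine g 1 b' one_ne_zero h2
  · apply le_normalizer_of_conj_mem
    intro g hg x hx
    rw [Cfsg.Agent.Lib.Helper4.mem_borel2_iff] at hg
    obtain ⟨b, rfl⟩ := (mem_gl2U_range _).mp hx
    rw [mem_gl2U_range]
    have hd : (g : Matrix (Fin 2) (Fin 2) F) 1 1 ≠ 0 := by
      intro h0
      have hdet := Cfsg.Agent.Lib.Helper4.gl2_det_ne_zero g
      rw [Matrix.det_fin_two, hg, h0] at hdet
      simp at hdet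
    refine ⟨(g : Matrix (Fin 2) (Fin 2) F) 0 0 * b / (g : Matrix (Fin 2) (Fin 2) F) 1 1, ?_⟩
    rw [mul_inv_eq_iff_eq_mul]
    apply Units.ext
    rw [Units.val_mul, Units.val_mul, gl2U_val, gl2U_val]
    ext i j
    fin_cases i <;> fin_cases j <;> simp [Matrix.mul_apply, Fin.sum_univ_two, hg] <;>
      (try field_simp) <;> (try ring)

theorem card_gl2U_range [Fintype F] :
    Nat.card (gl2UHom (F := F)).range = Fintype.card F := by
  have h1 := Nat.card_range_of_injective (gl2UHom_injective (F := F))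
  rw [← Nat.card_eq_fintype_card, ← Nat.card_congr (Multiplicative.toAdd (α := F)), ← h1]
  rfl

theorem exists_sylow_eq_gl2U [Fintype F] (p : ℕ) [Fact p.Prime] [CharP F p] :
    ∃ P : Sylow p (Matrix.GeneralLinearGroup (Fin 2) F),
      (P : Subgroup (Matrix.GeneralLinearGroup (Fin 2) F)) = (gl2UHom (F := F)).range := by
  classical
  obtain ⟨f, hp, hf⟩ := FiniteField.card F p
  have hU : IsPGroup p (gl2UHom (F := F)).range :=
    IsPGroup.of_card (by rw [card_gl2U_range, hf])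
  obtain ⟨P, hP⟩ := hU.exists_le_sylow
  refine ⟨P, ?_⟩
  symm
  apply Subgroup.eq_of_le_of_card_ge hP
  rw [card_gl2U_range, Cfsg.Agent.S0263.result rfl p 2 P]
  norm_num

theorem card_sylow_gl2 [Fintype F] (p : ℕ) [Fact p.Prime] [CharP F p] :
    Nat.card (Sylow p (Matrix.GeneralLinearGroup (Fin 2) F)) = Fintype.card F + 1 := by
  obtain ⟨P, hP⟩ := exists_sylow_eq_gl2U (F := F) p
  have e : Subgroup.normalizer (P : Set (Matrix.GeneralLinearGroup (Fin 2) F)) =
      Subgroup.normalizer ((gl2UHom (F := F)).range :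
        Set (Matrix.GeneralLinearGroup (Fin 2) F)) := by
    congr 1
    exact congrArg (fun H : Subgroup (Matrix.GeneralLinearGroup (Fin 2) F) =>
      (H : Set (Matrix.GeneralLinearGroup (Fin 2) F))) hP
  rw [Sylow.card_eq_index_normalizer P, e, normalizer_gl2U,
    Cfsg.Agent.Lib.Helper4.index_borel2]

theorem sylow_gl2_inf [Fintype F] (p : ℕ) [Fact p.Prime] [CharP F p]
    (P Q : Sylow p (Matrix.GeneralLinearGroup (Fin 2) F)) (h : P ≠ Q) :
    (P : Subgroup (Matrix.GeneralLinearGroup (Fin 2) F)) ⊓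
      (Q : Subgroup (Matrix.GeneralLinearGroup (Fin 2) F)) = ⊥ := by
  obtain ⟨P₀, hP₀⟩ := exists_sylow_eq_gl2U (F := F) p
  obtain ⟨g, hg⟩ := MulAction.exists_smul_eq (Matrix.GeneralLinearGroup (Fin 2) F) P₀ P
  obtain ⟨k, hk⟩ := MulAction.exists_smul_eq (Matrix.GeneralLinearGroup (Fin 2) F) P₀ Q
  rw [eq_bot_iff]
  intro x hx
  rw [Subgroup.mem_bot]
  obtain ⟨hxP, hxQ⟩ := Subgroup.mem_inf.mp hx
  rw [← hg] at hxP
  rw [← hk] at hxQ
  have hxP' : g⁻¹ * x * g ∈ (P₀ : Subgroup (Matrix.GeneralLinearGroup (Fin 2) F)) :=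
    mem_conj_smul.mp hxP
  have hxQ' : k⁻¹ * x * k ∈ (P₀ : Subgroup (Matrix.GeneralLinearGroup (Fin 2) F)) :=
    mem_conj_smul.mp hxQ
  rw [hP₀] at hxP' hxQ'
  obtain ⟨b, hb⟩ := (mem_gl2U_range _).mp hxP'
  obtain ⟨b', hb'⟩ := (mem_gl2U_range _).mp hxQ'
  by_cases hb0 : b = 0
  · rw [hb0, gl2U_zero] at hb
    have e : x = g * (g⁻¹ * x * g) * g⁻¹ := by group
    rw [e, hb]; group
  · exfalso
    apply h
    have h2 : (k⁻¹ * g) * gl2U b = gl2U b' * (k⁻¹ * g) := by
      rw [← hb, ← hb']; group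
    have h3 := borel_of_intertwine (k⁻¹ * g) b b' hb0 h2
    rw [← normalizer_gl2U, ← hP₀] at h3
    have h4 : (k⁻¹ * g) • P₀ = P₀ := Sylow.smul_eq_iff_mem_normalizer.mpr h3
    calc P = g • P₀ := hg.symm
      _ = (k * (k⁻¹ * g)) • P₀ := by rw [mul_inv_cancel_left]
      _ = k • ((k⁻¹ * g) • P₀) := mul_smul _ _ _
      _ = k • P₀ := by rw [h4]
      _ = Q := hk

end Cfsg.Agent.Lib.Lead
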