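import Mathlib
import Cfsg.Agent.Lib.Lead.GL2Sylow

/-! Centraliser in `GL₂` of a non-trivial upper unitriangular element. -/

namespace Cfsg.Agent.Lib.Lead

variable {F : Type*} [Field F]

theorem mem_centralizer_gl2U (b : F) (hb : b ≠ 0) (k : Matrix.GeneralLinearGroup (Fin 2) F) :
    k ∈ Subgroup.centralizer ({gl2U b} : Set (Matrix.GeneralLinearGroup (Fin 2) F)) ↔
      (k : Matrix (Fin 2) (Fin 2) F) 1 0 = 0 ∧
        (k : Matrix (Fin 2) (Fin 2) F) 0 0 = (k : Matrix (Fin 2) (Fin 2) F) 1 1 := by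
  rw [Subgroup.mem_centralizer_iff]
  constructor
  · intro h
    have h' := h (gl2U b) rfl
    have h00 := congrArg
      (fun x : Matrix.GeneralLinearGroup (Fin 2) F => (x : Matrix (Fin 2) (Fin 2) F) 0 0) h'
    have h01 := congrArg
      (fun x : Matrix.GeneralLinearGroup (Fin 2) F => (x : Matrix (Fin 2) (Fin 2) F) 0 1) h'
    simp only [Units.val_mul, gl2U_val, Matrix.mul_apply, Fin.sum_univ_two] at h00 h01
    simp at h00 h01
    have h10 : (k : Matrix (Fin 2) (Fin 2) F) 1 0 = 0 := by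
      rcases h00 with h | h
      · exact absurd h hb
      · exact h
    refine ⟨h10, ?_⟩
    have : b * ((k : Matrix (Fin 2) (Fin 2) F) 1 1 - (k : Matrix (Fin 2) (Fin 2) F) 0 0) = 0 := by
      linear_combination h01
    rcases mul_eq_zero.1 this with h | h
    · exact absurd h hb
    · exact (sub_eq_zero.1 h).symm
  · rintro ⟨h10, h00⟩ x hx
    rw [Set.mem_singleton_iff] at hx
    subst hx
    apply Units.ext
    rw [Units.val_mul, Units.val_mul, gl2U_val]
    ext i j
    fin_cases i <;> fin_cases j <;>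
      simp [Matrix.mul_apply, Fin.sum_univ_two, h10, h00] <;> ring

theorem card_centralizer_gl2U [Fintype F] (b : F) (hb : b ≠ 0) :
    Nat.card (Subgroup.centralizer ({gl2U b} : Set (Matrix.GeneralLinearGroup (Fin 2) F))) =
      Fintype.card F * (Fintype.card F - 1) := by
  classical
  let f : Fˣ × F → Subgroup.centralizer ({gl2U b} : Set (Matrix.GeneralLinearGroup (Fin 2) F)) :=
    fun xy => ⟨Matrix.GeneralLinearGroup.mkOfDetNeZero !![(xy.1 : F), xy.2; 0, (xy.1 : F)]
      (by simp [Matrix.det_fin_two]), by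
        rw [mem_centralizer_gl2U b hb]
        constructor <;> rfl⟩
  have hf : Function.Bijective f := by
    constructor
    · intro x y hxy
      have h1 := congrArg (fun k : Subgroup.centralizer
        ({gl2U b} : Set (Matrix.GeneralLinearGroup (Fin 2) F)) =>
          ((k : Matrix.GeneralLinearGroup (Fin 2) F) : Matrix (Fin 2) (Fin 2) F) 0 0) hxy
      have h2 := congrArg (fun k : Subgroup.centralizer
        ({gl2U b} : Set (Matrix.GeneralLinearGroup (Fin 2) F)) =>
          ((k : Matrix.GeneralLinearGroup (Fin 2) F) : Matrix (Fin 2) (Fin 2) F) 0 1) hxy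
      have h1' : (x.1 : F) = y.1 := h1
      have h2' : x.2 = y.2 := h2
      exact Prod.ext (Units.ext h1') h2'
    · rintro ⟨k, hk⟩
      obtain ⟨h10, h00⟩ := (mem_centralizer_gl2U b hb k).1 hk
      have hdet := Cfsg.Agent.Lib.Helper4.gl2_det_ne_zero k
      rw [Matrix.det_fin_two, h10, mul_zero, sub_zero, ← h00] at hdet
      have hx : (k : Matrix (Fin 2) (Fin 2) F) 0 0 ≠ 0 := fun h => hdet (by rw [h, mul_zero])
      refine ⟨(Units.mk0 _ hx, (k : Matrix (Fin 2) (Fin 2) F) 0 1), ?_⟩
      apply Subtype.ext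
      apply Units.ext
      ext i j
      fin_cases i <;> fin_cases j
      · rfl
      · rfl
      · exact h10.symm
      · exact h00
  rw [← Nat.card_congr (Equiv.ofBijective f hf), Nat.card_prod, Nat.card_units,
    Nat.card_eq_fintype_card, mul_comm]

theorem card_centralizer_conj {G : Type*} [Group G] (g a : G) :
    Nat.card (Subgroup.centralizer ({g * a * g⁻¹} : Set G)) =
      Nat.card (Subgroup.centralizer ({a} : Set G)) := by
  refine Nat.card_congr ⟨fun k => ⟨g⁻¹ * k * g, ?_⟩, fun k => ⟨g * k * g⁻¹, ?_⟩, ?_, ?_⟩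
  · have hk := k.2
    rw [Subgroup.mem_centralizer_iff] at hk ⊢
    intro x hx
    rw [Set.mem_singleton_iff] at hx
    subst hx
    have := hk (g * x * g⁻¹) rfl
    calc x * (g⁻¹ * k * g) = g⁻¹ * ((g * x * g⁻¹) * k) * g := by group
      _ = g⁻¹ * (k * (g * x * g⁻¹)) * g := by rw [this]
      _ = g⁻¹ * k * g * x := by group
  · have hk := k.2
    rw [Subgroup.mem_centralizer_iff] at hk ⊢
    intro x hx
    rw [Set.mem_singleton_iff] at hx
    subst hx
    have := hk a rfl
    calc g * a * g⁻¹ * (g * k * g⁻¹) = g * (a * k) * g⁻¹ := by group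
      _ = g * (k * a) * g⁻¹ := by rw [this]
      _ = g * k * g⁻¹ * (g * a * g⁻¹) := by group
  · intro k; apply Subtype.ext; simp [mul_assoc]
  · intro k; apply Subtype.ext; simp [mul_assoc]

theorem card_centralizer_sylow_gl2 [Fintype F] (p : ℕ) [Fact p.Prime] [CharP F p]
    (P : Sylow p (Matrix.GeneralLinearGroup (Fin 2) F))
    (a : Matrix.GeneralLinearGroup (Fin 2) F) (ha : a ∈ P) (ha1 : a ≠ 1) :
    Nat.card (Subgroup.centralizer ({a} : Set (Matrix.GeneralLinearGroup (Fin 2) F))) =
      Fintype.card F * (Fintype.card F - 1) := by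
  obtain ⟨P₀, hP₀⟩ := exists_sylow_eq_gl2U (F := F) p
  obtain ⟨g, hg⟩ := MulAction.exists_smul_eq (Matrix.GeneralLinearGroup (Fin 2) F) P₀ P
  rw [← hg] at ha
  have ha' : g⁻¹ * a * g ∈ (P₀ : Subgroup (Matrix.GeneralLinearGroup (Fin 2) F)) :=
    mem_conj_smul.mp ha
  rw [hP₀] at ha'
  obtain ⟨b, hb⟩ := (mem_gl2U_range _).mp ha'
  have hb0 : b ≠ 0 := by
    rintro rfl
    rw [gl2U_zero] at hb
    apply ha1
    have e : a = g * (g⁻¹ * a * g) * g⁻¹ := by group
    rw [e, hb]; group
  have e : a = g * gl2U b * g⁻¹ := by rw [← hb]; group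
  rw [e, card_centralizer_conj, card_centralizer_gl2U b hb0]

end Cfsg.Agent.Lib.Lead
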