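import Mathlib

/-! Gaschütz's theorem on complements of abelian normal subgroups, via sections and
crossed homomorphisms. -/

set_option autoImplicit false

namespace Cfsg.Agent.Lib.Lead

open scoped IsMulCommutative

variable {G : Type*} [Group G]

/-- A right-`K`-invariant, right-`A`-equivariant section of `G → G/K`. -/
structure GSec (K A : Subgroup G) where
  σ : G → G
  mem : ∀ x, x⁻¹ * σ x ∈ K
  right_K : ∀ x, ∀ k ∈ K, σ (x * k) = σ x
  right_A : ∀ x, ∀ a ∈ A, σ (x * a) = σ x * a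

namespace GSec

variable {K A : Subgroup G}

theorem ext' {s t : GSec K A} (h : ∀ x, s.σ x = t.σ x) : s = t := by
  cases s; cases t
  simp only [GSec.mk.injEq]
  funext x; exact h x

/-- left translation of a section -/
def smul (g : G) (s : GSec K A) : GSec K A where
  σ := fun x => g * s.σ (g⁻¹ * x)
  mem := fun x => by
    have h := s.mem (g⁻¹ * x)
    have e : x⁻¹ * (g * s.σ (g⁻¹ * x)) = (g⁻¹ * x)⁻¹ * s.σ (g⁻¹ * x) := by group
    show x⁻¹ * (g * s.σ (g⁻¹ * x)) ∈ K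
    rw [e]; exact h
  right_K := fun x k hk => by
    show g * s.σ (g⁻¹ * (x * k)) = g * s.σ (g⁻¹ * x)
    rw [← mul_assoc, s.right_K _ k hk]
  right_A := fun x a ha => by
    show g * s.σ (g⁻¹ * (x * a)) = g * s.σ (g⁻¹ * x) * a
    rw [← mul_assoc, s.right_A _ a ha, mul_assoc]

theorem smul_smul (g h : G) (s : GSec K A) : smul (g * h) s = smul g (smul h s) := by
  apply ext'
  intro x
  show g * h * s.σ ((g * h)⁻¹ * x) = g * (h * s.σ (h⁻¹ * (g⁻¹ * x)))
  rw [mul_inv_rev, mul_assoc, mul_assoc]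

theorem diff_mem [K.Normal] (s t : GSec K A) (x : G) : t.σ x * (s.σ x)⁻¹ ∈ K := by
  have h : t.σ x * (s.σ x)⁻¹ = x * ((x⁻¹ * t.σ x) * (x⁻¹ * s.σ x)⁻¹) * x⁻¹ := by group
  rw [h]
  exact (inferInstance : K.Normal).conj_mem _ (K.mul_mem (t.mem x) (K.inv_mem (s.mem x))) x

/-- the difference of two sections, as an element of `K` -/
def c [K.Normal] (s t : GSec K A) (x : G) : K := ⟨t.σ x * (s.σ x)⁻¹, diff_mem s t x⟩

theorem c_mul_K [K.Normal] (s t : GSec K A) (x : G) (k : G) (hk : k ∈ K) :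
    c s t (x * k) = c s t x := by
  apply Subtype.ext
  show t.σ (x * k) * (s.σ (x * k))⁻¹ = t.σ x * (s.σ x)⁻¹
  rw [t.right_K x k hk, s.right_K x k hk]

theorem c_mul_A [K.Normal] (s t : GSec K A) (x : G) (a : G) (ha : a ∈ A) :
    c s t (x * a) = c s t x := by
  apply Subtype.ext
  show t.σ (x * a) * (s.σ (x * a))⁻¹ = t.σ x * (s.σ x)⁻¹
  rw [t.right_A x a ha, s.right_A x a ha, mul_inv_rev, mul_assoc, mul_inv_cancel_left]

theorem c_mul_U [K.Normal] (s t : GSec K A) {U : Subgroup G} (hU : U ≤ K ⊔ A) (x : G) (u : G)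
    (hu : u ∈ U) : c s t (x * u) = c s t x := by
  let V : Subgroup G :=
    { carrier := {u | ∀ x, c s t (x * u) = c s t x}
      one_mem' := fun x => by rw [mul_one]
      mul_mem' := fun {u v} hu hv x => by
        have hu' : ∀ x, c s t (x * u) = c s t x := hu
        have hv' : ∀ x, c s t (x * v) = c s t x := hv
        rw [← mul_assoc, hv', hu']
      inv_mem' := fun {u} hu x => by
        have hu' : ∀ x, c s t (x * u) = c s t x := hu
        have h := hu' (x * u⁻¹)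
        rw [inv_mul_cancel_right] at h
        exact h.symm }
  have hKV : K ≤ V := fun k hk x => c_mul_K s t x k hk
  have hAV : A ≤ V := fun a ha x => c_mul_A s t x a ha
  exact (hU.trans (sup_le hKV hAV)) hu x

variable (U : Subgroup G) [Fintype (G ⧸ U)]

/-- the total difference of two sections -/
noncomputable def delta [K.Normal] [IsMulCommutative K] (s t : GSec K A) : K :=
  ∏ q : G ⧸ U, c s t (Quotient.out q)

theorem delta_mul [K.Normal] [IsMulCommutative K] (s t r : GSec K A) :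
    delta U s t * delta U t r = delta U s r := by
  unfold delta
  rw [← Finset.prod_mul_distrib]
  apply Finset.prod_congr rfl
  intro q _
  apply Subtype.ext
  show t.σ q.out * (s.σ q.out)⁻¹ * (r.σ q.out * (t.σ q.out)⁻¹) = r.σ q.out * (s.σ q.out)⁻¹
  have hcomm : t.σ q.out * (s.σ q.out)⁻¹ * (r.σ q.out * (t.σ q.out)⁻¹)
      = r.σ q.out * (t.σ q.out)⁻¹ * (t.σ q.out * (s.σ q.out)⁻¹) :=
    congrArg Subtype.val (mul_comm (c s t q.out) (c t r q.out))
  rw [hcomm]; group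

theorem delta_self [K.Normal] [IsMulCommutative K] (s : GSec K A) : delta U s s = 1 := by
  unfold delta
  apply Finset.prod_eq_one
  intro q _
  exact Subtype.ext (mul_inv_cancel _)

theorem delta_smul [K.Normal] [IsMulCommutative K] (hU : U ≤ K ⊔ A) (g : G) (s t : GSec K A) :
    delta U (smul g s) (smul g t) = MulAut.conjNormal g (delta U s t) := by
  unfold delta
  rw [map_prod]
  have h1 : ∀ q : G ⧸ U, c (smul g s) (smul g t) q.out
      = MulAut.conjNormal g (c s t (g⁻¹ * q.out)) := by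
    intro q
    apply Subtype.ext
    rw [MulAut.conjNormal_apply]
    show g * t.σ (g⁻¹ * q.out) * (g * s.σ (g⁻¹ * q.out))⁻¹
      = g * (t.σ (g⁻¹ * q.out) * (s.σ (g⁻¹ * q.out))⁻¹) * g⁻¹
    group
  rw [Finset.prod_congr rfl (fun q _ => h1 q)]
  refine Fintype.prod_equiv (MulAction.toPerm (g⁻¹ : G)) _ _ ?_
  intro q
  apply congrArg
  have h2 : (g⁻¹ • q : G ⧸ U) = QuotientGroup.mk (g⁻¹ * q.out) :=
    (MulAction.Quotient.mk_smul_out (H := U) g⁻¹ q).symm
  obtain ⟨u, hu⟩ := QuotientGroup.mk_out_eq_mul U (g⁻¹ * q.out)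
  show c s t (g⁻¹ * q.out) = c s t ((g⁻¹ • q : G ⧸ U).out)
  rw [h2, hu, c_mul_U s t hU _ u u.2]

theorem delta_smul_K [K.Normal] [IsMulCommutative K] (k : K) (s : GSec K A) :
    delta U s (smul (k : G) s) = k ^ Fintype.card (G ⧸ U) := by
  unfold delta
  have h1 : ∀ q : G ⧸ U, c s (smul (k : G) s) q.out = k := by
    intro q
    apply Subtype.ext
    show (k : G) * s.σ ((k : G)⁻¹ * q.out) * (s.σ q.out)⁻¹ = k
    have e : (k : G)⁻¹ * q.out = q.out * (q.out⁻¹ * (k : G)⁻¹ * q.out) := by group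
    have hmem : q.out⁻¹ * (k : G)⁻¹ * q.out ∈ K := by
      have := (inferInstance : K.Normal).conj_mem _ (K.inv_mem k.2) q.out⁻¹
      rwa [inv_inv] at this
    rw [e, s.right_K _ _ hmem, mul_inv_cancel_right]
  rw [Finset.prod_congr rfl (fun q _ => h1 q), Finset.prod_const, Finset.card_univ]

/-- the crossed homomorphism attached to a section -/
noncomputable def cross [K.Normal] [IsMulCommutative K] (s : GSec K A) (g : G) : K :=
  delta U s (smul g s)

theorem cross_mul [K.Normal] [IsMulCommutative K] (hU : U ≤ K ⊔ A) (s : GSec K A) (g h : G) :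
    cross U s (g * h) = cross U s g * MulAut.conjNormal g (cross U s h) := by
  unfold cross
  rw [smul_smul, ← delta_smul U hU g s (smul h s), delta_mul]

theorem cross_K [K.Normal] [IsMulCommutative K] (s : GSec K A) (k : K) :
    cross U s (k : G) = k ^ Fintype.card (G ⧸ U) := delta_smul_K U k s

end GSec

theorem conjNormal_triv (K : Subgroup G) [K.Normal] [IsMulCommutative K] (k z : K) :
    MulAut.conjNormal (k : G) z = z := by
  apply Subtype.ext
  rw [MulAut.conjNormal_apply]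
  have h : (k : G) * z = z * k := congrArg Subtype.val (mul_comm k z)
  rw [h, mul_inv_cancel_right]

/-- the kernel of a crossed homomorphism restricting to a coprime power map on `K` is a
complement of `K` -/
theorem complement_of_crossed [Finite G] (K : Subgroup G) [K.Normal] [IsMulCommutative K] (n : ℕ)
    (hn : (Nat.card K).Coprime n) (δ : G → K)
    (hmul : ∀ g h, δ (g * h) = δ g * MulAut.conjNormal g (δ h))
    (hK : ∀ k : K, δ (k : G) = k ^ n) :
    ∃ X : Subgroup G, Subgroup.IsComplement' K X ∧ ∀ g, g ∈ X ↔ δ g = 1 := by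
  have h1 : δ 1 = 1 := by
    have h := hK 1
    rwa [one_pow, Subgroup.coe_one] at h
  let X : Subgroup G :=
    { carrier := {g | δ g = 1}
      one_mem' := h1
      mul_mem' := fun {g h} hg hh => by
        have hg' : δ g = 1 := hg
        have hh' : δ h = 1 := hh
        show δ (g * h) = 1
        rw [hmul, hg', hh', map_one, mul_one]
      inv_mem' := fun {g} hg => by
        have hg' : δ g = 1 := hg
        show δ g⁻¹ = 1
        have h := hmul g⁻¹ g
        rw [inv_mul_cancel, h1, hg', map_one, mul_one] at h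
        exact h.symm }
  have hXmem : ∀ g, g ∈ X ↔ δ g = 1 := fun g => Iff.rfl
  refine ⟨X, ?_, hXmem⟩
  apply Subgroup.isComplement'_of_disjoint_and_mul_eq_univ
  · rw [Subgroup.disjoint_def]
    intro x hxK hxX
    have h2 : δ x = 1 := (hXmem x).1 hxX
    have h3 : (⟨x, hxK⟩ : K) ^ n = 1 := by rw [← hK ⟨x, hxK⟩]; exact h2
    have h4 : (⟨x, hxK⟩ : K) = 1 := by
      apply (powCoprime hn).injective
      show (⟨x, hxK⟩ : K) ^ n = (1 : K) ^ n
      rw [h3, one_pow]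
    exact congrArg Subtype.val h4
  · rw [Set.eq_univ_iff_forall]
    intro g
    obtain ⟨k, hk⟩ : ∃ k : K, k ^ n = δ g :=
      ⟨(powCoprime hn).symm (δ g), (powCoprime hn).apply_symm_apply (δ g)⟩
    refine Set.mem_mul.2 ⟨(k : G), k.2, (k : G)⁻¹ * g, ?_, by group⟩
    show δ ((k : G)⁻¹ * g) = 1
    have h5 : δ ((k : G)⁻¹) = (k ^ n)⁻¹ := by
      have h := hK k⁻¹
      rwa [inv_pow, Subgroup.coe_inv] at h
    have h6 : MulAut.conjNormal ((k : G)⁻¹) (δ g) = δ g := by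
      have h := conjNormal_triv K k⁻¹ (δ g)
      rwa [Subgroup.coe_inv] at h
    rw [hmul, h5, h6, hk, inv_mul_cancel]

/-- a section built from a complement `A` of `K` in `U = K ⊔ A` -/
theorem exists_gsec (K A U : Subgroup G) [K.Normal] (hKA : K ⊔ A = U) (hAK : A ⊓ K = ⊥) :
    Nonempty (GSec K A) := by
  classical
  have hKU : K ≤ U := by rw [← hKA]; exact le_sup_left
  have hAU : A ≤ U := by rw [← hKA]; exact le_sup_right
  have hdec : ∀ u ∈ U, ∃ a ∈ A, ∃ k ∈ K, a * k = u := by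
    intro u hu
    rw [← hKA, sup_comm] at hu
    have h : u ∈ ((A ⊔ K : Subgroup G) : Set G) := hu
    rw [Subgroup.mul_normal A K] at h
    exact Set.mem_mul.1 h
  have huniq : ∀ a ∈ A, ∀ k ∈ K, ∀ a' ∈ A, ∀ k' ∈ K, a * k = a' * k' → a = a' := by
    intro a ha k hk a' ha' k' hk' h
    have h1 : a'⁻¹ * a = k' * k⁻¹ := by
      calc a'⁻¹ * a = a'⁻¹ * (a * k) * k⁻¹ := by group
        _ = a'⁻¹ * (a' * k') * k⁻¹ := by rw [h]
        _ = k' * k⁻¹ := by group
    have h2 : a'⁻¹ * a ∈ A ⊓ K :=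
      Subgroup.mem_inf.2 ⟨A.mul_mem (A.inv_mem ha') ha,
        by rw [h1]; exact K.mul_mem hk' (K.inv_mem hk)⟩
    rw [hAK, Subgroup.mem_bot] at h2
    exact (inv_mul_eq_one.1 h2).symm
  choose! α hαA κ hκK hακ using hdec
  have hkey : ∀ a ∈ A, ∀ k ∈ K, α (a * k) = a := by
    intro a ha k hk
    have hu : a * k ∈ U := U.mul_mem (hAU ha) (hKU hk)
    exact huniq _ (hαA _ hu) _ (hκK _ hu) a ha k hk (hακ _ hu)
  obtain ⟨τ, hτdef⟩ : ∃ τ : G → G, ∀ x, τ x = (QuotientGroup.mk x : G ⧸ U).out :=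
    ⟨fun x => (QuotientGroup.mk x : G ⧸ U).out, fun x => rfl⟩
  have hτ : ∀ x, (τ x)⁻¹ * x ∈ U := by
    intro x
    rw [hτdef]
    exact QuotientGroup.eq.1 (QuotientGroup.out_eq' (QuotientGroup.mk x : G ⧸ U))
  have hτU : ∀ x, ∀ u ∈ U, τ (x * u) = τ x := by
    intro x u hu
    rw [hτdef, hτdef, QuotientGroup.mk_mul_of_mem x hu]
  refine ⟨⟨fun x => τ x * α ((τ x)⁻¹ * x), ?_, ?_, ?_⟩⟩
  · intro x
    show x⁻¹ * (τ x * α ((τ x)⁻¹ * x)) ∈ K
    obtain ⟨u, hu_def⟩ : ∃ u, u = (τ x)⁻¹ * x := ⟨_, rfl⟩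
    have hu : u ∈ U := by rw [hu_def]; exact hτ x
    rw [← hu_def]
    have e : x⁻¹ * (τ x * α u) = (κ u)⁻¹ := by
      calc x⁻¹ * (τ x * α u) = ((τ x)⁻¹ * x)⁻¹ * α u := by group
        _ = (α u * κ u)⁻¹ * α u := by rw [hακ u hu, hu_def]
        _ = (κ u)⁻¹ := by group
    rw [e]; exact K.inv_mem (hκK u hu)
  · intro x k hk
    show τ (x * k) * α ((τ (x * k))⁻¹ * (x * k)) = τ x * α ((τ x)⁻¹ * x)
    rw [hτU x k (hKU hk)]
    obtain ⟨u, hu_def⟩ : ∃ u, u = (τ x)⁻¹ * x := ⟨_, rfl⟩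
    have hu : u ∈ U := by rw [hu_def]; exact hτ x
    have e : (τ x)⁻¹ * (x * k) = α u * (κ u * k) := by
      calc (τ x)⁻¹ * (x * k) = ((τ x)⁻¹ * x) * k := by group
        _ = (α u * κ u) * k := by rw [hακ u hu, hu_def]
        _ = α u * (κ u * k) := by group
    rw [e, hkey _ (hαA u hu) _ (K.mul_mem (hκK u hu) hk), hu_def]
  · intro x a ha
    show τ (x * a) * α ((τ (x * a))⁻¹ * (x * a)) = τ x * α ((τ x)⁻¹ * x) * a
    rw [hτU x a (hAU ha)]
    obtain ⟨u, hu_def⟩ : ∃ u, u = (τ x)⁻¹ * x := ⟨_, rfl⟩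
    have hu : u ∈ U := by rw [hu_def]; exact hτ x
    have e : (τ x)⁻¹ * (x * a) = (α u * a) * (a⁻¹ * κ u * a) := by
      calc (τ x)⁻¹ * (x * a) = ((τ x)⁻¹ * x) * a := by group
        _ = (α u * κ u) * a := by rw [hακ u hu, hu_def]
        _ = (α u * a) * (a⁻¹ * κ u * a) := by group
    have hmem : a⁻¹ * κ u * a ∈ K := by
      have := (inferInstance : K.Normal).conj_mem _ (hκK u hu) a⁻¹
      rwa [inv_inv] at this
    rw [e, hkey _ (A.mul_mem (hαA u hu) ha) _ hmem, hu_def, mul_assoc]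

/-- Gaschütz, existence. -/
theorem gaschutz_exists [Finite G] (K U : Subgroup G) [K.Normal] [IsMulCommutative K]
    (hcop : (Nat.card K).Coprime U.index)
    (A : Subgroup G) (hAK : A ⊓ K = ⊥) (hKA : K ⊔ A = U) :
    ∃ H : Subgroup G, Subgroup.IsComplement' K H := by
  classical
  letI : Fintype (G ⧸ U) := Fintype.ofFinite _
  obtain ⟨s⟩ := exists_gsec K A U hKA hAK
  have hcard : Fintype.card (G ⧸ U) = U.index := by
    rw [Subgroup.index_eq_card, Nat.card_eq_fintype_card]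
  obtain ⟨X, hX, -⟩ := complement_of_crossed K (Fintype.card (G ⧸ U))
    (by rw [hcard]; exact hcop) (GSec.cross U s) (GSec.cross_mul U hKA.ge s) (GSec.cross_K U s)
  exact ⟨X, hX⟩

/-- the section attached to a complement `H` of `K` -/
theorem gsec_of_complement (K H A : Subgroup G) [K.Normal] (hc : Subgroup.IsComplement' K H)
    (hA : A ≤ H) :
    ∃ s : GSec K A, ∀ h ∈ H, ∀ x, s.σ (h * x) = h * s.σ x := by
  classical
  have hdec : ∀ x : G, ∃ h ∈ H, ∃ k ∈ K, k * h = x := by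
    intro x
    obtain ⟨⟨k, h⟩, hkh, -⟩ := Subgroup.IsComplement.existsUnique hc x
    exact ⟨h.1, h.2, k.1, k.2, hkh⟩
  have hdisj : K ⊓ H = ⊥ := hc.disjoint.eq_bot
  choose η hηH κ hκK hκη using hdec
  have hkey : ∀ k ∈ K, ∀ h ∈ H, η (k * h) = h := by
    intro k hk h hh
    have h1 := hκη (k * h)
    have h2 : (κ (k * h))⁻¹ * k = η (k * h) * h⁻¹ := by
      calc (κ (k * h))⁻¹ * k = (κ (k * h))⁻¹ * (k * h) * h⁻¹ := by group
        _ = (κ (k * h))⁻¹ * (κ (k * h) * η (k * h)) * h⁻¹ := by rw [h1]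
        _ = η (k * h) * h⁻¹ := by group
    have h3 : η (k * h) * h⁻¹ ∈ K ⊓ H :=
      Subgroup.mem_inf.2 ⟨by rw [← h2]; exact K.mul_mem (K.inv_mem (hκK _)) hk,
        H.mul_mem (hηH _) (H.inv_mem hh)⟩
    rw [hdisj, Subgroup.mem_bot] at h3
    exact mul_inv_eq_one.1 h3
  have hn : ∀ (k : G), k ∈ K → ∀ g : G, g * k * g⁻¹ ∈ K :=
    fun k hk g => (inferInstance : K.Normal).conj_mem k hk g
  refine ⟨⟨η, ?_, ?_, ?_⟩, ?_⟩
  · intro x
    have e : x⁻¹ * η x = (η x)⁻¹ * (κ x)⁻¹ * ((η x)⁻¹)⁻¹ := by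
      calc x⁻¹ * η x = (κ x * η x)⁻¹ * η x := by rw [hκη x]
        _ = (η x)⁻¹ * (κ x)⁻¹ * ((η x)⁻¹)⁻¹ := by group
    rw [e]
    exact hn _ (K.inv_mem (hκK x)) _
  · intro x k hk
    have e : x * k = (κ x * (η x * k * (η x)⁻¹)) * η x := by
      calc x * k = (κ x * η x) * k := by rw [hκη x]
        _ = (κ x * (η x * k * (η x)⁻¹)) * η x := by group
    rw [e]
    exact hkey _ (K.mul_mem (hκK x) (hn k hk _)) _ (hηH x)
  · intro x a ha
    have e : x * a = κ x * (η x * a) := by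
      calc x * a = (κ x * η x) * a := by rw [hκη x]
        _ = κ x * (η x * a) := by group
    rw [e]
    exact hkey _ (hκK x) _ (H.mul_mem (hηH x) (hA ha))
  · intro h hh x
    show η (h * x) = h * η x
    have e : h * x = (h * κ x * h⁻¹) * (h * η x) := by
      calc h * x = h * (κ x * η x) := by rw [hκη x]
        _ = (h * κ x * h⁻¹) * (h * η x) := by group
    rw [e]
    exact hkey _ (hn _ (hκK x) h) _ (H.mul_mem hh (hηH x))

/-- Gaschütz, conjugacy. -/
theorem gaschutz_conj [Finite G] (K U : Subgroup G) [K.Normal] [IsMulCommutative K]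
    (hKU : K ≤ U) (hcop : (Nat.card K).Coprime U.index)
    (H₀ H₁ : Subgroup G) (h₀ : Subgroup.IsComplement' K H₀) (h₁ : Subgroup.IsComplement' K H₁)
    (hU : H₀ ⊓ U = H₁ ⊓ U) :
    ∃ k ∈ K, ∀ x, k⁻¹ * x * k ∈ H₀ ↔ x ∈ H₁ := by
  classical
  letI : Fintype (G ⧸ U) := Fintype.ofFinite _
  have hcard : Fintype.card (G ⧸ U) = U.index := by
    rw [Subgroup.index_eq_card, Nat.card_eq_fintype_card]
  have hcop' : (Nat.card K).Coprime (Fintype.card (G ⧸ U)) := by rw [hcard]; exact hcop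
  obtain ⟨n, hn⟩ : ∃ n, n = Fintype.card (G ⧸ U) := ⟨_, rfl⟩
  rw [← hn] at hcop'
  obtain ⟨s₀, hs₀⟩ := gsec_of_complement K H₀ (H₀ ⊓ U) h₀ inf_le_left
  obtain ⟨s₁, hs₁⟩ := gsec_of_complement K H₁ (H₀ ⊓ U) h₁ (by rw [hU]; exact inf_le_left)
  have hUle : U ≤ K ⊔ (H₀ ⊓ U) := by
    intro u hu
    obtain ⟨⟨⟨k, hkK⟩, ⟨h, hhH⟩⟩, hkh, -⟩ := Subgroup.IsComplement.existsUnique h₀ u
    have hkh' : k * h = u := hkh
    have hhU : h ∈ U := by
      have e : h = k⁻¹ * u := by rw [← hkh']; group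
      rw [e]; exact U.mul_mem (U.inv_mem (hKU hkK)) hu
    rw [← hkh']
    exact Subgroup.mul_mem_sup hkK (Subgroup.mem_inf.2 ⟨hhH, hhU⟩)
  have hd₀ : K ⊓ H₀ = ⊥ := h₀.disjoint.eq_bot
  obtain ⟨δ, hδdef⟩ : ∃ δ : G → K, δ = GSec.cross U s₀ := ⟨_, rfl⟩
  have hδmul : ∀ g h, δ (g * h) = δ g * MulAut.conjNormal g (δ h) := by
    rw [hδdef]; exact GSec.cross_mul U hUle s₀
  have hδK : ∀ k : K, δ (k : G) = k ^ n := by
    rw [hδdef, hn]; exact GSec.cross_K U s₀
  have hsm₀ : ∀ h ∈ H₀, GSec.smul h s₀ = s₀ := by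
    intro h hh
    apply GSec.ext'
    intro x
    show h * s₀.σ (h⁻¹ * x) = s₀.σ x
    rw [hs₀ h⁻¹ (H₀.inv_mem hh) x, mul_inv_cancel_left]
  have hsm₁ : ∀ y ∈ H₁, GSec.smul y s₁ = s₁ := by
    intro h hh
    apply GSec.ext'
    intro x
    show h * s₁.σ (h⁻¹ * x) = s₁.σ x
    rw [hs₁ h⁻¹ (H₁.inv_mem hh) x, mul_inv_cancel_left]
  have hδ₀ : ∀ h ∈ H₀, δ h = 1 := by
    intro h hh
    rw [hδdef]
    show GSec.delta U s₀ (GSec.smul h s₀) = 1
    rw [hsm₀ h hh, GSec.delta_self]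
  have hpow1 : ∀ z : K, z ^ n = 1 → z = 1 := by
    intro z hz
    apply (powCoprime hcop').injective
    show z ^ n = (1 : K) ^ n
    rw [hz, one_pow]
  have hker : ∀ x, δ x = 1 → x ∈ H₀ := by
    intro x hx
    obtain ⟨⟨⟨k, hkK⟩, ⟨h, hhH⟩⟩, hkh, -⟩ := Subgroup.IsComplement.existsUnique h₀ x
    have hkh' : k * h = x := hkh
    have e : k = x * h⁻¹ := by rw [← hkh']; group
    have h1 : δ k = 1 := by
      rw [e, hδmul, hx, hδ₀ _ (H₀.inv_mem hhH), map_one, mul_one]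
    have h1' : (⟨k, hkK⟩ : K) ^ n = 1 := by rw [← hδK ⟨k, hkK⟩]; exact h1
    have hk1 : k = 1 := congrArg Subtype.val (hpow1 _ h1')
    rw [← hkh', hk1, one_mul]
    exact hhH
  obtain ⟨d, hd⟩ : ∃ d : K, d = GSec.delta U s₀ s₁ := ⟨_, rfl⟩
  have hδy : ∀ y ∈ H₁, δ y = d * MulAut.conjNormal y d⁻¹ := by
    intro y hy
    have e1 : GSec.delta U s₁ (GSec.smul y s₀)
        = MulAut.conjNormal y (GSec.delta U s₁ s₀) := by
      have h := GSec.delta_smul U hUle y s₁ s₀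
      rwa [hsm₁ y hy] at h
    have e2 : GSec.delta U s₁ s₀ = d⁻¹ := by
      rw [eq_inv_iff_mul_eq_one, hd, GSec.delta_mul, GSec.delta_self]
    rw [hδdef]
    show GSec.delta U s₀ (GSec.smul y s₀) = _
    rw [← GSec.delta_mul U s₀ s₁ (GSec.smul y s₀), e1, e2, hd]
  obtain ⟨k, hk⟩ : ∃ k : K, k ^ n = d :=
    ⟨(powCoprime hcop').symm d, (powCoprime hcop').apply_symm_apply d⟩
  have key : ∀ y ∈ H₁, δ ((k : G)⁻¹ * y * k) = 1 := by
    intro y hy
    have e3 : δ (y * (k : G)) = d := by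
      rw [hδmul, hδy y hy, hδK, hk, mul_assoc, ← map_mul, inv_mul_cancel, map_one, mul_one]
    have e4 : δ ((k : G)⁻¹) = d⁻¹ := by
      have h := hδK k⁻¹
      rwa [inv_pow, hk, Subgroup.coe_inv] at h
    have e5 : MulAut.conjNormal ((k : G)⁻¹) d = d := by
      have h := conjNormal_triv K k⁻¹ d
      rwa [Subgroup.coe_inv] at h
    rw [mul_assoc, hδmul, e3, e4, e5, inv_mul_cancel]
  refine ⟨(k : G), k.2, ?_⟩
  intro x
  constructor
  · intro hx
    obtain ⟨⟨⟨k'', hk''K⟩, ⟨y, hyH⟩⟩, hky, -⟩ := Subgroup.IsComplement.existsUnique h₁ x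
    have hky' : k'' * y = x := hky
    have hy0 : (k : G)⁻¹ * y * k ∈ H₀ := hker _ (key y hyH)
    have e : (k : G)⁻¹ * k'' * k = ((k : G)⁻¹ * x * k) * ((k : G)⁻¹ * y * k)⁻¹ := by
      rw [← hky']; group
    have hmem : (k : G)⁻¹ * k'' * k ∈ K ⊓ H₀ := by
      refine Subgroup.mem_inf.2 ⟨?_, ?_⟩
      · exact K.mul_mem (K.mul_mem (K.inv_mem k.2) hk''K) k.2
      · rw [e]; exact H₀.mul_mem hx (H₀.inv_mem hy0)
    rw [hd₀, Subgroup.mem_bot] at hmem
    have hk''1 : k'' = 1 := by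
      calc k'' = (k : G) * ((k : G)⁻¹ * k'' * k) * (k : G)⁻¹ := by group
        _ = 1 := by rw [hmem]; group
    rw [← hky', hk''1, one_mul]
    exact hyH
  · intro hx
    exact hker _ (key x hx)

end Cfsg.Agent.Lib.Lead
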