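import Mathlib
import Cfsg.Agent.Lib.Lead.Gaschutz

/-! Gaschütz: an abelian normal subgroup is complemented iff it is complemented in the preimages
of Sylow subgroups of the quotient. -/

set_option autoImplicit false

namespace Cfsg.Agent.Lib.Lead

open scoped IsMulCommutative

variable {G : Type*} [Group G]

/-- crossed homomorphisms `G → K` restricting to the `m`-th power map on `K` -/
def HasCross (K : Subgroup G) [K.Normal] [IsMulCommutative K] (m : ℤ) : Prop :=
  ∃ δ : G → K, (∀ g h, δ (g * h) = δ g * MulAut.conjNormal g (δ h)) ∧ ∀ k : K, δ (k : G) = k ^ m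

theorem hasCross_zero (K : Subgroup G) [K.Normal] [IsMulCommutative K] : HasCross K 0 :=
  ⟨fun _ => 1, fun g h => by rw [map_one, mul_one], fun k => by rw [zpow_zero]⟩

theorem hasCross_add (K : Subgroup G) [K.Normal] [IsMulCommutative K] {m m' : ℤ}
    (h : HasCross K m) (h' : HasCross K m') : HasCross K (m + m') := by
  obtain ⟨δ, hδ, hδK⟩ := h
  obtain ⟨δ', hδ', hδK'⟩ := h'
  refine ⟨fun g => δ g * δ' g, fun g h => ?_, fun k => ?_⟩
  · show δ (g * h) * δ' (g * h) = δ g * δ' g * MulAut.conjNormal g (δ h * δ' h)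
    rw [hδ, hδ', map_mul, mul_mul_mul_comm]
  · show δ (k : G) * δ' (k : G) = k ^ (m + m')
    rw [hδK, hδK', zpow_add]

theorem hasCross_neg (K : Subgroup G) [K.Normal] [IsMulCommutative K] {m : ℤ}
    (h : HasCross K m) : HasCross K (-m) := by
  obtain ⟨δ, hδ, hδK⟩ := h
  refine ⟨fun g => (δ g)⁻¹, fun g h => ?_, fun k => ?_⟩
  · show (δ (g * h))⁻¹ = (δ g)⁻¹ * MulAut.conjNormal g (δ h)⁻¹
    rw [hδ, mul_inv, map_inv]
  · show (δ (k : G))⁻¹ = k ^ (-m)
    rw [hδK, zpow_neg]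

/-- the exponents realised by crossed homomorphisms form a subgroup of `ℤ` -/
def crossExp (K : Subgroup G) [K.Normal] [IsMulCommutative K] : AddSubgroup ℤ where
  carrier := {m | HasCross K m}
  zero_mem' := hasCross_zero K
  add_mem' := fun h h' => hasCross_add K h h'
  neg_mem' := fun h => hasCross_neg K h

theorem complement_of_sylow_local [Finite G] (A : Subgroup G) [A.Normal] [IsMulCommutative A]
    (h : ∀ p : ℕ, p.Prime → p ∣ A.index →
      ∃ (U K : Subgroup G), K ⊓ A = ⊥ ∧ A ⊔ K = U ∧ ¬ p ∣ U.index) :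
    ∃ X : Subgroup G, Subgroup.IsComplement' A X := by
  classical
  by_cases hidx : A.index = 1
  · have hA : A = ⊤ := Subgroup.index_eq_one.1 hidx
    rw [hA]
    exact ⟨⊥, Subgroup.isComplement'_top_bot⟩
  have hmem : ∀ p : ℕ, p.Prime → p ∣ A.index →
      ∃ n : ℕ, n ∣ A.index ∧ ¬ p ∣ n ∧ (n : ℤ) ∈ crossExp A := by
    intro p hp hpd
    obtain ⟨U, K, hKA, hsup, hnd⟩ := h p hp hpd
    letI : Fintype (G ⧸ U) := Fintype.ofFinite _
    obtain ⟨s⟩ := exists_gsec A K U hsup hKA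
    have hcard : Fintype.card (G ⧸ U) = U.index := by
      rw [Subgroup.index_eq_card, Nat.card_eq_fintype_card]
    refine ⟨U.index, Subgroup.index_dvd_of_le (by rw [← hsup]; exact le_sup_left), hnd, ?_⟩
    show HasCross A (U.index : ℤ)
    refine ⟨GSec.cross U s, GSec.cross_mul U hsup.ge s, fun k => ?_⟩
    rw [GSec.cross_K, hcard, zpow_natCast]
  obtain ⟨d, hd⟩ := Int.subgroup_cyclic (crossExp A)
  have hdvd : ∀ m ∈ crossExp A, d ∣ m := by
    intro m hm
    rw [hd, ← AddSubgroup.zmultiples_eq_closure] at hm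
    exact Int.mem_zmultiples_iff.1 hm
  have hd1 : d.natAbs = 1 := by
    by_contra hne
    obtain ⟨r, hr, hrd⟩ := Nat.exists_prime_and_dvd hne
    obtain ⟨p₀, hp₀, hp₀d⟩ := Nat.exists_prime_and_dvd hidx
    obtain ⟨n₀, hn₀, -, hn₀E⟩ := hmem p₀ hp₀ hp₀d
    have hrd' : (r : ℤ) ∣ d := Int.natCast_dvd.2 hrd
    have h1 : (r : ℤ) ∣ (n₀ : ℤ) := hrd'.trans (hdvd _ hn₀E)
    have h2 : r ∣ A.index := (Int.natCast_dvd_natCast.1 h1).trans hn₀
    obtain ⟨n, -, hnr, hnE⟩ := hmem r hr h2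
    exact hnr (Int.natCast_dvd_natCast.1 (hrd'.trans (hdvd _ hnE)))
  have h1E : HasCross A 1 := by
    have h1 : (1 : ℤ) ∈ crossExp A := by
      rw [hd, ← AddSubgroup.zmultiples_eq_closure, Int.mem_zmultiples_iff]
      exact Int.natAbs_dvd_natAbs.1 (by rw [hd1]; exact one_dvd _)
    exact h1
  obtain ⟨δ, hδ, hδK⟩ := h1E
  obtain ⟨X, hX, -⟩ := complement_of_crossed A 1 (Nat.coprime_one_right _) δ hδ
    (fun k => by rw [hδK, zpow_one, pow_one])
  exact ⟨X, hX⟩

end Cfsg.Agent.Lib.Lead
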