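import Mathlib
import Cfsg.Agent.Lib.Lead.Transfer
import Cfsg.Agent.Lib.Lead.SZ2
import Cfsg.Agent.Lib.Lead.Glauberman2
import Cfsg.Agent.Lib.Lead.PmQ

set_option autoImplicit false

namespace Cfsg.Agent.Lib.Lead

open scoped Pointwise commutatorElement

universe u

/-- No fusion in `H` gives a normal complement, for an abelian Hall subgroup `H`. -/
theorem complement_of_no_fusion {G : Type*} [Group G] [Finite G] (H : Subgroup G)
    (hHall : Nat.Coprime (Nat.card H) H.index)
    (hfus : ∀ x ∈ H, ∀ u : G, u * x * u⁻¹ ∈ H → u * x * u⁻¹ = x) :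
    ∃ N : Subgroup G, N.Normal ∧ N.IsComplement' H := by
  have hfoc : H.focalSubgroup = ⊥ := by
    rw [eq_bot_iff, Subgroup.focalSubgroup_def, Subgroup.closure_le]
    rintro g ⟨hg, x, hx, u, rfl⟩
    rw [SetLike.mem_coe, Subgroup.mem_bot]
    have h1 : u * x⁻¹ * u⁻¹ ∈ H := by
      have h2 : u * x⁻¹ * u⁻¹ = x⁻¹ * ⁅x, u⁆ := by rw [commutatorElement_def]; group
      rw [h2]; exact H.mul_mem (H.inv_mem hx) hg
    have h3 := hfus x⁻¹ (H.inv_mem hx) u h1
    rw [commutatorElement_def]
    calc x * u * x⁻¹ * u⁻¹ = x * (u * x⁻¹ * u⁻¹) := by group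
      _ = x * x⁻¹ := by rw [h3]
      _ = 1 := mul_inv_cancel x
  have hcop : Nat.Coprime H.index (H.focalSubgroup.relIndex H) := by
    rw [hfoc, Subgroup.relIndex_bot_left]; exact hHall.symm
  obtain ⟨-, h2, h3⟩ := focal_coprime H hcop
  rw [hfoc] at h2
  refine ⟨H.transferFocal.ker, MonoidHom.normal_ker _, ?_⟩
  apply Subgroup.isComplement'_of_disjoint_and_mul_eq_univ
  · rw [disjoint_iff]; exact h2
  · rw [← Subgroup.normal_mul, h3, Subgroup.coe_top]

theorem hall_central_complement : ∀ (n : ℕ) (G : Type u) [Group G] [Finite G] (H : Subgroup G),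
    Nat.card G = n → Nat.Coprime (Nat.card H) H.index →
    Subgroup.normalizer (H : Set G) ≤ Subgroup.centralizer (H : Set G) →
    ∃ N : Subgroup G, N.Normal ∧ N.IsComplement' H := by
  intro n
  induction n using Nat.strong_induction_on with
  | _ n ih =>
  intro G _ _ H hn hHall h
  have hHab : ∀ a ∈ H, ∀ b ∈ H, a * b = b * a := by
    intro a ha b hb
    have h1 := h (Subgroup.le_normalizer hb)
    rw [Subgroup.mem_centralizer_iff] at h1
    exact h1 a ha
  apply complement_of_no_fusion H hHall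
  intro x hx u hy
  by_cases hC : Subgroup.centralizer {u * x * u⁻¹} = (⊤ : Subgroup G)
  · have h1 : u ∈ Subgroup.centralizer {u * x * u⁻¹} := by rw [hC]; trivial
    rw [Subgroup.mem_centralizer_iff] at h1
    have h2 := h1 _ rfl
    -- h2 : u * x * u⁻¹ * u = u * (u * x * u⁻¹)
    calc u * x * u⁻¹ = u⁻¹ * (u * (u * x * u⁻¹)) := by group
      _ = u⁻¹ * (u * x * u⁻¹ * u) := by rw [h2]
      _ = x := by group
  · obtain ⟨y, hy'⟩ : ∃ y, y = u * x * u⁻¹ := ⟨_, rfl⟩
    rw [← hy'] at hy hC ⊢
    obtain ⟨C, hCdef⟩ : ∃ C : Subgroup G, C = Subgroup.centralizer {y} := ⟨_, rfl⟩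
    rw [← hCdef] at hC
    have hmemC : ∀ g : G, g ∈ C ↔ y * g = g * y := by
      intro g
      rw [hCdef, Subgroup.mem_centralizer_iff]
      constructor
      · intro h1; exact h1 y rfl
      · intro h1 z hz
        rw [Set.mem_singleton_iff] at hz
        rw [hz]; exact h1
    have hHC : H ≤ C := by
      intro a ha
      rw [hmemC]; exact hHab y hy a ha
    have hcardC : Nat.card C < n := by rw [← hn]; exact card_lt_card_of_ne_top C hC
    have hrel : H.relIndex C ∣ H.index := ⟨C.index, (Subgroup.relIndex_mul_index hHC).symm⟩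
    have hcardH' : Nat.card (H.subgroupOf C) = Nat.card H :=
      Nat.card_congr (Subgroup.subgroupOfEquivOfLe hHC).toEquiv
    have hHall' : Nat.Coprime (Nat.card (H.subgroupOf C)) (H.subgroupOf C).index := by
      rw [hcardH']
      exact Nat.Coprime.coprime_dvd_right hrel hHall
    have hnc' : Subgroup.normalizer ((H.subgroupOf C : Subgroup C) : Set C) ≤
        Subgroup.centralizer ((H.subgroupOf C : Subgroup C) : Set C) := by
      intro c hc
      have h1 : (c : G) ∈ Subgroup.normalizer (H : Set G) := by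
        apply mem_normalizer_of_conj_mem
        intro a ha
        have h2 := (Subgroup.mem_normalizer_iff.mp hc ⟨a, hHC ha⟩).mp
          (Subgroup.mem_subgroupOf.mpr ha)
        exact Subgroup.mem_subgroupOf.mp h2
      have h3 := h h1
      rw [Subgroup.mem_centralizer_iff] at h3 ⊢
      intro a ha
      exact Subtype.ext (h3 a (Subgroup.mem_subgroupOf.mp ha))
    obtain ⟨M', hM'n, hM'c⟩ := ih (Nat.card C) hcardC C (H.subgroupOf C) rfl hHall' hnc'
    -- the subgroup M
    have hMnorm : H ≤ Subgroup.normalizer ((M'.map C.subtype : Subgroup G) : Set G) := by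
      apply le_normalizer_of_conj_mem
      rintro a ha _ ⟨m, hm, rfl⟩
      refine ⟨⟨a, hHC ha⟩ * m * ⟨a, hHC ha⟩⁻¹, hM'n.conj_mem m hm _, rfl⟩
    have hsup : H ⊔ M'.map C.subtype = C := by
      have h1 := hM'c.sup_eq_top
      have h2 := congrArg (Subgroup.map C.subtype) h1
      rw [Subgroup.map_sup, Subgroup.map_subgroupOf_eq_of_le hHC, ← MonoidHom.range_eq_map,
        Subgroup.range_subtype] at h2
      rw [sup_comm]; exact h2
    have hKC : MulAut.conj u • H ≤ H ⊔ M'.map C.subtype := by
      rw [hsup]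
      intro k hk
      rw [mem_conj_smul] at hk
      rw [hmemC]
      have h1 := hHab x hx _ hk
      rw [hy']
      calc u * x * u⁻¹ * k = u * (x * (u⁻¹ * k * u)) * u⁻¹ := by group
        _ = u * ((u⁻¹ * k * u) * x) * u⁻¹ := by rw [h1]
        _ = k * (u * x * u⁻¹) := by group
    have hcardM : Nat.card (M'.map C.subtype) = (H.subgroupOf C).index := by
      rw [Subgroup.card_map_of_injective (Subgroup.subtype_injective C)]
      exact hM'c.index_eq_card.symm
    have hcop : (Nat.card (M'.map C.subtype)).Coprime (Nat.card H) := by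
      rw [hcardM]
      exact (Nat.Coprime.coprime_dvd_right hrel hHall).symm
    have hsolv : Group.IsSolvable H := by
      apply Group.isSolvable_of_comm
      intro a b
      exact Subtype.ext (hHab a a.2 b b.2)
    obtain ⟨m, hm, hmH⟩ := szc (M'.map C.subtype) H (MulAut.conj u • H) hMnorm hKC
      (card_conj_smul u H) hcop (Or.inr hsolv)
    have hmC : m ∈ C := by
      obtain ⟨m', -, rfl⟩ := hm
      exact m'.2
    have hnorm : m⁻¹ * u ∈ Subgroup.normalizer (H : Set G) := by
      apply mem_normalizer_of_conj_mem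
      intro a ha
      have h1 : u * a * u⁻¹ ∈ MulAut.conj u • H := by
        rw [mem_conj_smul]
        have e : u⁻¹ * (u * a * u⁻¹) * u = a := by group
        rw [e]; exact ha
      rw [← hmH, mem_conj_smul] at h1
      have e : m⁻¹ * u * a * (m⁻¹ * u)⁻¹ = m⁻¹ * (u * a * u⁻¹) * m := by group
      rw [e]; exact h1
    have hcent := h hnorm
    rw [Subgroup.mem_centralizer_iff] at hcent
    have h1 := hcent x hx
    -- h1 : x * (m⁻¹ * u) = m⁻¹ * u * x
    have h2 := (hmemC m).mp hmC
    -- h2 : y * m = m * y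
    calc y = m⁻¹ * (m * y) := by group
      _ = m⁻¹ * (y * m) := by rw [h2]
      _ = m⁻¹ * u * x * u⁻¹ * m := by rw [hy']; group
      _ = x * (m⁻¹ * u) * u⁻¹ * m := by rw [h1]
      _ = x := by group

end Cfsg.Agent.Lib.Lead
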