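import Mathlib
import Cfsg.Agent.Lib.Lead.Factorize
import Cfsg.Agent.Lib.Lead.CharBurnside
import Cfsg.Agent.Lib.Lead.SylowSystem
import Cfsg.Agent.Lib.Helper1.HallSys

set_option autoImplicit false

namespace Cfsg.Agent.Lib.Lead

open scoped Pointwise commutatorElement

universe u

/-- Converse of Hall's theorem (complement form). -/
theorem hall_converse : ∀ (n : ℕ) (G : Type u) [Group G] [Finite G], Nat.card G = n →
    (∀ p : ℕ, p.Prime → ∃ H : Subgroup G, (∃ j : ℕ, H.index = p ^ j) ∧ ¬ p ∣ Nat.card H) →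
    Group.IsSolvable G := by
  intro n
  induction n using Nat.strong_induction_on with
  | _ n ih =>
  intro G _ _ hn hc
  have hsub : ∀ q : ℕ, q.Prime → ∀ H : Subgroup G, (∃ j : ℕ, H.index = q ^ j) →
      ¬ q ∣ Nat.card H → H ≠ ⊤ → Group.IsSolvable H := by
    intro q hq H ⟨i, hi⟩ hqH hHtop
    have hlt : Nat.card H < n := by
      rw [← hn, ← Subgroup.card_top (G := G)]
      exact card_lt_of_lt le_top hHtop
    apply ih _ hlt H rfl
    intro p hp
    by_cases hpq : p = q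
    · subst hpq
      refine ⟨⊤, ⟨0, by rw [Subgroup.index_top, pow_zero]⟩, ?_⟩
      rw [Subgroup.card_top]
      exact hqH
    · obtain ⟨K, ⟨j, hj⟩, hpK⟩ := hc p hp
      have hcop : K.index.Coprime H.index := by
        rw [hi, hj]
        exact Nat.Coprime.pow _ _ ((Nat.coprime_primes hp hq).mpr hpq)
      have hinf := index_inf_of_coprime K H hcop
      refine ⟨(K ⊓ H).subgroupOf H, ⟨j, ?_⟩, ?_⟩
      · have h1 := Subgroup.relIndex_mul_index (inf_le_right : K ⊓ H ≤ H)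
        rw [hinf] at h1
        have hpos : 0 < H.index := Nat.pos_of_ne_zero Subgroup.index_ne_zero_of_finite
        have h2 : (K ⊓ H).relIndex H = K.index := Nat.eq_of_mul_eq_mul_right hpos h1
        rw [← hj, ← h2]
        rfl
      · intro hd
        apply hpK
        have h2 : Nat.card ((K ⊓ H).subgroupOf H) = Nat.card (K ⊓ H : Subgroup G) :=
          Nat.card_congr (Subgroup.subgroupOfEquivOfLe inf_le_right).toEquiv
        rw [h2] at hd
        exact dvd_trans hd (Subgroup.card_dvd_of_le inf_le_left)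
  by_cases h1 : Nat.card G = 1
  · haveI : Subsingleton G := (Nat.card_eq_one_iff_unique.mp h1).1
    exact ⟨⟨0, by rw [derivedSeries_zero]; exact Subsingleton.elim _ _⟩⟩
  · obtain ⟨p₁, hp₁, hp₁d⟩ : ∃ p : ℕ, p.Prime ∧ p ∣ Nat.card G :=
      ⟨_, Nat.minFac_prime h1, Nat.minFac_dvd _⟩
    obtain ⟨H₁, ⟨j₁, hj₁⟩, hpH₁⟩ := hc p₁ hp₁
    have hH₁top : H₁ ≠ ⊤ := by
      rintro rfl
      rw [Subgroup.card_top] at hpH₁
      exact hpH₁ hp₁d
    have hcard₁ := H₁.card_mul_index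
    by_cases h2 : Nat.card H₁ = 1
    · haveI : Fact p₁.Prime := ⟨hp₁⟩
      have hpg : IsPGroup p₁ G :=
        IsPGroup.of_card (n := j₁) (by rw [← hcard₁, h2, one_mul, hj₁])
      haveI := hpg.isNilpotent
      infer_instance
    · obtain ⟨p₂, hp₂, hp₂d⟩ : ∃ p : ℕ, p.Prime ∧ p ∣ Nat.card H₁ :=
        ⟨_, Nat.minFac_prime h2, Nat.minFac_dvd _⟩
      have hp12 : p₂ ≠ p₁ := by
        rintro h
        rw [h] at hp₂d
        exact hpH₁ hp₂d
      obtain ⟨H₂, ⟨j₂, hj₂⟩, hpH₂⟩ := hc p₂ hp₂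
      have hH₂top : H₂ ≠ ⊤ := by
        rintro rfl
        rw [Subgroup.card_top] at hpH₂
        exact hpH₂ (dvd_trans hp₂d (Subgroup.card_subgroup_dvd_card H₁))
      have hcop12 : H₁.index.Coprime H₂.index := by
        rw [hj₁, hj₂]
        exact Nat.Coprime.pow _ _ ((Nat.coprime_primes hp₁ hp₂).mpr hp12.symm)
      have hinf12 := index_inf_of_coprime H₁ H₂ hcop12
      by_cases h3 : Nat.card (H₁ ⊓ H₂ : Subgroup G) = 1
      · have hcard := (H₁ ⊓ H₂).card_mul_index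
        rw [h3, one_mul, hinf12, hj₁, hj₂] at hcard
        exact burnside_paqb _ G p₁ p₂ j₁ j₂ hp₁ hp₂ rfl hcard.symm
      · obtain ⟨p₃, hp₃, hp₃d⟩ : ∃ p : ℕ, p.Prime ∧ p ∣ Nat.card (H₁ ⊓ H₂ : Subgroup G) :=
          ⟨_, Nat.minFac_prime h3, Nat.minFac_dvd _⟩
        have hp31 : p₃ ≠ p₁ := by
          rintro h
          rw [h] at hp₃d
          exact hpH₁ (dvd_trans hp₃d (Subgroup.card_dvd_of_le inf_le_left))
        have hp32 : p₃ ≠ p₂ := by
          rintro h
          rw [h] at hp₃d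
          exact hpH₂ (dvd_trans hp₃d (Subgroup.card_dvd_of_le inf_le_right))
        obtain ⟨H₃, ⟨j₃, hj₃⟩, hpH₃⟩ := hc p₃ hp₃
        have hH₃top : H₃ ≠ ⊤ := by
          rintro rfl
          rw [Subgroup.card_top] at hpH₃
          exact hpH₃ (dvd_trans hp₃d (Subgroup.card_subgroup_dvd_card _))
        have hcop13 : H₁.index.Coprime H₃.index := by
          rw [hj₁, hj₃]
          exact Nat.Coprime.pow _ _ ((Nat.coprime_primes hp₁ hp₃).mpr hp31.symm)
        have hcop23 : H₂.index.Coprime H₃.index := by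
          rw [hj₂, hj₃]
          exact Nat.Coprime.pow _ _ ((Nat.coprime_primes hp₂ hp₃).mpr hp32.symm)
        have hs₁ := hsub p₁ hp₁ H₁ ⟨j₁, hj₁⟩ hpH₁ hH₁top
        have hs₂ := hsub p₂ hp₂ H₂ ⟨j₂, hj₂⟩ hpH₂ hH₂top
        have hs₃ := hsub p₃ hp₃ H₃ ⟨j₃, hj₃⟩ hpH₃ hH₃top
        exact solvable_factor _ G H₁ H₂ H₃ rfl hs₁ hs₂ hs₃
          (Cfsg.Agent.Lib.Helper1.exists_mul_of_coprime_index H₁ H₂ hcop12)
          (Cfsg.Agent.Lib.Helper1.exists_mul_of_coprime_index H₁ H₃ hcop13) hcop23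

end Cfsg.Agent.Lib.Lead
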