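import Mathlib
import Cfsg.Agent.Lib.Lead.SZ
import Cfsg.Agent.Lib.Lead.SylowAux2

set_option autoImplicit false

namespace Cfsg.Agent.Lib.Lead

open scoped Pointwise

/-- An element of `C` whose order is coprime to the index in `C` of a subgroup `N` normalized by
`C` lies in `N`. -/
theorem mem_of_coprime_relIndex {G : Type*} [Group G] [Finite G] (N C : Subgroup G)
    (hnorm : ∀ c ∈ C, ∀ u ∈ N, c * u * c⁻¹ ∈ N) (v : G) (hv : v ∈ C)
    (hcop : Nat.Coprime (orderOf v) (N.relIndex C)) : v ∈ N := by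
  haveI : (N.subgroupOf C).Normal := by
    constructor
    intro n hn g
    rw [Subgroup.mem_subgroupOf] at hn ⊢
    exact hnorm g g.2 n hn
  have h1 := Subgroup.pow_index_mem (N.subgroupOf C) (⟨v, hv⟩ : C)
  rw [Subgroup.mem_subgroupOf] at h1
  have h2 : v ^ N.relIndex C ∈ N := h1
  obtain ⟨m, hm⟩ := exists_pow_eq_self_of_coprime hcop.symm
  rw [← hm]
  exact N.pow_mem h2 m

/-- If `N ⊓ K = ⊥`, `K` normalizes `N` and `N ⊔ K = C`, then the index of `N` in `C` is `|K|`. -/
theorem relIndex_of_complement {G : Type*} [Group G] [Finite G] (N K C : Subgroup G)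
    (hnorm : ∀ c ∈ K, ∀ u ∈ N, c * u * c⁻¹ ∈ N) (hinf : N ⊓ K = ⊥) (hsup : N ⊔ K = C) :
    N.relIndex C = Nat.card K := by
  have hNC : N ≤ C := hsup ▸ le_sup_left
  have hKN : K ≤ Subgroup.normalizer (N : Set G) := le_normalizer_of_conj_mem K N hnorm
  haveI := Subgroup.normal_subgroupOf_of_le_normalizer hKN
  haveI := Subgroup.normal_subgroupOf_sup_of_le_normalizer hKN
  have e : Nat.card (↥K ⧸ N.subgroupOf K) = Nat.card (↥(K ⊔ N) ⧸ N.subgroupOf (K ⊔ N)) :=
    Nat.card_congr (QuotientGroup.quotientInfEquivProdNormalizerQuotient K N hKN).toEquiv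
  have h1 : N.relIndex (K ⊔ N) = N.relIndex K := e.symm
  have h2 : N.relIndex K = Nat.card K := by
    have h3 : N.subgroupOf K = ⊥ := by
      rw [Subgroup.subgroupOf_eq_bot, disjoint_iff, hinf]
    show (N.subgroupOf K).index = Nat.card K
    rw [h3, Subgroup.index_bot]
  rw [← hsup, sup_comm, h1, h2]

end Cfsg.Agent.Lib.Lead
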