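import Mathlib
import Cfsg.Agent.Lib.Lead.PmQ
import Cfsg.Agent.Lib.Lead.CoprimeAction2

set_option autoImplicit false

namespace Cfsg.Agent.Lib.Lead

open scoped Pointwise commutatorElement

theorem ito_comm_aux {G : Type*} [Group G] (A B : Subgroup G)
    (hA : ∀ x ∈ A, ∀ y ∈ A, x * y = y * x) (hB : ∀ x ∈ B, ∀ y ∈ B, x * y = y * x)
    (hAB : ∀ g : G, ∃ a ∈ A, ∃ b ∈ B, g = a * b)
    {a a1 : G} (ha : a ∈ A) (ha1 : a1 ∈ A) {b b1 : G} (hb : b ∈ B) (hb1 : b1 ∈ B) :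
    MulAut.conj (b1 * a1) ⁅a, b⁆ = MulAut.conj (a1 * b1) ⁅a, b⁆ := by
  have hBA : ∀ g : G, ∃ b ∈ B, ∃ a ∈ A, g = b * a := by
    intro g
    obtain ⟨a, ha, b, hb, e⟩ := hAB g⁻¹
    refine ⟨b⁻¹, B.inv_mem hb, a⁻¹, A.inv_mem ha, ?_⟩
    rw [← mul_inv_rev, ← e, inv_inv]
  obtain ⟨b2, hb2, a2, ha2, e1⟩ := hBA (MulAut.conj a1 b)
  obtain ⟨a3, ha3, b3, hb3, e2⟩ := hAB (MulAut.conj b1 a)
  have cA : ∀ x ∈ A, ∀ y ∈ A, MulAut.conj x y = y := by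
    intro x hx y hy
    rw [MulAut.conj_apply, hA x hx y hy, mul_inv_cancel_right]
  have cB : ∀ x ∈ B, ∀ y ∈ B, MulAut.conj x y = y := by
    intro x hx y hy
    rw [MulAut.conj_apply, hB x hx y hy, mul_inv_cancel_right]
  have F4 : ∀ x ∈ A, ∀ y : G, ∀ z ∈ A, ⁅x, y * z⁆ = ⁅x, y⁆ := by
    intro x hx y z hz
    rw [commutatorElement_def, commutatorElement_def]
    have h0 : z * x⁻¹ * z⁻¹ = x⁻¹ := by
      have := cA z hz x⁻¹ (A.inv_mem hx); rwa [MulAut.conj_apply] at this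
    calc x * (y * z) * x⁻¹ * (y * z)⁻¹ = x * y * (z * x⁻¹ * z⁻¹) * y⁻¹ := by group
      _ = x * y * x⁻¹ * y⁻¹ := by rw [h0]
  have F5 : ∀ x : G, ∀ y ∈ B, ∀ z ∈ B, ⁅x * y, z⁆ = ⁅x, z⁆ := by
    intro x y hy z hz
    rw [commutatorElement_def, commutatorElement_def]
    have h0 : y * z * y⁻¹ = z := by
      have := cB y hy z hz; rwa [MulAut.conj_apply] at this
    calc x * y * z * (x * y)⁻¹ * z⁻¹ = x * (y * z * y⁻¹) * x⁻¹ * z⁻¹ := by group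
      _ = x * z * x⁻¹ * z⁻¹ := by rw [h0]
  have L : MulAut.conj (b1 * a1) ⁅a, b⁆ = ⁅a3, b2⁆ := by
    rw [map_mul, MulAut.mul_apply, map_commutatorElement, cA a1 ha1 a ha, e1, F4 a ha b2 a2 ha2,
      map_commutatorElement, e2, cB b1 hb1 b2 hb2, F5 a3 b3 hb3 b2 hb2]
  have R : MulAut.conj (a1 * b1) ⁅a, b⁆ = ⁅a3, b2⁆ := by
    rw [map_mul, MulAut.mul_apply, map_commutatorElement, e2, cB b1 hb1 b hb, F5 a3 b3 hb3 b hb,
      map_commutatorElement, cA a1 ha1 a3 ha3, e1, F4 a3 ha3 b2 a2 ha2]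
  rw [L, R]

/-- Itô: a product of two abelian subgroups is metabelian, hence solvable. -/
theorem ito_solvable {G : Type*} [Group G] (A B : Subgroup G)
    (hA : ∀ x ∈ A, ∀ y ∈ A, x * y = y * x) (hB : ∀ x ∈ B, ∀ y ∈ B, x * y = y * x)
    (hAB : ∀ g : G, ∃ a ∈ A, ∃ b ∈ B, g = a * b) : Group.IsSolvable G := by
  have key : ∀ a ∈ A, ∀ b ∈ B, ∀ a1 ∈ A, ∀ b1 ∈ B, ⁅a, b⁆ * ⁅a1, b1⁆ = ⁅a1, b1⁆ * ⁅a, b⁆ := by
    intro a ha b hb a1 ha1 b1 hb1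
    have h := ito_comm_aux A B hA hB hAB ha (A.inv_mem ha1) hb (B.inv_mem hb1)
    rw [MulAut.conj_apply, MulAut.conj_apply] at h
    have e : ⁅a1, b1⁆ = (b1⁻¹ * a1⁻¹)⁻¹ * (a1⁻¹ * b1⁻¹) := by
      rw [commutatorElement_def]; group
    rw [e]
    calc ⁅a, b⁆ * ((b1⁻¹ * a1⁻¹)⁻¹ * (a1⁻¹ * b1⁻¹))
        = (b1⁻¹ * a1⁻¹)⁻¹ * (b1⁻¹ * a1⁻¹ * ⁅a, b⁆ * (b1⁻¹ * a1⁻¹)⁻¹) * (a1⁻¹ * b1⁻¹) := by group
      _ = (b1⁻¹ * a1⁻¹)⁻¹ * (a1⁻¹ * b1⁻¹ * ⁅a, b⁆ * (a1⁻¹ * b1⁻¹)⁻¹) * (a1⁻¹ * b1⁻¹) := by rw [h]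
      _ = (b1⁻¹ * a1⁻¹)⁻¹ * (a1⁻¹ * b1⁻¹) * ⁅a, b⁆ := by group
  have h1 : (⁅A, B⁆ : Subgroup G) ≤ Subgroup.centralizer {g | ∃ a ∈ A, ∃ b ∈ B, ⁅a, b⁆ = g} := by
    rw [Subgroup.commutator_def, Subgroup.closure_le]
    rintro x ⟨a, ha, b, hb, rfl⟩
    rw [SetLike.mem_coe, Subgroup.mem_centralizer_iff]
    rintro y ⟨a1, ha1, b1, hb1, rfl⟩
    exact key a1 ha1 b1 hb1 a ha b hb
  have h2 : ∀ x ∈ (⁅A, B⁆ : Subgroup G), ∀ y ∈ (⁅A, B⁆ : Subgroup G), x * y = y * x := by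
    intro x hx
    have h3 : (⁅A, B⁆ : Subgroup G) ≤ Subgroup.centralizer {x} := by
      rw [Subgroup.commutator_def, Subgroup.closure_le]
      rintro y ⟨a, ha, b, hb, rfl⟩
      rw [SetLike.mem_coe, Subgroup.mem_centralizer_iff]
      intro z hz
      rw [Set.mem_singleton_iff] at hz
      subst hz
      have h4 := h1 hx
      rw [Subgroup.mem_centralizer_iff] at h4
      exact (h4 _ ⟨a, ha, b, hb, rfl⟩).symm
    intro y hy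
    have h5 := h3 hy
    rw [Subgroup.mem_centralizer_iff] at h5
    exact h5 x rfl
  have hCn : (⁅A, B⁆ : Subgroup G).Normal := by
    constructor
    intro x hx g
    obtain ⟨a, ha, b, hb, rfl⟩ := hAB g
    have h3 := commutator_conj_mem_right A B b hb x hx
    have h4 := commutator_conj_mem_left A B a ha _ h3
    have e : a * b * x * (a * b)⁻¹ = a * (b * x * b⁻¹) * a⁻¹ := by group
    rw [e]; exact h4
  have hs1 : Group.IsSolvable (⁅A, B⁆ : Subgroup G) := by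
    apply Group.isSolvable_of_comm
    intro x y
    exact Subtype.ext (h2 x x.2 y y.2)
  have hs2 : Group.IsSolvable (G ⧸ (⁅A, B⁆ : Subgroup G)) := by
    apply Group.isSolvable_of_comm
    intro x y
    induction x using QuotientGroup.induction_on with
    | H x =>
    induction y using QuotientGroup.induction_on with
    | H y =>
    obtain ⟨a, ha, b, hb, rfl⟩ := hAB x
    obtain ⟨a1, ha1, b1, hb1, rfl⟩ := hAB y
    have hc : ∀ u ∈ A, ∀ v ∈ B, (u : G ⧸ (⁅A, B⁆ : Subgroup G)) * (v : G ⧸ (⁅A, B⁆ : Subgroup G))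
        = (v : G ⧸ (⁅A, B⁆ : Subgroup G)) * (u : G ⧸ (⁅A, B⁆ : Subgroup G)) := by
      intro u hu v hv
      rw [← QuotientGroup.mk_mul, ← QuotientGroup.mk_mul, QuotientGroup.eq]
      have e0 : (u * v)⁻¹ * (v * u) = ⁅u⁻¹, v⁻¹⁆⁻¹ := by rw [commutatorElement_def]; group
      rw [e0]
      exact Subgroup.inv_mem _ (Subgroup.commutator_mem_commutator (A.inv_mem hu) (B.inv_mem hv))
    have c1 := hc a ha b1 hb1
    have c2 := hc a1 ha1 b hb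
    have c3 : (a : G ⧸ (⁅A, B⁆ : Subgroup G)) * (a1 : G ⧸ (⁅A, B⁆ : Subgroup G))
        = (a1 : G ⧸ (⁅A, B⁆ : Subgroup G)) * (a : G ⧸ (⁅A, B⁆ : Subgroup G)) := by
      rw [← QuotientGroup.mk_mul, ← QuotientGroup.mk_mul, hA a ha a1 ha1]
    have c4 : (b : G ⧸ (⁅A, B⁆ : Subgroup G)) * (b1 : G ⧸ (⁅A, B⁆ : Subgroup G))
        = (b1 : G ⧸ (⁅A, B⁆ : Subgroup G)) * (b : G ⧸ (⁅A, B⁆ : Subgroup G)) := by
      rw [← QuotientGroup.mk_mul, ← QuotientGroup.mk_mul, hB b hb b1 hb1]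
    rw [QuotientGroup.mk_mul, QuotientGroup.mk_mul]
    generalize (a : G ⧸ (⁅A, B⁆ : Subgroup G)) = α at *
    generalize (b : G ⧸ (⁅A, B⁆ : Subgroup G)) = β at *
    generalize (a1 : G ⧸ (⁅A, B⁆ : Subgroup G)) = α1 at *
    generalize (b1 : G ⧸ (⁅A, B⁆ : Subgroup G)) = β1 at *
    calc α * β * (α1 * β1) = α * (α1 * β) * β1 := by rw [c2]; group
      _ = (α * α1) * (β * β1) := by group
      _ = (α1 * α) * (β1 * β) := by rw [c3, c4]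
      _ = α1 * (α * β1) * β := by group
      _ = α1 * (β1 * α) * β := by rw [c1]
      _ = α1 * β1 * (α * β) := by group
  exact isSolvable_of_normal _ hs1 hs2

end Cfsg.Agent.Lib.Lead
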