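import Mathlib
import Cfsg.Agent.Lib.Lead.Ito
import Cfsg.Agent.Lib.Lead.SylowAux
import Cfsg.Agent.Lib.Lead.CoprimeAction2
import Cfsg.Agent.Lib.Lead.PmQ

set_option autoImplicit false

universe u

namespace Cfsg.Agent.Lib.Lead

open scoped Pointwise commutatorElement

/-- The "norm product" `w * (a w a⁻¹) * ... * (a^(k-1) w a^-(k-1))`. -/
def normProdLead {G : Type*} [Group G] (a w : G) : ℕ → G
  | 0 => 1
  | k + 1 => normProdLead a w k * (a ^ k * w * a⁻¹ ^ k)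

theorem normProdLead_zero {G : Type*} [Group G] (a w : G) : normProdLead a w 0 = 1 := rfl

theorem normProdLead_succ {G : Type*} [Group G] (a w : G) (k : ℕ) :
    normProdLead a w (k + 1) = normProdLead a w k * (a ^ k * w * a⁻¹ ^ k) := rfl

theorem normProdLead_gen {G : Type*} [Group G] (a x : G) (k : ℕ) :
    normProdLead a (x * a⁻¹) k = x ^ k * a⁻¹ ^ k := by
  induction k with
  | zero => simp [normProdLead_zero]
  | succ k ih =>
    rw [normProdLead_succ, ih]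
    group

theorem normProdLead_comm {G : Type*} [Group G] (a w : G) (h : a * w = w * a) (k : ℕ) :
    normProdLead a w k = w ^ k := by
  induction k with
  | zero => simp [normProdLead_zero]
  | succ k ih =>
    rw [normProdLead_succ, ih, pow_succ]
    have h1 : a ^ k * w = w * a ^ k := (Commute.pow_left (show Commute a w from h) k).eq
    rw [h1, mul_assoc w, inv_pow, mul_inv_cancel, mul_one]

theorem conj_pow_mem_lead {G : Type*} [Group G] (W : Subgroup G) (a : G)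
    (hW : ∀ u ∈ W, a * u * a⁻¹ ∈ W) : ∀ j : ℕ, ∀ u ∈ W, a ^ j * u * a⁻¹ ^ j ∈ W := by
  intro j
  induction j with
  | zero => intro u hu; simpa using hu
  | succ j ih =>
    intro u hu
    have h1 := hW _ (ih u hu)
    have e : a ^ (j + 1) * u * a⁻¹ ^ (j + 1) = a * (a ^ j * u * a⁻¹ ^ j) * a⁻¹ := by
      rw [pow_succ', pow_succ]; simp only [mul_assoc]
    rw [e]; exact h1

theorem normProdLead_mem {G : Type*} [Group G] (W : Subgroup G) (a w : G)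
    (hW : ∀ u ∈ W, a * u * a⁻¹ ∈ W) (hw : w ∈ W) (k : ℕ) : normProdLead a w k ∈ W := by
  induction k with
  | zero => rw [normProdLead_zero]; exact W.one_mem
  | succ k ih =>
    rw [normProdLead_succ]; exact W.mul_mem ih (conj_pow_mem_lead W a hW k w hw)

theorem normProdLead_mul {G : Type*} [Group G] (W : Subgroup G) (a : G)
    (hc : ∀ u ∈ W, ∀ v ∈ W, u * v = v * u) (hW : ∀ u ∈ W, a * u * a⁻¹ ∈ W)
    (u v : G) (hu : u ∈ W) (hv : v ∈ W) (k : ℕ) :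
    normProdLead a (u * v) k = normProdLead a u k * normProdLead a v k := by
  induction k with
  | zero => simp [normProdLead_zero]
  | succ k ih =>
    rw [normProdLead_succ, normProdLead_succ, normProdLead_succ, ih]
    have e : a ^ k * (u * v) * a⁻¹ ^ k = (a ^ k * u * a⁻¹ ^ k) * (a ^ k * v * a⁻¹ ^ k) := by
      group
    rw [e]
    have c := hc _ (normProdLead_mem W a v hW hv k) _ (conj_pow_mem_lead W a hW k u hu)
    calc normProdLead a u k * normProdLead a v k *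
          (a ^ k * u * a⁻¹ ^ k * (a ^ k * v * a⁻¹ ^ k))
        = normProdLead a u k * (normProdLead a v k * (a ^ k * u * a⁻¹ ^ k)) *
            (a ^ k * v * a⁻¹ ^ k) := by simp only [mul_assoc]
      _ = normProdLead a u k * ((a ^ k * u * a⁻¹ ^ k) * normProdLead a v k) *
            (a ^ k * v * a⁻¹ ^ k) := by rw [c]
      _ = _ := by simp only [mul_assoc]

theorem normProdLead_one {G : Type*} [Group G] (a : G) (k : ℕ) : normProdLead a 1 k = 1 := by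
  induction k with
  | zero => rfl
  | succ k ih => simp [normProdLead_succ, ih]

theorem fixed_eq_one_of_norm {G : Type*} [Group G] (a : G) (q m : ℕ) (haq : a ^ q = 1)
    (hqm : q.Coprime m) (S : Set G) (hS : ∀ s ∈ S, ∃ x : G, x ^ q = 1 ∧ s = x * a⁻¹)
    (hcomm : ∀ u ∈ Subgroup.closure S, ∀ v ∈ Subgroup.closure S, u * v = v * u)
    (hnorm : ∀ u ∈ Subgroup.closure S, a * u * a⁻¹ ∈ Subgroup.closure S)
    (hm : ∀ u ∈ Subgroup.closure S, u ^ m = 1) :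
    ∀ w ∈ Subgroup.closure S, a * w = w * a → w = 1 := by
  have hN : ∀ w ∈ Subgroup.closure S, normProdLead a w q = 1 := by
    intro w hw
    induction hw using Subgroup.closure_induction with
    | mem s hs =>
      obtain ⟨x, hx, rfl⟩ := hS s hs
      rw [normProdLead_gen, hx, inv_pow, haq, inv_one, mul_one]
    | one => exact normProdLead_one a q
    | mul u v hu hv ihu ihv =>
      rw [normProdLead_mul (Subgroup.closure S) a hcomm hnorm u v hu hv q, ihu, ihv, mul_one]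
    | inv u hu ihu =>
      have h1 := normProdLead_mul (Subgroup.closure S) a hcomm hnorm u u⁻¹ hu
        (Subgroup.inv_mem _ hu) q
      rw [mul_inv_cancel, normProdLead_one, ihu, one_mul] at h1
      exact h1.symm
  intro w hw hc
  have h1 := hN w hw
  rw [normProdLead_comm a w hc q] at h1
  have h2 := hm w hw
  have d1 : orderOf w ∣ q := orderOf_dvd_of_pow_eq_one h1
  have d2 : orderOf w ∣ m := orderOf_dvd_of_pow_eq_one h2
  have d3 : orderOf w ∣ 1 := by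
    have := Nat.dvd_gcd d1 d2
    rwa [show Nat.gcd q m = 1 from hqm] at this
  exact orderOf_eq_one_iff.mp (Nat.dvd_one.mp d3)

/-- Itô: for `G = AB` with `A`, `B` abelian, `⁅A, B⁆` is abelian and normal. -/
theorem ito_comm_pair {G : Type*} [Group G] (A B : Subgroup G)
    (hA : ∀ x ∈ A, ∀ y ∈ A, x * y = y * x) (hB : ∀ x ∈ B, ∀ y ∈ B, x * y = y * x)
    (hAB : ∀ g : G, ∃ a ∈ A, ∃ b ∈ B, g = a * b) :
    (∀ x ∈ (⁅A, B⁆ : Subgroup G), ∀ y ∈ (⁅A, B⁆ : Subgroup G), x * y = y * x) ∧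
      (⁅A, B⁆ : Subgroup G).Normal := by
  have key : ∀ a ∈ A, ∀ b ∈ B, ∀ a1 ∈ A, ∀ b1 ∈ B, ⁅a, b⁆ * ⁅a1, b1⁆ = ⁅a1, b1⁆ * ⁅a, b⁆ := by
    intro a ha b hb a1 ha1 b1 hb1
    have h := ito_comm_aux A B hA hB hAB ha (A.inv_mem ha1) hb (B.inv_mem hb1)
    rw [MulAut.conj_apply, MulAut.conj_apply] at h
    have e : ⁅a1, b1⁆ = (b1⁻¹ * a1⁻¹)⁻¹ * (a1⁻¹ * b1⁻¹) := by
      rw [commutatorElement_def]; group
    rw [e]
    calc ⁅a, b⁆ * ((b1⁻¹ * a1⁻¹)⁻¹ * (a1⁻¹ * b1⁻¹))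
        = (b1⁻¹ * a1⁻¹)⁻¹ * (b1⁻¹ * a1⁻¹ * ⁅a, b⁆ * (b1⁻¹ * a1⁻¹)⁻¹) * (a1⁻¹ * b1⁻¹) := by group
      _ = (b1⁻¹ * a1⁻¹)⁻¹ * (a1⁻¹ * b1⁻¹ * ⁅a, b⁆ * (a1⁻¹ * b1⁻¹)⁻¹) * (a1⁻¹ * b1⁻¹) := by rw [h]
      _ = (b1⁻¹ * a1⁻¹)⁻¹ * (a1⁻¹ * b1⁻¹) * ⁅a, b⁆ := by group
  have h1 : (⁅A, B⁆ : Subgroup G) ≤ Subgroup.centralizer {g | ∃ a ∈ A, ∃ b ∈ B, ⁅a, b⁆ = g} := by
    rw [Subgroup.commutator_def, Subgroup.closure_le]
    rintro x ⟨a, ha, b, hb, rfl⟩
    rw [SetLike.mem_coe, Subgroup.mem_centralizer_iff]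
    rintro y ⟨a1, ha1, b1, hb1, rfl⟩
    exact key a1 ha1 b1 hb1 a ha b hb
  have h2 : ∀ x ∈ (⁅A, B⁆ : Subgroup G), ∀ y ∈ (⁅A, B⁆ : Subgroup G), x * y = y * x := by
    intro x hx
    have h3 : (⁅A, B⁆ : Subgroup G) ≤ Subgroup.centralizer {x} := by
      rw [Subgroup.commutator_def, Subgroup.closure_le]
      rintro y ⟨a, ha, b, hb, rfl⟩
      rw [SetLike.mem_coe, Subgroup.mem_centralizer_iff]
      intro z hz
      rw [Set.mem_singleton_iff] at hz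
      subst hz
      have h4 := h1 hx
      rw [Subgroup.mem_centralizer_iff] at h4
      exact (h4 _ ⟨a, ha, b, hb, rfl⟩).symm
    intro y hy
    have h5 := h3 hy
    rw [Subgroup.mem_centralizer_iff] at h5
    exact h5 x rfl
  have hCn : (⁅A, B⁆ : Subgroup G).Normal := by
    constructor
    intro x hx g
    obtain ⟨a, ha, b, hb, rfl⟩ := hAB g
    have h3 := commutator_conj_mem_right A B b hb x hx
    have h4 := commutator_conj_mem_left A B a ha _ h3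
    have e : a * b * x * (a * b)⁻¹ = a * (b * x * b⁻¹) * a⁻¹ := by group
    rw [e]; exact h4
  exact ⟨h2, hCn⟩

/-- The `p`-elements of an abelian subgroup. -/
def pPartLead {G : Type*} [Group G] (A : Subgroup G) (hA : ∀ x ∈ A, ∀ y ∈ A, x * y = y * x)
    (p : ℕ) : Subgroup G where
  carrier := {x | x ∈ A ∧ ∃ k : ℕ, x ^ (p ^ k) = 1}
  one_mem' := ⟨A.one_mem, 0, one_pow _⟩
  mul_mem' := by
    rintro x y ⟨hx, k, hk⟩ ⟨hy, l, hl⟩
    refine ⟨A.mul_mem hx hy, k + l, ?_⟩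
    have e1 : x ^ p ^ (k + l) = 1 := by rw [pow_add, pow_mul, hk, one_pow]
    have e2 : y ^ p ^ (k + l) = 1 := by rw [pow_add, mul_comm, pow_mul, hl, one_pow]
    rw [(show Commute x y from hA x hx y hy).mul_pow, e1, e2, mul_one]
  inv_mem' := by
    rintro x ⟨hx, k, hk⟩
    exact ⟨A.inv_mem hx, k, by rw [inv_pow, hk, inv_one]⟩

theorem mem_pPartLead {G : Type*} [Group G] (A : Subgroup G)
    (hA : ∀ x ∈ A, ∀ y ∈ A, x * y = y * x) (p : ℕ) (x : G) :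
    x ∈ pPartLead A hA p ↔ x ∈ A ∧ ∃ k : ℕ, x ^ (p ^ k) = 1 := Iff.rfl

theorem pPartLead_isPGroup {G : Type*} [Group G] (A : Subgroup G)
    (hA : ∀ x ∈ A, ∀ y ∈ A, x * y = y * x) (p : ℕ) : IsPGroup p (pPartLead A hA p) := by
  rintro ⟨x, hx⟩
  obtain ⟨-, k, hk⟩ := (mem_pPartLead A hA p x).mp hx
  exact ⟨k, Subtype.ext (by simpa using hk)⟩

theorem pPartLead_card_ge {G : Type*} [Group G] [Finite G] (A : Subgroup G)
    (hA : ∀ x ∈ A, ∀ y ∈ A, x * y = y * x) (p : ℕ) [Fact p.Prime] :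
    p ^ (Nat.card A).factorization p ≤ Nat.card (pPartLead A hA p) := by
  obtain ⟨SA⟩ : Nonempty (Sylow p A) := inferInstance
  have h1 : Nat.card (SA : Subgroup A) = p ^ (Nat.card A).factorization p :=
    Sylow.card_eq_multiplicity SA
  have h2 : Nat.card ((SA : Subgroup A).map A.subtype) = Nat.card (SA : Subgroup A) :=
    Subgroup.card_map_of_injective A.subtype_injective
  have h3 : (SA : Subgroup A).map A.subtype ≤ pPartLead A hA p := by
    rintro x ⟨y, hy, rfl⟩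
    rw [mem_pPartLead]
    refine ⟨y.2, ?_⟩
    obtain ⟨k, hk⟩ := SA.isPGroup' ⟨y, hy⟩
    refine ⟨k, ?_⟩
    have := congrArg (fun t : (SA : Subgroup A) => ((t : A) : G)) hk
    simpa using this
  rw [← h1, ← h2]
  exact Subgroup.card_le_of_le h3

theorem ito_prod_inj {G : Type*} [Group G] (A B : Subgroup G)
    (hint : ∀ x : G, x ∈ A → x ∈ B → x = 1) {x x' y y' : G} (hx : x ∈ A) (hx' : x' ∈ A)
    (hy : y ∈ B) (hy' : y' ∈ B) (h : x * y = x' * y') : x = x' ∧ y = y' := by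
  have h1 : x'⁻¹ * x = y' * y⁻¹ := by
    rw [inv_mul_eq_iff_eq_mul, ← mul_assoc, ← h, mul_inv_cancel_right]
  have hm : x'⁻¹ * x ∈ B := by rw [h1]; exact B.mul_mem hy' (B.inv_mem hy)
  have h2 : x'⁻¹ * x = 1 := hint _ (A.mul_mem (A.inv_mem hx') hx) hm
  have h3 : y' * y⁻¹ = 1 := by rw [← h1]; exact h2
  rw [inv_mul_eq_one] at h2
  rw [mul_inv_eq_one] at h3
  exact ⟨h2.symm, h3.symm⟩

theorem ito_central_pelt {G : Type*} [Group G] [Finite G] (A B : Subgroup G)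
    (hA : ∀ x ∈ A, ∀ y ∈ A, x * y = y * x) (hB : ∀ x ∈ B, ∀ y ∈ B, x * y = y * x)
    (hAB : ∀ g : G, ∃ a ∈ A, ∃ b ∈ B, g = a * b)
    (hint : ∀ x : G, x ∈ A → x ∈ B → x = 1) (p : ℕ) (hp : p.Prime) (hpd : p ∣ Nat.card G) :
    ∃ z : G, z ≠ 1 ∧ (z ∈ A ∨ z ∈ B) ∧ (∃ k : ℕ, z ^ (p ^ k) = 1) ∧
      (∀ N : Subgroup G, N.Normal → IsPGroup p N → ∀ n ∈ N, z * n = n * z) ∧
      (∀ x ∈ A, (∃ k : ℕ, x ^ (p ^ k) = 1) → z * x = x * z) ∧
      (∀ y ∈ B, (∃ k : ℕ, y ^ (p ^ k) = 1) → z * y = y * z) := by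
  haveI : Fact p.Prime := ⟨hp⟩
  have hApP := pPartLead_isPGroup A hA p
  have hBpP := pPartLead_isPGroup B hB p
  obtain ⟨P1, hP1⟩ := hApP.exists_le_sylow
  obtain ⟨g, hg⟩ := sylow_conj_mem P1 (pPartLead B hB p) hBpP
  obtain ⟨a1, ha1, b1, hb1, rfl⟩ := hAB g
  have hf : Function.Injective (MulAut.conj a1⁻¹).toMonoidHom := (MulAut.conj a1⁻¹).injective
  obtain ⟨P2, hP2⟩ : ∃ P2 : Subgroup G, P2 = (P1 : Subgroup G).map (MulAut.conj a1⁻¹).toMonoidHom :=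
    ⟨_, rfl⟩
  have hP2mem : ∀ x : G, x ∈ P2 ↔ a1 * x * a1⁻¹ ∈ (P1 : Subgroup G) := by
    intro x
    rw [hP2]
    constructor
    · rintro ⟨h, hh, rfl⟩
      have e : a1 * (MulAut.conj a1⁻¹).toMonoidHom h * a1⁻¹ = h := by
        show a1 * (a1⁻¹ * h * a1⁻¹⁻¹) * a1⁻¹ = h
        group
      rw [e]; exact hh
    · intro h
      refine ⟨a1 * x * a1⁻¹, h, ?_⟩
      show a1⁻¹ * (a1 * x * a1⁻¹) * a1⁻¹⁻¹ = x
      group
  have hAp2 : ∀ x ∈ pPartLead A hA p, x ∈ P2 := by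
    intro x hx
    rw [hP2mem]
    have : a1 * x * a1⁻¹ = x := by
      rw [hA a1 ha1 x ((mem_pPartLead A hA p x).mp hx).1, mul_inv_cancel_right]
    rw [this]; exact hP1 hx
  have hBp2 : ∀ y ∈ pPartLead B hB p, y ∈ P2 := by
    intro y hy
    rw [hP2mem]
    have h1 := hg y hy
    have e : a1 * b1 * y * (a1 * b1)⁻¹ = a1 * y * a1⁻¹ := by
      have : b1 * y = y * b1 := hB b1 hb1 y ((mem_pPartLead B hB p y).mp hy).1
      calc a1 * b1 * y * (a1 * b1)⁻¹ = a1 * (b1 * y) * b1⁻¹ * a1⁻¹ := by group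
        _ = a1 * (y * b1) * b1⁻¹ * a1⁻¹ := by rw [this]
        _ = a1 * y * a1⁻¹ := by group
    rw [e] at h1; exact h1
  have hcardG : Nat.card G = Nat.card A * Nat.card B := by
    rw [← Nat.card_prod]
    symm
    apply Nat.card_congr
    refine Equiv.ofBijective (fun ab : A × B => (ab.1 : G) * (ab.2 : G)) ⟨?_, ?_⟩
    · rintro ⟨x, y⟩ ⟨x', y'⟩ h
      have h' : (x : G) * y = x' * y' := h
      obtain ⟨e1, e2⟩ := ito_prod_inj A B hint x.2 x'.2 y.2 y'.2 h'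
      exact Prod.ext (Subtype.ext e1) (Subtype.ext e2)
    · intro g
      obtain ⟨a, ha, b, hb, rfl⟩ := hAB g
      exact ⟨(⟨a, ha⟩, ⟨b, hb⟩), rfl⟩
  have hfac : (Nat.card G).factorization p =
      (Nat.card A).factorization p + (Nat.card B).factorization p := by
    rw [hcardG, Nat.factorization_mul Nat.card_pos.ne' Nat.card_pos.ne', Finsupp.add_apply]
  have hcP1 : Nat.card (P1 : Subgroup G) = p ^ (Nat.card G).factorization p :=
    Sylow.card_eq_multiplicity P1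
  have hcP2 : Nat.card P2 = p ^ (Nat.card G).factorization p := by
    rw [hP2, Subgroup.card_map_of_injective hf, hcP1]
  have hle : Nat.card P2 ≤ Nat.card (pPartLead A hA p) * Nat.card (pPartLead B hB p) := by
    rw [hcP2, hfac, pow_add]
    exact Nat.mul_le_mul (pPartLead_card_ge A hA p) (pPartLead_card_ge B hB p)
  have hbij : Function.Bijective (fun xy : pPartLead A hA p × pPartLead B hB p =>
      (⟨(xy.1 : G) * (xy.2 : G), P2.mul_mem (hAp2 _ xy.1.2) (hBp2 _ xy.2.2)⟩ : P2)) := by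
    apply Function.Injective.bijective_of_nat_card_le
    · rintro ⟨x, y⟩ ⟨x', y'⟩ h
      have h' : (x : G) * y = x' * y' := congrArg Subtype.val h
      obtain ⟨e1, e2⟩ := ito_prod_inj A B hint ((mem_pPartLead A hA p _).mp x.2).1
        ((mem_pPartLead A hA p _).mp x'.2).1 ((mem_pPartLead B hB p _).mp y.2).1
        ((mem_pPartLead B hB p _).mp y'.2).1 h'
      exact Prod.ext (Subtype.ext e1) (Subtype.ext e2)
    · rw [Nat.card_prod]; exact hle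
  have hdec : ∀ h ∈ P2, ∃ x ∈ pPartLead A hA p, ∃ y ∈ pPartLead B hB p, h = x * y := by
    intro h hh
    obtain ⟨⟨x, y⟩, hxy⟩ := hbij.2 ⟨h, hh⟩
    exact ⟨x, x.2, y, y.2, (congrArg Subtype.val hxy).symm⟩
  have hP2P : IsPGroup p P2 := IsPGroup.of_card hcP2
  have hpos : 0 < (Nat.card G).factorization p :=
    hp.factorization_pos_of_dvd Nat.card_pos.ne' hpd
  haveI : Nontrivial P2 := by
    apply Finite.one_lt_card_iff_nontrivial.mp
    rw [hcP2]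
    exact Nat.one_lt_pow hpos.ne' hp.one_lt
  haveI := hP2P.center_nontrivial
  obtain ⟨z', hz'ne⟩ := exists_ne (1 : Subgroup.center P2)
  have hzc : ∀ h ∈ P2, ((z'.1 : P2) : G) * h = h * ((z'.1 : P2) : G) := by
    intro h hh
    have := Subgroup.mem_center_iff.mp z'.2 ⟨h, hh⟩
    exact (congrArg Subtype.val this).symm
  have hzne : ((z'.1 : P2) : G) ≠ 1 := by
    intro h
    apply hz'ne
    exact Subtype.ext (Subtype.ext h)
  obtain ⟨x, hx, y, hy, hzxy⟩ := hdec _ z'.1.2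
  have hxA := ((mem_pPartLead A hA p x).mp hx).1
  have hyB := ((mem_pPartLead B hB p y).mp hy).1
  have hxc : ∀ h ∈ P2, x * h = h * x := by
    intro h hh
    obtain ⟨x1, hx1, y1, hy1, rfl⟩ := hdec h hh
    have c1 : x * x1 = x1 * x := hA x hxA x1 ((mem_pPartLead A hA p x1).mp hx1).1
    have c2 : x * y1 = y1 * x := by
      have hz := hzc y1 (hBp2 y1 hy1)
      have hyy : y * y1 = y1 * y := hB y hyB y1 ((mem_pPartLead B hB p y1).mp hy1).1
      rw [hzxy] at hz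
      have : x * y1 * y = y1 * x * y := by
        calc x * y1 * y = x * (y1 * y) := mul_assoc x y1 y
          _ = x * (y * y1) := by rw [hyy]
          _ = x * y * y1 := (mul_assoc x y y1).symm
          _ = y1 * (x * y) := hz
          _ = y1 * x * y := (mul_assoc y1 x y).symm
      exact mul_right_cancel this
    calc x * (x1 * y1) = x * x1 * y1 := (mul_assoc x x1 y1).symm
      _ = x1 * x * y1 := by rw [c1]
      _ = x1 * (x * y1) := mul_assoc x1 x y1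
      _ = x1 * (y1 * x) := by rw [c2]
      _ = x1 * y1 * x := (mul_assoc x1 y1 x).symm
  have hyc : ∀ h ∈ P2, y * h = h * y := by
    intro h hh
    obtain ⟨x1, hx1, y1, hy1, rfl⟩ := hdec h hh
    have c1 : y * y1 = y1 * y := hB y hyB y1 ((mem_pPartLead B hB p y1).mp hy1).1
    have c2 : y * x1 = x1 * y := by
      have hz := hzc x1 (hAp2 x1 hx1)
      have hxx : x * x1 = x1 * x := hA x hxA x1 ((mem_pPartLead A hA p x1).mp hx1).1
      rw [hzxy] at hz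
      have : x * (y * x1) = x * (x1 * y) := by
        calc x * (y * x1) = x * y * x1 := (mul_assoc x y x1).symm
          _ = x1 * (x * y) := hz
          _ = x1 * x * y := (mul_assoc x1 x y).symm
          _ = x * x1 * y := by rw [hxx]
          _ = x * (x1 * y) := mul_assoc x x1 y
      exact mul_left_cancel this
    calc y * (x1 * y1) = y * x1 * y1 := (mul_assoc y x1 y1).symm
      _ = x1 * y * y1 := by rw [c2]
      _ = x1 * (y * y1) := mul_assoc x1 y y1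
      _ = x1 * (y1 * y) := by rw [c1]
      _ = x1 * y1 * y := (mul_assoc x1 y1 y).symm
  have hNP2 : ∀ N : Subgroup G, N.Normal → IsPGroup p N → ∀ n ∈ N, n ∈ P2 := by
    intro N hN hNp n hn
    obtain ⟨g', hg'⟩ := sylow_conj_mem P1 N hNp
    rw [hP2mem]
    have h1 : g'⁻¹ * (a1 * n * a1⁻¹) * g' ∈ N := by
      have := hN.conj_mem n hn (g'⁻¹ * a1)
      have e : g'⁻¹ * a1 * n * (g'⁻¹ * a1)⁻¹ = g'⁻¹ * (a1 * n * a1⁻¹) * g' := by group
      rw [e] at this; exact this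
    have h2 := hg' _ h1
    have e : g' * (g'⁻¹ * (a1 * n * a1⁻¹) * g') * g'⁻¹ = a1 * n * a1⁻¹ := by group
    rw [e] at h2; exact h2
  have hfin : ∀ z0 : G, z0 ≠ 1 → (z0 ∈ A ∨ z0 ∈ B) → (∃ k : ℕ, z0 ^ (p ^ k) = 1) →
      (∀ h ∈ P2, z0 * h = h * z0) →
      ∃ z : G, z ≠ 1 ∧ (z ∈ A ∨ z ∈ B) ∧ (∃ k : ℕ, z ^ (p ^ k) = 1) ∧
      (∀ N : Subgroup G, N.Normal → IsPGroup p N → ∀ n ∈ N, z * n = n * z) ∧
      (∀ x ∈ A, (∃ k : ℕ, x ^ (p ^ k) = 1) → z * x = x * z) ∧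
      (∀ y ∈ B, (∃ k : ℕ, y ^ (p ^ k) = 1) → z * y = y * z) := by
    intro z0 h1 h2 h3 h4
    exact ⟨z0, h1, h2, h3, fun N hN hNp n hn => h4 n (hNP2 N hN hNp n hn),
      fun x hx hk => h4 x (hAp2 x ((mem_pPartLead A hA p x).mpr ⟨hx, hk⟩)),
      fun y hy hk => h4 y (hBp2 y ((mem_pPartLead B hB p y).mpr ⟨hy, hk⟩))⟩
  by_cases hx1 : x = 1
  · have hy1 : y ≠ 1 := by
      intro hy1; apply hzne; rw [hzxy, hx1, hy1, mul_one]
    exact hfin y hy1 (Or.inr hyB) ((mem_pPartLead B hB p y).mp hy).2 hyc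
  · exact hfin x hx1 (Or.inl hxA) ((mem_pPartLead A hA p x).mp hx).2 hxc

theorem ito_prelim {G : Type*} [Group G] (A B : Subgroup G)
    (hA : ∀ x ∈ A, ∀ y ∈ A, x * y = y * x) (hB : ∀ x ∈ B, ∀ y ∈ B, x * y = y * x)
    (hAB : ∀ g : G, ∃ a ∈ A, ∃ b ∈ B, g = a * b)
    (H0A : ∀ N : Subgroup G, N.Normal → N ≤ A → N = ⊥)
    (H0B : ∀ N : Subgroup G, N.Normal → N ≤ B → N = ⊥) :
    (∀ z : G, (∀ g : G, z * g = g * z) → z = 1) ∧
      (∀ g : G, (∀ x ∈ A, g * x = x * g) → g ∈ A) := by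
  have hcenS : ∀ S : Subgroup G, (∀ N : Subgroup G, N.Normal → N ≤ S → N = ⊥) →
      ∀ a ∈ S, (∀ g : G, a * g = g * a) → a = 1 := by
    intro S H0S a ha hc
    have hn : (Subgroup.zpowers a).Normal := by
      constructor
      intro x hx g
      have hxc : x * g = g * x := by
        have hle : Subgroup.zpowers a ≤ Subgroup.centralizer {g} := by
          rw [Subgroup.zpowers_le, Subgroup.mem_centralizer_iff]
          intro h hh
          rw [Set.mem_singleton_iff] at hh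
          rw [hh]; exact (hc g).symm
        have h2 := hle hx
        rw [Subgroup.mem_centralizer_iff] at h2
        exact (h2 g rfl).symm
      have e : g * x * g⁻¹ = x := by rw [← hxc, mul_inv_cancel_right]
      rw [e]; exact hx
    have h1 := H0S _ hn (by rw [Subgroup.zpowers_le]; exact ha)
    exact Subgroup.zpowers_eq_bot.mp h1
  have hcen : ∀ z : G, (∀ g : G, z * g = g * z) → z = 1 := by
    intro z hz
    obtain ⟨a, ha, b, hb, rfl⟩ := hAB z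
    have hac : ∀ g : G, a * g = g * a := by
      intro g
      obtain ⟨a', ha', b', hb', rfl⟩ := hAB g
      have h1 : a * a' = a' * a := hA a ha a' ha'
      have h2 : a * b' = b' * a := by
        have h3 := hz b'
        have h4 : b' * b = b * b' := hB b' hb' b hb
        have : a * b' * b = b' * a * b := by
          calc a * b' * b = a * (b' * b) := mul_assoc _ _ _
            _ = a * (b * b') := by rw [h4]
            _ = a * b * b' := (mul_assoc _ _ _).symm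
            _ = b' * (a * b) := h3
            _ = b' * a * b := (mul_assoc _ _ _).symm
        exact mul_right_cancel this
      calc a * (a' * b') = a * a' * b' := (mul_assoc _ _ _).symm
        _ = a' * a * b' := by rw [h1]
        _ = a' * (a * b') := mul_assoc _ _ _
        _ = a' * (b' * a) := by rw [h2]
        _ = a' * b' * a := (mul_assoc _ _ _).symm
    have hbc : ∀ g : G, b * g = g * b := by
      intro g
      have h1 := hz g
      have h2 : g * a = a * g := (hac g).symm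
      have : a * (b * g) = a * (g * b) := by
        calc a * (b * g) = a * b * g := (mul_assoc _ _ _).symm
          _ = g * (a * b) := h1
          _ = g * a * b := (mul_assoc _ _ _).symm
          _ = a * g * b := by rw [h2]
          _ = a * (g * b) := mul_assoc _ _ _
      exact mul_left_cancel this
    rw [hcenS A H0A a ha hac, hcenS B H0B b hb hbc, mul_one]
  refine ⟨hcen, ?_⟩
  intro g hg
  obtain ⟨a, ha, b, hb, rfl⟩ := hAB g
  have hbc : ∀ h : G, b * h = h * b := by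
    intro h
    obtain ⟨a', ha', b', hb', rfl⟩ := hAB h
    have h1 : b * a' = a' * b := by
      have h3 := hg a' ha'
      have h4 : a' * a = a * a' := hA a' ha' a ha
      have : a * (b * a') = a * (a' * b) := by
        calc a * (b * a') = a * b * a' := (mul_assoc _ _ _).symm
          _ = a' * (a * b) := h3
          _ = a' * a * b := (mul_assoc _ _ _).symm
          _ = a * a' * b := by rw [h4]
          _ = a * (a' * b) := mul_assoc _ _ _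
      exact mul_left_cancel this
    have h2 : b * b' = b' * b := hB b hb b' hb'
    calc b * (a' * b') = b * a' * b' := (mul_assoc _ _ _).symm
      _ = a' * b * b' := by rw [h1]
      _ = a' * (b * b') := mul_assoc _ _ _
      _ = a' * (b' * b) := by rw [h2]
      _ = a' * b' * b := (mul_assoc _ _ _).symm
  rw [hcen b hbc, mul_one]; exact ha

/-- All conjugates of elements of `A`. -/
def conjSetLead {G : Type*} [Group G] (A : Subgroup G) : Set G :=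
  {c | ∃ h : G, ∃ a ∈ A, c = h * a * h⁻¹}

theorem ito_meet_comm_aux {G : Type*} [Group G] (A B : Subgroup G)
    (hA : ∀ x ∈ A, ∀ y ∈ A, x * y = y * x)
    (hAB : ∀ g : G, ∃ a ∈ A, ∃ b ∈ B, g = a * b)
    (H0A : ∀ N : Subgroup G, N.Normal → N ≤ A → N = ⊥)
    (hCA : ∀ g : G, (∀ x ∈ A, g * x = x * g) → g ∈ A)
    (D : Subgroup G) (hDc : ∀ u ∈ D, ∀ v ∈ D, u * v = v * u) (hDn : D.Normal)
    (hcomm1 : ∀ a ∈ A, ∀ b ∈ B, b * a * b⁻¹ * a⁻¹ ∈ D) :
    ∀ g : G, g ∈ A → g ∈ D → g = 1 := by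
  intro x hxA hxD
  have hn : (Subgroup.centralizer (conjSetLead A)).Normal := by
    constructor
    intro n hn g
    rw [Subgroup.mem_centralizer_iff] at hn ⊢
    rintro c ⟨h, a, ha, rfl⟩
    have h1 := hn ((g⁻¹ * h) * a * (g⁻¹ * h)⁻¹) ⟨g⁻¹ * h, a, ha, rfl⟩
    calc h * a * h⁻¹ * (g * n * g⁻¹) = g * ((g⁻¹ * h) * a * (g⁻¹ * h)⁻¹ * n) * g⁻¹ := by group
      _ = g * (n * ((g⁻¹ * h) * a * (g⁻¹ * h)⁻¹)) * g⁻¹ := by rw [h1]
      _ = g * n * g⁻¹ * (h * a * h⁻¹) := by group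
  have hle : Subgroup.centralizer (conjSetLead A) ≤ A := by
    intro n hn
    rw [Subgroup.mem_centralizer_iff] at hn
    apply hCA
    intro a ha
    have := hn a ⟨1, a, ha, by simp⟩
    exact this.symm
  have hbot := H0A _ hn hle
  have hx : x ∈ Subgroup.centralizer (conjSetLead A) := by
    rw [Subgroup.mem_centralizer_iff]
    rintro c ⟨h, a, ha, rfl⟩
    obtain ⟨a', ha', b', hb', rfl⟩ := hAB h
    have hd : a' * (b' * a * b'⁻¹ * a⁻¹) * a'⁻¹ ∈ D := hDn.conj_mem _ (hcomm1 a ha b' hb') a'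
    have e : a' * b' * a * (a' * b')⁻¹ = a' * (b' * a * b'⁻¹ * a⁻¹) * a'⁻¹ * a := by
      have h1 : a * a'⁻¹ = a'⁻¹ * a := hA a ha _ (A.inv_mem ha')
      calc a' * b' * a * (a' * b')⁻¹ = a' * (b' * a * b'⁻¹ * a⁻¹) * (a * a'⁻¹) := by group
        _ = a' * (b' * a * b'⁻¹ * a⁻¹) * (a'⁻¹ * a) := by rw [h1]
        _ = a' * (b' * a * b'⁻¹ * a⁻¹) * a'⁻¹ * a := (mul_assoc _ _ _).symm
    rw [e]
    have c1 := hDc _ hd x hxD
    have c2 := hA a ha x hxA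
    calc a' * (b' * a * b'⁻¹ * a⁻¹) * a'⁻¹ * a * x
        = a' * (b' * a * b'⁻¹ * a⁻¹) * a'⁻¹ * (a * x) := mul_assoc _ _ _
      _ = a' * (b' * a * b'⁻¹ * a⁻¹) * a'⁻¹ * (x * a) := by rw [c2]
      _ = a' * (b' * a * b'⁻¹ * a⁻¹) * a'⁻¹ * x * a := (mul_assoc _ _ _).symm
      _ = x * (a' * (b' * a * b'⁻¹ * a⁻¹) * a'⁻¹) * a := by rw [c1]
      _ = x * (a' * (b' * a * b'⁻¹ * a⁻¹) * a'⁻¹ * a) := mul_assoc _ _ _
  rw [hbot] at hx
  exact Subgroup.mem_bot.mp hx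

/-- The commutators `⁅y, a0⁆` for `y ∈ Y`. -/
def itoE {G : Type*} [Group G] (Y : Subgroup G) (a0 : G) : Set G :=
  {g | ∃ y ∈ Y, g = y * a0 * y⁻¹ * a0⁻¹}

theorem ito_W_aux {G : Type*} [Group G] (X Y : Subgroup G)
    (hX : ∀ x ∈ X, ∀ y ∈ X, x * y = y * x) (hY : ∀ x ∈ Y, ∀ y ∈ Y, x * y = y * x)
    (hXY : ∀ g : G, ∃ x ∈ X, ∃ y ∈ Y, g = x * y)
    (D : Subgroup G) (hDc : ∀ u ∈ D, ∀ v ∈ D, u * v = v * u)
    (a0 : G) (ha0 : a0 ∈ X) (q m : ℕ) (ha0q : a0 ^ q = 1) (hqm : q.Coprime m)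
    (heD : ∀ y ∈ Y, y * a0 * y⁻¹ * a0⁻¹ ∈ D)
    (hE : ∀ y ∈ Y, (y * a0 * y⁻¹ * a0⁻¹) ^ m = 1) :
    ∃ W : Subgroup G, W.Normal ∧ W ≤ D ∧ (∀ w ∈ W, a0 * w = w * a0 → w = 1) ∧
      (∀ y ∈ Y, y * a0 * y⁻¹ * a0⁻¹ ∈ W) ∧
      (∀ y1 ∈ Y, a0 * y1 = y1 * a0 → ∀ w ∈ W, y1 * w = w * y1) := by
  have hYX : ∀ g : G, ∃ y ∈ Y, ∃ x ∈ X, g = y * x := by
    intro g
    obtain ⟨x, hx, y, hy, e⟩ := hXY g⁻¹
    refine ⟨y⁻¹, Y.inv_mem hy, x⁻¹, X.inv_mem hx, ?_⟩
    rw [← mul_inv_rev, ← e, inv_inv]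
  have hWD : Subgroup.closure (itoE Y a0) ≤ D := by
    rw [Subgroup.closure_le]
    rintro g ⟨y, hy, rfl⟩
    exact heD y hy
  have hWc : ∀ u ∈ Subgroup.closure (itoE Y a0), ∀ v ∈ Subgroup.closure (itoE Y a0),
      u * v = v * u := fun u hu v hv => hDc u (hWD hu) v (hWD hv)
  have hWm : ∀ u ∈ Subgroup.closure (itoE Y a0), u ^ m = 1 := by
    intro u hu
    induction hu using Subgroup.closure_induction with
    | mem g hg => obtain ⟨y, hy, rfl⟩ := hg; exact hE y hy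
    | one => exact one_pow m
    | mul u v hu hv ihu ihv =>
      rw [(show Commute u v from hWc u hu v hv).mul_pow, ihu, ihv, mul_one]
    | inv u hu ihu => rw [inv_pow, ihu, inv_one]
  have hWn : (Subgroup.closure (itoE Y a0)).Normal := by
    have hx : ∀ x ∈ X, ∀ w ∈ Subgroup.closure (itoE Y a0),
        x * w * x⁻¹ ∈ Subgroup.closure (itoE Y a0) := by
      intro x hx
      apply conj_mem_closure
      rintro s ⟨y, hy, rfl⟩
      obtain ⟨y', hy', x', hx', e⟩ := hYX (x * y)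
      apply Subgroup.subset_closure
      refine ⟨y', hy', ?_⟩
      have hxa : a0⁻¹ * x⁻¹ = x⁻¹ * a0⁻¹ := by
        rw [← mul_inv_rev, ← mul_inv_rev, hX x hx a0 ha0]
      have hx'a : x' * a0 * x'⁻¹ = a0 := by rw [hX x' hx' a0 ha0, mul_inv_cancel_right]
      calc x * (y * a0 * y⁻¹ * a0⁻¹) * x⁻¹ = x * y * a0 * y⁻¹ * (a0⁻¹ * x⁻¹) := by
            simp only [mul_assoc]
        _ = x * y * a0 * y⁻¹ * (x⁻¹ * a0⁻¹) := by rw [hxa]
        _ = (x * y) * a0 * (x * y)⁻¹ * a0⁻¹ := by group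
        _ = (y' * x') * a0 * (y' * x')⁻¹ * a0⁻¹ := by rw [e]
        _ = y' * (x' * a0 * x'⁻¹) * y'⁻¹ * a0⁻¹ := by group
        _ = y' * a0 * y'⁻¹ * a0⁻¹ := by rw [hx'a]
    have hy : ∀ y1 ∈ Y, ∀ w ∈ Subgroup.closure (itoE Y a0),
        y1 * w * y1⁻¹ ∈ Subgroup.closure (itoE Y a0) := by
      intro y1 hy1
      apply conj_mem_closure
      rintro s ⟨y, hy, rfl⟩
      have h1 : (y1 * y) * a0 * (y1 * y)⁻¹ * a0⁻¹ ∈ Subgroup.closure (itoE Y a0) :=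
        Subgroup.subset_closure ⟨y1 * y, Y.mul_mem hy1 hy, rfl⟩
      have h2 : y1 * a0 * y1⁻¹ * a0⁻¹ ∈ Subgroup.closure (itoE Y a0) :=
        Subgroup.subset_closure ⟨y1, hy1, rfl⟩
      have e : y1 * (y * a0 * y⁻¹ * a0⁻¹) * y1⁻¹ =
          ((y1 * y) * a0 * (y1 * y)⁻¹ * a0⁻¹) * (y1 * a0 * y1⁻¹ * a0⁻¹)⁻¹ := by group
      rw [e]; exact Subgroup.mul_mem _ h1 (Subgroup.inv_mem _ h2)
    constructor
    intro w hw g
    obtain ⟨x, hx', y, hy', rfl⟩ := hXY g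
    have := hx x hx' _ (hy y hy' w hw)
    have e : x * y * w * (x * y)⁻¹ = x * (y * w * y⁻¹) * x⁻¹ := by group
    rw [e]; exact this
  have hfix : ∀ w ∈ Subgroup.closure (itoE Y a0), a0 * w = w * a0 → w = 1 := by
    apply fixed_eq_one_of_norm a0 q m ha0q hqm (itoE Y a0)
    · rintro s ⟨y, hy, rfl⟩
      exact ⟨y * a0 * y⁻¹, by rw [conj_pow, ha0q, mul_one, mul_inv_cancel], rfl⟩
    · exact hWc
    · intro u hu; exact hWn.conj_mem u hu a0
    · exact hWm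
  refine ⟨Subgroup.closure (itoE Y a0), hWn, hWD, hfix,
    fun y hy => Subgroup.subset_closure ⟨y, hy, rfl⟩, ?_⟩
  intro y1 hy1 hc w hw
  have h1 : Subgroup.closure (itoE Y a0) ≤ Subgroup.centralizer {y1} := by
    rw [Subgroup.closure_le]
    rintro s ⟨y, hy, rfl⟩
    rw [SetLike.mem_coe, Subgroup.mem_centralizer_iff]
    intro h hh
    rw [Set.mem_singleton_iff] at hh
    rw [hh]
    have c1 : Commute y1 y := hY y1 hy1 y hy
    have c2 : Commute y1 a0 := hc.symm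
    exact (((c1.mul_right c2).mul_right c1.inv_right).mul_right c2.inv_right).eq
  have h2 := h1 hw
  rw [Subgroup.mem_centralizer_iff] at h2
  exact h2 y1 rfl

theorem ito_main_aux {G : Type u} [Group G] [Finite G]
    (IH : ∀ (H : Type u) [Group H] [Finite H], Nat.card H < Nat.card G → Nontrivial H →
      ∀ (A B : Subgroup H), (∀ x ∈ A, ∀ y ∈ A, x * y = y * x) →
      (∀ x ∈ B, ∀ y ∈ B, x * y = y * x) → (∀ g : H, ∃ a ∈ A, ∃ b ∈ B, g = a * b) →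
      ∃ N : Subgroup H, N.Normal ∧ N ≠ ⊥ ∧ (N ≤ A ∨ N ≤ B))
    (X Y : Subgroup G)
    (hX : ∀ x ∈ X, ∀ y ∈ X, x * y = y * x) (hY : ∀ x ∈ Y, ∀ y ∈ Y, x * y = y * x)
    (hXY : ∀ g : G, ∃ x ∈ X, ∃ y ∈ Y, g = x * y)
    (hcen : ∀ z : G, (∀ g : G, z * g = g * z) → z = 1)
    (hCX : ∀ g : G, (∀ x ∈ X, g * x = x * g) → g ∈ X)
    (hint : ∀ g : G, g ∈ X → g ∈ Y → g = 1)
    (D : Subgroup G) (hDc : ∀ u ∈ D, ∀ v ∈ D, u * v = v * u) (hDn : D.Normal)
    (hDcomm : ∀ x ∈ X, ∀ y ∈ Y, y * x * y⁻¹ * x⁻¹ ∈ D)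
    (hXD : ∀ g : G, g ∈ X → g ∈ D → g = 1) (hYD : ∀ g : G, g ∈ Y → g ∈ D → g = 1)
    (p : ℕ) (hp : p.Prime) (a0 : G) (ha0 : a0 ∈ X) (ha0ne : a0 ≠ 1) (k : ℕ)
    (ha0k : a0 ^ (p ^ k) = 1)
    (hNp : ∀ N : Subgroup G, N.Normal → IsPGroup p N → ∀ n ∈ N, a0 * n = n * a0)
    (hYp : ∀ y ∈ Y, (∃ k : ℕ, y ^ (p ^ k) = 1) → a0 * y = y * a0) : False := by
  have hYX : ∀ g : G, ∃ y ∈ Y, ∃ x ∈ X, g = y * x := by
    intro g
    obtain ⟨x, hx, y, hy, e⟩ := hXY g⁻¹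
    refine ⟨y⁻¹, Y.inv_mem hy, x⁻¹, X.inv_mem hx, ?_⟩
    rw [← mul_inv_rev, ← e, inv_inv]
  obtain ⟨s, m, hpm, hDm⟩ :=
    Nat.exists_eq_pow_mul_and_not_dvd (Nat.card_pos (α := D)).ne' p hp.ne_one
  have hqm : Nat.Coprime (p ^ k) m :=
    Nat.Coprime.pow_left k ((Nat.Prime.coprime_iff_not_dvd hp).mpr hpm)
  -- the `p`-part of `D`
  let Dp : Subgroup G :=
    { carrier := {d | d ∈ D ∧ d ^ (p ^ s) = 1}
      one_mem' := ⟨D.one_mem, one_pow _⟩
      mul_mem' := by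
        rintro u v ⟨hu, hu1⟩ ⟨hv, hv1⟩
        exact ⟨D.mul_mem hu hv, by
          rw [(show Commute u v from hDc u hu v hv).mul_pow, hu1, hv1, mul_one]⟩
      inv_mem' := by
        rintro u ⟨hu, hu1⟩
        exact ⟨D.inv_mem hu, by rw [inv_pow, hu1, inv_one]⟩ }
  have hDpn : Dp.Normal := by
    constructor
    rintro d ⟨hd, hd1⟩ g
    exact ⟨hDn.conj_mem d hd g, by rw [conj_pow, hd1, mul_one, mul_inv_cancel]⟩
  have hDpP : IsPGroup p Dp := by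
    rintro ⟨d, hd, hd1⟩
    exact ⟨s, Subtype.ext (by simpa using hd1)⟩
  have ha0D : ∀ u ∈ D, a0 * u ^ m = u ^ m * a0 := by
    intro u hu
    apply hNp Dp hDpn hDpP
    refine ⟨D.pow_mem hu m, ?_⟩
    rw [← pow_mul, mul_comm, ← hDm]
    have h := pow_card_eq_one' (G := D) (x := ⟨u, hu⟩)
    exact (Subgroup.coe_pow D ⟨u, hu⟩ (Nat.card D)).symm.trans (congrArg Subtype.val h)
  have hstep1 : ∀ d ∈ D, (d * a0 * d⁻¹ * a0⁻¹) ^ m = 1 := by
    intro d hd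
    have h1 : a0 * d⁻¹ * a0⁻¹ ∈ D := hDn.conj_mem _ (D.inv_mem hd) a0
    have e : d * a0 * d⁻¹ * a0⁻¹ = d * (a0 * d⁻¹ * a0⁻¹) := by simp only [mul_assoc]
    rw [e, (show Commute d (a0 * d⁻¹ * a0⁻¹) from hDc d hd _ h1).mul_pow, conj_pow, inv_pow]
    have h2 : a0 * (d ^ m)⁻¹ = (d ^ m)⁻¹ * a0 :=
      ((show Commute a0 (d ^ m) from ha0D d hd).inv_right).eq
    rw [h2, mul_assoc, mul_inv_cancel, mul_one, mul_inv_cancel]
  have heD : ∀ y ∈ Y, y * a0 * y⁻¹ * a0⁻¹ ∈ D := fun y hy => hDcomm a0 ha0 y hy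
  have hE : ∀ y ∈ Y, (y * a0 * y⁻¹ * a0⁻¹) ^ m = 1 := by
    intro y hy
    have heD' : y * a0 * y⁻¹ * a0⁻¹ ∈ D := heD y hy
    obtain ⟨e, he⟩ : ∃ e : G, e = y * a0 * y⁻¹ * a0⁻¹ := ⟨_, rfl⟩
    rw [← he] at heD' ⊢
    apply hXD
    · apply hCX
      intro x hx
      have hd : x⁻¹ * y⁻¹ * x * y ∈ D := by
        have h1 := hDcomm x hx y⁻¹ (Y.inv_mem hy)
        have h2 := hDn.conj_mem _ h1 x⁻¹
        have e1 : x⁻¹ * (y⁻¹ * x * y⁻¹⁻¹ * x⁻¹) * x⁻¹⁻¹ = x⁻¹ * y⁻¹ * x * y := by group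
        rw [e1] at h2; exact h2
      have h3 := hstep1 _ hd
      have hxa : x * a0 = a0 * x := hX x hx a0 ha0
      have c1 : a0⁻¹ * x⁻¹ * a0 = x⁻¹ := by
        have : x⁻¹ * a0 = a0 * x⁻¹ := ((show Commute a0 x from hxa.symm).inv_right).eq.symm
        rw [mul_assoc, this, inv_mul_cancel_left]
      have c2 : x * a0⁻¹ * x⁻¹ = a0⁻¹ := by
        have : x * a0⁻¹ = a0⁻¹ * x := ((show Commute x a0 from hxa).inv_right).eq
        rw [this, mul_inv_cancel_right]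
      have e2 : x * e * x⁻¹ * e⁻¹ = (y * x) * ((x⁻¹ * y⁻¹ * x * y) * a0 *
          (x⁻¹ * y⁻¹ * x * y)⁻¹ * a0⁻¹) * (y * x)⁻¹ := by
        calc x * e * x⁻¹ * e⁻¹
            = x * y * a0 * y⁻¹ * (a0⁻¹ * x⁻¹ * a0) * y * a0⁻¹ * y⁻¹ := by rw [he]; group
          _ = x * y * a0 * y⁻¹ * x⁻¹ * y * a0⁻¹ * y⁻¹ := by rw [c1]
          _ = x * y * a0 * y⁻¹ * x⁻¹ * y * (x * a0⁻¹ * x⁻¹) * y⁻¹ := by rw [c2]
          _ = (y * x) * ((x⁻¹ * y⁻¹ * x * y) * a0 * (x⁻¹ * y⁻¹ * x * y)⁻¹ * a0⁻¹) *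
              (y * x)⁻¹ := by group
      have h4 : (x * e * x⁻¹ * e⁻¹) ^ m = 1 := by
        rw [e2, conj_pow, h3, mul_one, mul_inv_cancel]
      have h5 : x * e * x⁻¹ ∈ D := hDn.conj_mem e heD' x
      have h6 : (x * e * x⁻¹) ^ m * (e ^ m)⁻¹ = 1 := by
        have := (show Commute (x * e * x⁻¹) e⁻¹ from hDc _ h5 _ (D.inv_mem heD')).mul_pow m
        rw [h4, inv_pow] at this
        exact this.symm
      have h7 : x * e ^ m * x⁻¹ = e ^ m := by
        rw [← conj_pow]; exact mul_inv_eq_one.mp h6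
      calc e ^ m * x = x * e ^ m * x⁻¹ * x := by rw [h7]
        _ = x * e ^ m := by rw [inv_mul_cancel_right]
    · exact D.pow_mem heD' m
  obtain ⟨W, hWn, hWD, hfix, hgen, hYW⟩ :=
    ito_W_aux X Y hX hY hXY D hDc a0 ha0 (p ^ k) m ha0k hqm heD hE
  have hWc : ∀ u ∈ W, ∀ v ∈ W, u * v = v * u := fun u hu v hv => hDc u (hWD hu) v (hWD hv)
  -- surjectivity of `w ↦ ⁅w, a0⁆` on `W`
  have hθ : ∀ v ∈ W, ∃ w ∈ W, w * a0 * w⁻¹ * a0⁻¹ = v := by
    let θ : W → W := fun w => ⟨(w : G) * a0 * (w : G)⁻¹ * a0⁻¹, by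
      have h1 : a0 * (w : G)⁻¹ * a0⁻¹ ∈ W := hWn.conj_mem _ (W.inv_mem w.2) a0
      have e : (w : G) * a0 * (w : G)⁻¹ * a0⁻¹ = (w : G) * (a0 * (w : G)⁻¹ * a0⁻¹) := by
        simp only [mul_assoc]
      rw [e]; exact W.mul_mem w.2 h1⟩
    have hinj : Function.Injective θ := by
      intro w1 w2 h
      have h' : (w1 : G) * a0 * (w1 : G)⁻¹ * a0⁻¹ = (w2 : G) * a0 * (w2 : G)⁻¹ * a0⁻¹ :=
        congrArg Subtype.val h
      have h2 : (w1 : G) * a0 * (w1 : G)⁻¹ = (w2 : G) * a0 * (w2 : G)⁻¹ := mul_right_cancel h'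
      have h3 : a0 * ((w2 : G)⁻¹ * w1) = ((w2 : G)⁻¹ * w1) * a0 := by
        calc a0 * ((w2 : G)⁻¹ * w1) = (w2 : G)⁻¹ * ((w2 : G) * a0 * (w2 : G)⁻¹) * w1 := by group
          _ = (w2 : G)⁻¹ * ((w1 : G) * a0 * (w1 : G)⁻¹) * w1 := by rw [h2]
          _ = ((w2 : G)⁻¹ * w1) * a0 := by group
      have h4 := hfix _ (W.mul_mem (W.inv_mem w2.2) w1.2) h3
      exact Subtype.ext (inv_mul_eq_one.mp h4).symm
    have hsurj : Function.Surjective θ := Finite.injective_iff_surjective.mp hinj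
    intro v hv
    obtain ⟨w, hw⟩ := hsurj ⟨v, hv⟩
    exact ⟨w, w.2, congrArg Subtype.val hw⟩
  have hgW : ∀ g : G, g * a0 * g⁻¹ * a0⁻¹ ∈ W := by
    intro g
    obtain ⟨y, hy, x, hx, rfl⟩ := hYX g
    have hxa : x * a0 * x⁻¹ = a0 := by rw [hX x hx a0 ha0, mul_inv_cancel_right]
    have e : y * x * a0 * (y * x)⁻¹ * a0⁻¹ = y * (x * a0 * x⁻¹) * y⁻¹ * a0⁻¹ := by group
    rw [e, hxa]
    exact hgen y hy
  have hdecG : ∀ g : G, ∃ w ∈ W, ∃ c : G, a0 * c = c * a0 ∧ g = w * c := by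
    intro g
    obtain ⟨w, hw, hwe⟩ := hθ _ (hgW g)
    have h2 : w * a0 * w⁻¹ = g * a0 * g⁻¹ := mul_right_cancel hwe
    refine ⟨w, hw, w⁻¹ * g, ?_, by rw [mul_inv_cancel_left]⟩
    calc a0 * (w⁻¹ * g) = w⁻¹ * (w * a0 * w⁻¹) * g := by group
      _ = w⁻¹ * (g * a0 * g⁻¹) * g := by rw [h2]
      _ = w⁻¹ * g * a0 := by group
  have hCdec : ∀ c : G, a0 * c = c * a0 →
      ∃ y1 ∈ Y, ∃ x1 ∈ X, c = y1 * x1 ∧ a0 * y1 = y1 * a0 := by
    intro c hc
    obtain ⟨y1, hy1, x1, hx1, rfl⟩ := hYX c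
    refine ⟨y1, hy1, x1, hx1, rfl, ?_⟩
    have h1 : a0 * y1 * x1 = y1 * a0 * x1 := by
      calc a0 * y1 * x1 = a0 * (y1 * x1) := mul_assoc _ _ _
        _ = y1 * x1 * a0 := hc
        _ = y1 * (x1 * a0) := mul_assoc _ _ _
        _ = y1 * (a0 * x1) := by rw [hX x1 hx1 a0 ha0]
        _ = y1 * a0 * x1 := (mul_assoc _ _ _).symm
    exact mul_right_cancel h1
  have hTcen : ∀ t ∈ X, ∀ w ∈ W, ∀ y ∈ Y, t = w * y →
      ∀ c : G, a0 * c = c * a0 → t * c = c * t := by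
    intro t ht w hw y hy htw c hc
    obtain ⟨y1, hy1, x1, hx1, rfl, hcy⟩ := hCdec c hc
    have c1 : t * y1 = y1 * t := by
      rw [htw]
      have e1 := hYW y1 hy1 hcy w hw
      have e2 := hY y hy y1 hy1
      calc w * y * y1 = w * (y * y1) := mul_assoc _ _ _
        _ = w * (y1 * y) := by rw [e2]
        _ = w * y1 * y := (mul_assoc _ _ _).symm
        _ = y1 * w * y := by rw [e1]
        _ = y1 * (w * y) := mul_assoc _ _ _
    have c2 : t * x1 = x1 * t := hX t ht x1 hx1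
    calc t * (y1 * x1) = t * y1 * x1 := (mul_assoc _ _ _).symm
      _ = y1 * t * x1 := by rw [c1]
      _ = y1 * (t * x1) := mul_assoc _ _ _
      _ = y1 * (x1 * t) := by rw [c2]
      _ = y1 * x1 * t := (mul_assoc _ _ _).symm
  haveI := hWn
  have hsupX : ∀ g : G, g ∈ W ⊔ X ↔ ∃ w ∈ W, ∃ x ∈ X, g = w * x := by
    intro g
    rw [← SetLike.mem_coe, Subgroup.normal_mul, Set.mem_mul]
    constructor
    · rintro ⟨w, hw, x, hx, rfl⟩; exact ⟨w, hw, x, hx, rfl⟩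
    · rintro ⟨w, hw, x, hx, rfl⟩; exact ⟨w, hw, x, hx, rfl⟩
  have hsupY : ∀ g : G, g ∈ W ⊔ Y ↔ ∃ w ∈ W, ∃ y ∈ Y, g = w * y := by
    intro g
    rw [← SetLike.mem_coe, Subgroup.normal_mul, Set.mem_mul]
    constructor
    · rintro ⟨w, hw, x, hx, rfl⟩; exact ⟨w, hw, x, hx, rfl⟩
    · rintro ⟨w, hw, x, hx, rfl⟩; exact ⟨w, hw, x, hx, rfl⟩
  obtain ⟨H, hHdef⟩ : ∃ H : Subgroup G, H = (W ⊔ X) ⊓ (W ⊔ Y) := ⟨_, rfl⟩
  obtain ⟨T, hTdef⟩ : ∃ T : Subgroup G, T = X ⊓ (W ⊔ Y) := ⟨_, rfl⟩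
  obtain ⟨T', hT'def⟩ : ∃ T' : Subgroup G, T' = Y ⊓ (W ⊔ X) := ⟨_, rfl⟩
  have hHmem : ∀ g : G, g ∈ H ↔ g ∈ W ⊔ X ∧ g ∈ W ⊔ Y := by
    intro g; rw [hHdef, Subgroup.mem_inf]
  have hTmem : ∀ g : G, g ∈ T ↔ g ∈ X ∧ g ∈ W ⊔ Y := by
    intro g; rw [hTdef, Subgroup.mem_inf]
  have hT'mem : ∀ g : G, g ∈ T' ↔ g ∈ Y ∧ g ∈ W ⊔ X := by
    intro g; rw [hT'def, Subgroup.mem_inf]
  have hWH : ∀ w ∈ W, w ∈ H := fun w hw =>
    (hHmem w).mpr ⟨Subgroup.mem_sup_left hw, Subgroup.mem_sup_left hw⟩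
  have hTH : ∀ t ∈ T, t ∈ H := fun t ht =>
    (hHmem t).mpr ⟨Subgroup.mem_sup_right ((hTmem t).mp ht).1, ((hTmem t).mp ht).2⟩
  have hT'H : ∀ t ∈ T', t ∈ H := fun t ht =>
    (hHmem t).mpr ⟨((hT'mem t).mp ht).2, Subgroup.mem_sup_right ((hT'mem t).mp ht).1⟩
  have hHdec : ∀ h ∈ H, ∃ t ∈ T, ∃ t' ∈ T', h = t * t' := by
    intro h hh
    obtain ⟨hh1, hh2⟩ := (hHmem h).mp hh
    obtain ⟨x, hx, y, hy, rfl⟩ := hXY h
    have hyWX : y ∈ W ⊔ X := by
      have h1 : x⁻¹ * (x * y) ∈ W ⊔ X :=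
        Subgroup.mul_mem _ (Subgroup.inv_mem _ (Subgroup.mem_sup_right hx)) hh1
      rwa [inv_mul_cancel_left] at h1
    have hxWY : x ∈ W ⊔ Y := by
      have h1 : (x * y) * y⁻¹ ∈ W ⊔ Y :=
        Subgroup.mul_mem _ hh2 (Subgroup.inv_mem _ (Subgroup.mem_sup_right hy))
      rwa [mul_inv_cancel_right] at h1
    exact ⟨x, (hTmem x).mpr ⟨hx, hxWY⟩, y, (hT'mem y).mpr ⟨hy, hyWX⟩, rfl⟩
  have hHne : H ≠ ⊤ := by
    intro hH
    have ha0H : a0 ∈ H := by rw [hH]; exact Subgroup.mem_top _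
    obtain ⟨w, hw, y, hy, e⟩ := (hsupY a0).mp ((hHmem a0).mp ha0H).2
    have hyw : y * a0⁻¹ = w⁻¹ := by
      have e' : a0⁻¹ = y⁻¹ * w⁻¹ := by rw [e, mul_inv_rev]
      rw [e', mul_inv_cancel_left]
    have h1 : normProdLead a0 (y * a0⁻¹) (p ^ k) ∈ W :=
      normProdLead_mem W a0 _ (fun u hu => hWn.conj_mem u hu a0)
        (by rw [hyw]; exact W.inv_mem hw) _
    rw [normProdLead_gen, inv_pow, ha0k, inv_one, mul_one] at h1
    have hy1 : y ^ (p ^ k) = 1 := hYD _ (Y.pow_mem hy _) (hWD h1)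
    have hc : a0 * y = y * a0 := hYp y hy ⟨k, hy1⟩
    have hw' : w = a0 * y⁻¹ := by
      have e' : a0 * y⁻¹ = w * y * y⁻¹ := by rw [← e]
      rw [e', mul_inv_cancel_right]
    have c : Commute a0 w := by
      rw [hw']; exact (Commute.refl a0).mul_right ((show Commute a0 y from hc).inv_right)
    have hw1 : w = 1 := hfix w hw c.eq
    have hay : a0 = y := by rw [e, hw1, one_mul]
    have : a0 ∈ Y := by rw [hay]; exact hy
    exact ha0ne (hint a0 ha0 this)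
  have hexW : ∃ y ∈ Y, y * a0 * y⁻¹ * a0⁻¹ ≠ 1 := by
    by_contra hall
    push Not at hall
    apply ha0ne
    apply hcen
    intro g
    obtain ⟨x, hx, y, hy, rfl⟩ := hXY g
    have h1 : y * a0 = a0 * y := by
      have := hall y hy
      rw [mul_inv_eq_one, mul_inv_eq_iff_eq_mul] at this
      exact this
    calc a0 * (x * y) = a0 * x * y := (mul_assoc _ _ _).symm
      _ = x * a0 * y := by rw [hX a0 ha0 x hx]
      _ = x * (a0 * y) := mul_assoc _ _ _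
      _ = x * (y * a0) := by rw [h1]
      _ = x * y * a0 := (mul_assoc _ _ _).symm
  obtain ⟨y0, hy0, he0⟩ := hexW
  have he0W : y0 * a0 * y0⁻¹ * a0⁻¹ ∈ W := hgen y0 hy0
  have hntH : Nontrivial H :=
    ⟨⟨⟨_, hWH _ he0W⟩, 1, fun h => he0 (congrArg Subtype.val h)⟩⟩
  have hlt : Nat.card H < Nat.card G := card_lt_card_of_ne_top H hHne
  have hIH := IH H hlt hntH (T.subgroupOf H) (T'.subgroupOf H)
    (by
      intro u hu v hv
      rw [Subgroup.mem_subgroupOf] at hu hv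
      exact Subtype.ext (hX _ ((hTmem _).mp hu).1 _ ((hTmem _).mp hv).1))
    (by
      intro u hu v hv
      rw [Subgroup.mem_subgroupOf] at hu hv
      exact Subtype.ext (hY _ ((hT'mem _).mp hu).1 _ ((hT'mem _).mp hv).1))
    (by
      intro h
      obtain ⟨t, ht, t', ht', e⟩ := hHdec h.1 h.2
      exact ⟨⟨t, hTH t ht⟩, Subgroup.mem_subgroupOf.mpr ht, ⟨t', hT'H t' ht'⟩,
        Subgroup.mem_subgroupOf.mpr ht', Subtype.ext e⟩)
  obtain ⟨N, hNn, hNne, hNle⟩ := hIH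
  have hexν : ∃ ν ∈ N, ν ≠ 1 := by
    by_contra hall
    push Not at hall
    exact hNne ((Subgroup.eq_bot_iff_forall N).mpr hall)
  obtain ⟨ν, hνN, hνne⟩ := hexν
  have hνG : (ν : G) ≠ 1 := fun h => hνne (Subtype.ext h)
  have hconj : ∀ w (hw : w ∈ W),
      (⟨w, hWH w hw⟩ : H) * ν * (⟨w, hWH w hw⟩ : H)⁻¹ ∈ N :=
    fun w hw => hNn.conj_mem ν hνN _
  have hW4 : ∀ w ∈ W, w * (ν : G) * w⁻¹ * (ν : G)⁻¹ ∈ W := by
    intro w hw
    have h5 : (ν : G) * w⁻¹ * (ν : G)⁻¹ ∈ W := hWn.conj_mem _ (W.inv_mem hw) _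
    have e : w * (ν : G) * w⁻¹ * (ν : G)⁻¹ = w * ((ν : G) * w⁻¹ * (ν : G)⁻¹) := by
      simp only [mul_assoc]
    rw [e]; exact W.mul_mem hw h5
  rcases hNle with hNT | hNT'
  · have hνT : (ν : G) ∈ T := Subgroup.mem_subgroupOf.mp (hNT hνN)
    obtain ⟨hνX, hνWY⟩ := (hTmem _).mp hνT
    have hνW : ∀ w ∈ W, (ν : G) * w = w * ν := by
      intro w hw
      have h1 : w * (ν : G) * w⁻¹ ∈ T := Subgroup.mem_subgroupOf.mp (hNT (hconj w hw))
      have h2 : w * (ν : G) * w⁻¹ ∈ X := ((hTmem _).mp h1).1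
      have h3 : w * (ν : G) * w⁻¹ * (ν : G)⁻¹ ∈ X := X.mul_mem h2 (X.inv_mem hνX)
      have h6 := hXD _ h3 (hWD (hW4 w hw))
      rw [mul_inv_eq_one, mul_inv_eq_iff_eq_mul] at h6
      exact h6.symm
    obtain ⟨w', hw', y', hy', eν⟩ := (hsupY _).mp hνWY
    apply hνG
    apply hcen
    intro g
    obtain ⟨w, hw, c, hc, rfl⟩ := hdecG g
    have c1 := hνW w hw
    have c2 := hTcen _ hνX w' hw' y' hy' eν c hc
    calc (ν : G) * (w * c) = (ν : G) * w * c := (mul_assoc _ _ _).symm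
      _ = w * (ν : G) * c := by rw [c1]
      _ = w * ((ν : G) * c) := mul_assoc _ _ _
      _ = w * (c * (ν : G)) := by rw [c2]
      _ = w * c * (ν : G) := (mul_assoc _ _ _).symm
  · have hνT' : (ν : G) ∈ T' := Subgroup.mem_subgroupOf.mp (hNT' hνN)
    obtain ⟨hνY, hνWX⟩ := (hT'mem _).mp hνT'
    have hνW : ∀ w ∈ W, (ν : G) * w = w * ν := by
      intro w hw
      have h1 : w * (ν : G) * w⁻¹ ∈ T' := Subgroup.mem_subgroupOf.mp (hNT' (hconj w hw))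
      have h2 : w * (ν : G) * w⁻¹ ∈ Y := ((hT'mem _).mp h1).1
      have h3 : w * (ν : G) * w⁻¹ * (ν : G)⁻¹ ∈ Y := Y.mul_mem h2 (Y.inv_mem hνY)
      have h6 := hYD _ h3 (hWD (hW4 w hw))
      rw [mul_inv_eq_one, mul_inv_eq_iff_eq_mul] at h6
      exact h6.symm
    obtain ⟨w1, hw1, x1, hx1, eν⟩ := (hsupX _).mp hνWX
    have ex1 : x1 = w1⁻¹ * (ν : G) := by rw [eν, inv_mul_cancel_left]
    have hx1c : ∀ g : G, x1 * g = g * x1 := by
      intro g
      obtain ⟨w, hw, c, hc, rfl⟩ := hdecG g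
      have c1 : x1 * w = w * x1 := by
        rw [ex1]
        have e1 := hWc w1⁻¹ (W.inv_mem hw1) w hw
        have e2 := hνW w hw
        calc w1⁻¹ * (ν : G) * w = w1⁻¹ * ((ν : G) * w) := mul_assoc _ _ _
          _ = w1⁻¹ * (w * (ν : G)) := by rw [e2]
          _ = w1⁻¹ * w * (ν : G) := (mul_assoc _ _ _).symm
          _ = w * w1⁻¹ * (ν : G) := by rw [e1]
          _ = w * (w1⁻¹ * (ν : G)) := mul_assoc _ _ _
      have c2 := hTcen x1 hx1 w1⁻¹ (W.inv_mem hw1) (ν : G) hνY ex1 c hc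
      calc x1 * (w * c) = x1 * w * c := (mul_assoc _ _ _).symm
        _ = w * x1 * c := by rw [c1]
        _ = w * (x1 * c) := mul_assoc _ _ _
        _ = w * (c * x1) := by rw [c2]
        _ = w * c * x1 := (mul_assoc _ _ _).symm
    have hx11 : x1 = 1 := hcen x1 hx1c
    apply hνG
    apply hYD _ hνY
    rw [eν, hx11, mul_one]
    exact hWD hw1

/-- Itô: a nontrivial finite product of two abelian subgroups has a nontrivial normal subgroup
contained in one of the factors. -/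
theorem ito_normal_aux : ∀ (n : ℕ) (G : Type u) [Group G] [Finite G], Nat.card G = n →
    Nontrivial G → ∀ (A B : Subgroup G), (∀ x ∈ A, ∀ y ∈ A, x * y = y * x) →
    (∀ x ∈ B, ∀ y ∈ B, x * y = y * x) → (∀ g : G, ∃ a ∈ A, ∃ b ∈ B, g = a * b) →
    ∃ N : Subgroup G, N.Normal ∧ N ≠ ⊥ ∧ (N ≤ A ∨ N ≤ B) := by
  intro n
  induction n using Nat.strong_induction_on with
  | _ n IH =>
  intro G _ _ hcard hnt A B hA hB hAB
  by_contra H0
  have H0A : ∀ N : Subgroup G, N.Normal → N ≤ A → N = ⊥ := by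
    intro N hN hle
    by_contra hne
    exact H0 ⟨N, hN, hne, Or.inl hle⟩
  have H0B : ∀ N : Subgroup G, N.Normal → N ≤ B → N = ⊥ := by
    intro N hN hle
    by_contra hne
    exact H0 ⟨N, hN, hne, Or.inr hle⟩
  have hBA : ∀ g : G, ∃ b ∈ B, ∃ a ∈ A, g = b * a := by
    intro g
    obtain ⟨a, ha, b, hb, e⟩ := hAB g⁻¹
    refine ⟨b⁻¹, B.inv_mem hb, a⁻¹, A.inv_mem ha, ?_⟩
    rw [← mul_inv_rev, ← e, inv_inv]
  obtain ⟨hcen, hCA⟩ := ito_prelim A B hA hB hAB H0A H0B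
  obtain ⟨-, hCB⟩ := ito_prelim B A hB hA hBA H0B H0A
  have hint : ∀ g : G, g ∈ A → g ∈ B → g = 1 := by
    intro g hgA hgB
    apply hcen
    intro h
    obtain ⟨a', ha', b', hb', rfl⟩ := hAB h
    calc g * (a' * b') = g * a' * b' := (mul_assoc _ _ _).symm
      _ = a' * g * b' := by rw [hA g hgA a' ha']
      _ = a' * (g * b') := mul_assoc _ _ _
      _ = a' * (b' * g) := by rw [hB g hgB b' hb']
      _ = a' * b' * g := (mul_assoc _ _ _).symm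
  obtain ⟨hDc, hDn⟩ := ito_comm_pair A B hA hB hAB
  have hcomm1 : ∀ a ∈ A, ∀ b ∈ B, b * a * b⁻¹ * a⁻¹ ∈ (⁅A, B⁆ : Subgroup G) := by
    intro a ha b hb
    have h1 : ⁅a, b⁆ ∈ (⁅A, B⁆ : Subgroup G) := Subgroup.commutator_mem_commutator ha hb
    have h2 := Subgroup.inv_mem _ h1
    rw [commutatorElement_inv, commutatorElement_def] at h2
    exact h2
  have hcomm2 : ∀ b ∈ B, ∀ a ∈ A, a * b * a⁻¹ * b⁻¹ ∈ (⁅A, B⁆ : Subgroup G) := by
    intro b hb a ha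
    have h1 : ⁅a, b⁆ ∈ (⁅A, B⁆ : Subgroup G) := Subgroup.commutator_mem_commutator ha hb
    rw [commutatorElement_def] at h1
    exact h1
  have hAD := ito_meet_comm_aux A B hA hAB H0A hCA _ hDc hDn hcomm1
  have hBD := ito_meet_comm_aux B A hB hBA H0B hCB _ hDc hDn hcomm2
  have hc1 : Nat.card G ≠ 1 := (Finite.one_lt_card (α := G)).ne'
  obtain ⟨p, hp, hpd⟩ := Nat.exists_prime_and_dvd hc1
  obtain ⟨z, hzne, hzAB, ⟨k, hzk⟩, hzN, hzA, hzB⟩ :=
    ito_central_pelt A B hA hB hAB hint p hp hpd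
  have IH' : ∀ (H : Type u) [Group H] [Finite H], Nat.card H < Nat.card G → Nontrivial H →
      ∀ (A B : Subgroup H), (∀ x ∈ A, ∀ y ∈ A, x * y = y * x) →
      (∀ x ∈ B, ∀ y ∈ B, x * y = y * x) → (∀ g : H, ∃ a ∈ A, ∃ b ∈ B, g = a * b) →
      ∃ N : Subgroup H, N.Normal ∧ N ≠ ⊥ ∧ (N ≤ A ∨ N ≤ B) := by
    intro H _ _ hlt hntH A' B' hA' hB' hAB'
    exact IH (Nat.card H) (hcard ▸ hlt) H rfl hntH A' B' hA' hB' hAB'
  rcases hzAB with hzA' | hzB'
  · exact ito_main_aux IH' A B hA hB hAB hcen hCA hint _ hDc hDn hcomm1 hAD hBD p hp z hzA'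
      hzne k hzk hzN hzB
  · exact ito_main_aux IH' B A hB hA hBA hcen hCB (fun g h1 h2 => hint g h2 h1) _ hDc hDn
      hcomm2 hBD hAD p hp z hzB' hzne k hzk hzN hzA

end Cfsg.Agent.Lib.Lead
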