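import Mathlib
import Cfsg.Agent.Lib.Lead.SylowAux

set_option autoImplicit false

namespace Cfsg.Agent.Lib.Lead

open scoped Pointwise

/-- `XZ ⊆ ZX` (which for subgroups is equivalent to `XZ = ZX`). -/
def permLead {G : Type*} [Group G] (X Z : Subgroup G) : Prop :=
  ∀ x ∈ X, ∀ z ∈ Z, ∃ z' ∈ Z, ∃ x' ∈ X, x * z = z' * x'

theorem permLead_symm {G : Type*} [Group G] {X Z : Subgroup G} (h : permLead X Z) :
    permLead Z X := by
  intro z hz x hx
  obtain ⟨z', hz', x', hx', e⟩ := h x⁻¹ (X.inv_mem hx) z⁻¹ (Z.inv_mem hz)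
  refine ⟨x'⁻¹, X.inv_mem hx', z'⁻¹, Z.inv_mem hz', ?_⟩
  rw [← mul_inv_rev, ← e, mul_inv_rev, inv_inv, inv_inv]

theorem permLead_of_coe_eq {G : Type*} [Group G] {X Z S : Subgroup G}
    (hS : (S : Set G) = (X : Set G) * (Z : Set G)) : permLead X Z := by
  intro x hx z hz
  have h1 : x * z ∈ S := by
    rw [← SetLike.mem_coe, hS]; exact Set.mul_mem_mul hx hz
  have h2 : (x * z)⁻¹ ∈ (S : Set G) := S.inv_mem h1
  rw [hS, Set.mem_mul] at h2
  obtain ⟨x'', hx'', z'', hz'', e⟩ := h2
  refine ⟨z''⁻¹, Z.inv_mem hz'', x''⁻¹, X.inv_mem hx'', ?_⟩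
  rw [← mul_inv_rev, e, inv_inv]

theorem permLead_exists_subgroup {G : Type*} [Group G] {X Z : Subgroup G} (h : permLead X Z) :
    ∃ S : Subgroup G, (S : Set G) = (X : Set G) * (Z : Set G) := by
  have h' := permLead_symm h
  refine ⟨{ carrier := (X : Set G) * (Z : Set G)
            one_mem' := ⟨1, X.one_mem, 1, Z.one_mem, mul_one 1⟩
            mul_mem' := ?_
            inv_mem' := ?_ }, rfl⟩
  · rintro _ _ ⟨x, hx, z, hz, rfl⟩ ⟨x', hx', z', hz', rfl⟩
    obtain ⟨x'', hx'', z'', hz'', e⟩ := h' z hz x' hx'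
    refine ⟨x * x'', X.mul_mem hx hx'', z'' * z', Z.mul_mem hz'' hz', ?_⟩
    calc x * x'' * (z'' * z') = x * (x'' * z'') * z' := by simp only [mul_assoc]
      _ = x * (z * x') * z' := by rw [e]
      _ = x * z * (x' * z') := by simp only [mul_assoc]
  · rintro _ ⟨x, hx, z, hz, rfl⟩
    obtain ⟨x'', hx'', z'', hz'', e⟩ := h' z⁻¹ (Z.inv_mem hz) x⁻¹ (X.inv_mem hx)
    exact ⟨x'', hx'', z'', hz'', by show x'' * z'' = (x * z)⁻¹; rw [← e, mul_inv_rev]⟩

theorem permLead_sup {G : Type*} [Group G] {X Y Z : Subgroup G} (hX : permLead X Z)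
    (hY : permLead Y Z) : permLead (X ⊔ Y) Z := by
  have hX' := permLead_symm hX
  have hY' := permLead_symm hY
  have key : ∀ u ∈ Subgroup.closure ((X : Set G) ∪ (Y : Set G)),
      (∀ z ∈ Z, ∃ z' ∈ Z, ∃ u' ∈ X ⊔ Y, u * z = z' * u') ∧
      (∀ z ∈ Z, ∃ u' ∈ X ⊔ Y, ∃ z' ∈ Z, z * u = u' * z') := by
    intro u hu
    induction hu using Subgroup.closure_induction with
    | mem s hs =>
      rcases hs with hs | hs
      · constructor
        · intro z hz
          obtain ⟨z', hz', x', hx', e⟩ := hX s hs z hz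
          exact ⟨z', hz', x', Subgroup.mem_sup_left hx', e⟩
        · intro z hz
          obtain ⟨x', hx', z', hz', e⟩ := hX' z hz s hs
          exact ⟨x', Subgroup.mem_sup_left hx', z', hz', e⟩
      · constructor
        · intro z hz
          obtain ⟨z', hz', x', hx', e⟩ := hY s hs z hz
          exact ⟨z', hz', x', Subgroup.mem_sup_right hx', e⟩
        · intro z hz
          obtain ⟨x', hx', z', hz', e⟩ := hY' z hz s hs
          exact ⟨x', Subgroup.mem_sup_right hx', z', hz', e⟩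
    | one =>
      constructor
      · intro z hz; exact ⟨z, hz, 1, Subgroup.one_mem _, by rw [one_mul, mul_one]⟩
      · intro z hz; exact ⟨1, Subgroup.one_mem _, z, hz, by rw [one_mul, mul_one]⟩
    | mul u v hu hv ihu ihv =>
      constructor
      · intro z hz
        obtain ⟨z1, hz1, v', hv', e1⟩ := ihv.1 z hz
        obtain ⟨z2, hz2, u', hu', e2⟩ := ihu.1 z1 hz1
        refine ⟨z2, hz2, u' * v', Subgroup.mul_mem _ hu' hv', ?_⟩
        calc u * v * z = u * (v * z) := mul_assoc _ _ _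
          _ = u * (z1 * v') := by rw [e1]
          _ = u * z1 * v' := (mul_assoc _ _ _).symm
          _ = z2 * u' * v' := by rw [e2]
          _ = z2 * (u' * v') := mul_assoc _ _ _
      · intro z hz
        obtain ⟨u', hu', z1, hz1, e1⟩ := ihu.2 z hz
        obtain ⟨v', hv', z2, hz2, e2⟩ := ihv.2 z1 hz1
        refine ⟨u' * v', Subgroup.mul_mem _ hu' hv', z2, hz2, ?_⟩
        calc z * (u * v) = z * u * v := (mul_assoc _ _ _).symm
          _ = u' * z1 * v := by rw [e1]
          _ = u' * (z1 * v) := mul_assoc _ _ _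
          _ = u' * (v' * z2) := by rw [e2]
          _ = u' * v' * z2 := (mul_assoc _ _ _).symm
    | inv u hu ihu =>
      constructor
      · intro z hz
        obtain ⟨u', hu', z', hz', e⟩ := ihu.2 z⁻¹ (Z.inv_mem hz)
        refine ⟨z'⁻¹, Z.inv_mem hz', u'⁻¹, Subgroup.inv_mem _ hu', ?_⟩
        rw [← mul_inv_rev, ← e, mul_inv_rev, inv_inv]
      · intro z hz
        obtain ⟨z', hz', u', hu', e⟩ := ihu.1 z⁻¹ (Z.inv_mem hz)
        refine ⟨u'⁻¹, Subgroup.inv_mem _ hu', z'⁻¹, Z.inv_mem hz', ?_⟩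
        rw [← mul_inv_rev, ← e, mul_inv_rev, inv_inv]
  intro u hu z hz
  have hu' : u ∈ Subgroup.closure ((X : Set G) ∪ (Y : Set G)) := by
    rw [Subgroup.closure_union, Subgroup.closure_eq, Subgroup.closure_eq]; exact hu
  exact (key u hu').1 z hz

theorem permLead_conj {G : Type*} [Group G] {X Z : Subgroup G} (h : permLead X Z) (g : G) :
    permLead (MulAut.conj g • X) (MulAut.conj g • Z) := by
  intro x hx z hz
  rw [mem_conj_smul] at hx hz
  obtain ⟨z', hz', x', hx', e⟩ := h _ hx _ hz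
  refine ⟨g * z' * g⁻¹, conj_mem_conj_smul hz', g * x' * g⁻¹, conj_mem_conj_smul hx', ?_⟩
  calc x * z = g * (g⁻¹ * x * g * (g⁻¹ * z * g)) * g⁻¹ := by group
    _ = g * (z' * x') * g⁻¹ := by rw [e]
    _ = g * z' * g⁻¹ * (g * x' * g⁻¹) := by group

/-- Kegel's lemma, contrapositive form with `B` fixed. -/
theorem kegel_aux {G : Type*} [Group G] [Finite G] (B : Subgroup G)
    (HB : ∀ N : Subgroup G, N.Normal → B ≤ N → N = ⊤) :
    ∀ (n : ℕ) (A : Subgroup G), Nat.card G - Nat.card A = n →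
      (∀ N : Subgroup G, N.Normal → A ≤ N → N = ⊤) →
      (∀ x : G, ∃ S : Subgroup G, S ≠ ⊤ ∧
        (S : Set G) = (A : Set G) * ((MulAut.conj x • B : Subgroup G) : Set G)) → False := by
  intro n
  induction n using Nat.strong_induction_on with
  | _ n IH =>
  intro A hn HA h
  have hperm : ∀ x : G, permLead A (MulAut.conj x • B) := fun x => by
    obtain ⟨S, -, hS⟩ := h x
    exact permLead_of_coe_eq hS
  have hex : ∃ g : G, ∃ b ∈ (MulAut.conj g • B : Subgroup G),
      ¬ (∀ a ∈ A, b * a * b⁻¹ ∈ A) := by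
    by_contra hall
    push Not at hall
    have hnorm : ∀ m ∈ Group.conjugatesOfSet (B : Set G), m ∈ Subgroup.normalizer (A : Set G) := by
      intro m hm
      rw [Group.mem_conjugatesOfSet_iff] at hm
      obtain ⟨b', hb', hconj⟩ := hm
      rw [isConj_iff] at hconj
      obtain ⟨c, rfl⟩ := hconj
      have hm1 : c * b' * c⁻¹ ∈ (MulAut.conj c • B : Subgroup G) := conj_mem_conj_smul hb'
      rw [Subgroup.mem_normalizer_iff]
      intro a
      constructor
      · intro ha; exact hall c _ hm1 a ha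
      · intro ha
        have h2 := hall c _ (Subgroup.inv_mem _ hm1) _ ha
        have e : (c * b' * c⁻¹)⁻¹ * (c * b' * c⁻¹ * a * (c * b' * c⁻¹)⁻¹) *
            (c * b' * c⁻¹)⁻¹⁻¹ = a := by group
        rw [e] at h2; exact h2
    have hle : Subgroup.normalClosure (B : Set G) ≤ Subgroup.normalizer (A : Set G) := by
      rw [Subgroup.normalClosure, Subgroup.closure_le]
      exact hnorm
    have htop : Subgroup.normalClosure (B : Set G) = ⊤ :=
      HB _ Subgroup.normalClosure_normal Subgroup.le_normalClosure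
    have hAn : A.Normal := by
      rw [← Subgroup.normalizer_eq_top_iff, eq_top_iff, ← htop]; exact hle
    have hAtop : A = ⊤ := HA A hAn le_rfl
    obtain ⟨S, hSne, hS⟩ := h 1
    apply hSne
    rw [eq_top_iff]
    intro g _
    rw [← SetLike.mem_coe, hS]
    exact ⟨g, by rw [hAtop]; exact Subgroup.mem_top g, 1, Subgroup.one_mem _, mul_one g⟩
  obtain ⟨g, b, hb, hnot⟩ := hex
  push Not at hnot
  obtain ⟨a0, ha0, ha0n⟩ := hnot
  have hperm1 : ∀ x : G, permLead (A ⊔ MulAut.conj b • A) (MulAut.conj x • B) := by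
    intro x
    apply permLead_sup (hperm x)
    have h1 := permLead_conj (hperm (b⁻¹ * x)) b
    rw [smul_smul, ← map_mul, mul_inv_cancel_left] at h1
    exact h1
  have hlt : Nat.card A < Nat.card (A ⊔ MulAut.conj b • A : Subgroup G) := by
    by_contra hge
    push Not at hge
    have heq : A = A ⊔ MulAut.conj b • A := Subgroup.eq_of_le_of_card_ge le_sup_left hge
    apply ha0n
    rw [heq]
    exact Subgroup.mem_sup_right (conj_mem_conj_smul ha0)
  have HA1 : ∀ N : Subgroup G, N.Normal → A ⊔ MulAut.conj b • A ≤ N → N = ⊤ :=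
    fun N hN hle => HA N hN (le_sup_left.trans hle)
  by_cases hcase : ∀ x : G, ∃ S : Subgroup G, S ≠ ⊤ ∧
      (S : Set G) = ((A ⊔ MulAut.conj b • A : Subgroup G) : Set G) *
        ((MulAut.conj x • B : Subgroup G) : Set G)
  · have hle := Subgroup.card_le_card_group (A ⊔ MulAut.conj b • A : Subgroup G)
    exact IH (Nat.card G - Nat.card (A ⊔ MulAut.conj b • A : Subgroup G)) (by omega) _ rfl
      HA1 hcase
  · push Not at hcase
    obtain ⟨x, hx⟩ := hcase
    obtain ⟨S1, hS1⟩ := permLead_exists_subgroup (hperm1 x)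
    have hS1top : S1 = ⊤ := by
      by_contra hne
      exact hx S1 hne hS1
    have hfull : ∀ t : G, ∃ u ∈ (A ⊔ MulAut.conj b • A : Subgroup G),
        ∃ z ∈ (MulAut.conj x • B : Subgroup G), u * z = t := by
      intro t
      have ht : t ∈ (S1 : Set G) := by rw [hS1top]; exact Subgroup.mem_top t
      rw [hS1] at ht
      exact ht
    obtain ⟨S, hSne, hS⟩ := h g
    have hAS : A ≤ S := by
      intro a ha
      rw [← SetLike.mem_coe, hS]
      exact ⟨a, ha, 1, Subgroup.one_mem _, mul_one a⟩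
    have hBS : (MulAut.conj g • B : Subgroup G) ≤ S := by
      intro z hz
      rw [← SetLike.mem_coe, hS]
      exact ⟨1, A.one_mem, z, hz, one_mul z⟩
    have hbS : b ∈ S := hBS hb
    have hA1S : A ⊔ MulAut.conj b • A ≤ S := by
      apply sup_le hAS
      intro u hu
      rw [mem_conj_smul] at hu
      have h1 : b * (b⁻¹ * u * b) * b⁻¹ ∈ S := S.mul_mem (S.mul_mem hbS (hAS hu)) (S.inv_mem hbS)
      have e : b * (b⁻¹ * u * b) * b⁻¹ = u := by group
      rw [e] at h1; exact h1
    obtain ⟨a, ha, c, hc, hac⟩ := hfull (g * x⁻¹)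
    have hconjB : ∀ z ∈ (MulAut.conj x • B : Subgroup G),
        a * z * a⁻¹ ∈ (MulAut.conj g • B : Subgroup G) := by
      intro z hz
      have h1 : c⁻¹ * z * c ∈ (MulAut.conj x • B : Subgroup G) :=
        Subgroup.mul_mem _ (Subgroup.mul_mem _ (Subgroup.inv_mem _ hc) hz) hc
      rw [mem_conj_smul] at h1 ⊢
      have hg : g = a * c * x := by rw [hac, inv_mul_cancel_right]
      have e : g⁻¹ * (a * z * a⁻¹) * g = x⁻¹ * (c⁻¹ * z * c) * x := by
        rw [hg]; group
      rw [e]; exact h1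
    apply hSne
    rw [eq_top_iff]
    intro t _
    obtain ⟨u, hu, z, hz, e⟩ := hfull (a⁻¹ * t * a)
    have ht : t = (a * u * a⁻¹) * (a * z * a⁻¹) := by
      have : a * (u * z) * a⁻¹ = t := by rw [e]; group
      rw [← this]; group
    rw [ht]
    exact S.mul_mem (hA1S (Subgroup.mul_mem _ (Subgroup.mul_mem _ ha hu) (Subgroup.inv_mem _ ha)))
      (hBS (hconjB z hz))

end Cfsg.Agent.Lib.Lead
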