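import Mathlib
import Cfsg.Agent.Lib.Lead.SylowAux2

set_option autoImplicit false

namespace Cfsg.Agent.Lib.Lead

open scoped Pointwise commutatorElement

/-- Elements of a Klein four subgroup. -/
theorem klein_setup {G : Type*} [Group G] (V : Subgroup G) (hV : IsKleinFour V) :
    ∃ a b : G, a ∈ V ∧ b ∈ V ∧ orderOf a = 2 ∧ orderOf b = 2 ∧ a ≠ b ∧
      (∀ x ∈ V, x = 1 ∨ x = a ∨ x = b ∨ x = a * b) ∧ (∀ x ∈ V, x * x = 1) ∧
      (∀ x ∈ V, ∀ y ∈ V, x * y = y * x) := by
  haveI := hV
  haveI : Finite V := IsKleinFour.instFinite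
  have hcard : Nat.card V = 4 := IsKleinFour.card_four
  haveI : Nontrivial V := by
    rw [← Finite.one_lt_card_iff_nontrivial, hcard]
    norm_num
  obtain ⟨a, ha⟩ := exists_ne (1 : V)
  obtain ⟨b, hb⟩ : ∃ b : V, b ∉ Subgroup.zpowers a := by
    by_contra h
    push Not at h
    exact IsKleinFour.not_isCyclic (isCyclic_iff_exists_zpowers_eq_top.mpr
      ⟨a, (Subgroup.eq_top_iff' _).mpr h⟩)
  have hb1 : b ≠ 1 := by
    rintro rfl
    exact hb (Subgroup.one_mem _)
  have hba : b ≠ a := by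
    rintro rfl
    exact hb (Subgroup.mem_zpowers _)
  have hsq : ∀ x ∈ V, x * x = 1 := by
    intro x hx
    exact congrArg Subtype.val (IsKleinFour.mul_self (⟨x, hx⟩ : V))
  have hcomm : ∀ x ∈ V, ∀ y ∈ V, x * y = y * x := by
    intro x hx y hy
    haveI : IsMulCommutative V := IsKleinFour.isMulCommutative
    exact congrArg Subtype.val (mul_comm' (⟨x, hx⟩ : V) ⟨y, hy⟩)
  have ha1 : (a : G) ≠ 1 := fun h => ha (Subtype.ext h)
  have hb1' : (b : G) ≠ 1 := fun h => hb1 (Subtype.ext h)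
  refine ⟨a, b, a.2, b.2, invol_iff.mpr ⟨ha1, hsq a a.2⟩, invol_iff.mpr ⟨hb1', hsq b b.2⟩,
    fun h => hba (Subtype.ext h.symm), ?_, hsq, hcomm⟩
  intro x hx
  by_cases h1 : x = 1
  · exact Or.inl h1
  · by_cases h2 : x = a
    · exact Or.inr (Or.inl h2)
    · by_cases h3 : x = b
      · exact Or.inr (Or.inr (Or.inl h3))
      · right; right; right
        have h4 := IsKleinFour.eq_mul_of_ne_all (x := a) (y := b) (z := ⟨x, hx⟩) ha hb1 hba.symm
          (fun h => h1 (congrArg Subtype.val h)) (fun h => h2 (congrArg Subtype.val h))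
          (fun h => h3 (congrArg Subtype.val h))
        exact congrArg Subtype.val h4

/-- odd powers of an element swapping `u` and `v` map `u` to `v`. -/
theorem swap_odd_pow {G : Type*} [Group G] {m u v : G} (h1 : m * u * m⁻¹ = v)
    (h2 : m * v * m⁻¹ = u) (j : ℕ) : m ^ (2 * j + 1) * u * (m ^ (2 * j + 1))⁻¹ = v := by
  induction j with
  | zero => simpa using h1
  | succ j ih =>
    have h3 : m ^ (2 * (j + 1) + 1) = m * m * m ^ (2 * j + 1) := by
      rw [show 2 * (j + 1) + 1 = 2 + (2 * j + 1) by ring, pow_add, pow_two]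
    rw [h3]
    calc m * m * m ^ (2 * j + 1) * u * (m * m * m ^ (2 * j + 1))⁻¹
        = m * (m * (m ^ (2 * j + 1) * u * (m ^ (2 * j + 1))⁻¹) * m⁻¹) * m⁻¹ := by group
      _ = v := by rw [ih, h2, h1]

/-- Fusion in a Klein four Sylow 2-subgroup: if two distinct involutions are fused, all are. -/
theorem klein_fusion {G : Type*} [Group G] [Finite G] (P : Sylow 2 G)
    (hP : IsKleinFour (P : Subgroup G)) {u v : G} (hu : u ∈ (P : Subgroup G))
    (hv : v ∈ (P : Subgroup G)) (huo : orderOf u = 2) (hvo : orderOf v = 2) (huv : u ≠ v)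
    (hconj : IsConj u v) : ∀ t ∈ (P : Subgroup G), t ≠ 1 → IsConj u t := by
  obtain ⟨a, b, haP, hbP, hao, hbo, hab, hall, hsq, hcomm⟩ := klein_setup (P : Subgroup G) hP
  haveI : IsMulCommutative (P : Subgroup G) :=
    ⟨⟨fun x y => Subtype.ext (hcomm x x.2 y y.2)⟩⟩
  obtain ⟨g, hg⟩ := isConj_iff.mp hconj
  have hy : (g⁻¹)⁻¹ * u * g⁻¹ ∈ (P : Subgroup G) := by
    rw [inv_inv, hg]
    exact hv
  obtain ⟨n, hn, hn2⟩ := P.conj_eq_normalizer_conj_of_mem u g⁻¹ hu hy
  rw [inv_inv, hg] at hn2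
  have hm : n⁻¹ ∈ Subgroup.normalizer ((P : Subgroup G) : Set G) := Subgroup.inv_mem _ hn
  have hm1 : n⁻¹ * u * n⁻¹⁻¹ = v := by rw [inv_inv]; exact hn2.symm
  generalize n⁻¹ = m at hm hm1
  -- the third involution
  have hwP : u * v ∈ (P : Subgroup G) := Subgroup.mul_mem _ hu hv
  have hw1 : u * v ≠ 1 := by
    intro h
    apply huv
    have h1 : v = u⁻¹ := eq_inv_of_mul_eq_one_right h
    rw [h1, invol_inv huo]
  have hwu : u * v ≠ u := by
    intro h
    exact invol_ne_one hvo (mul_left_cancel (a := u) (by rw [h, mul_one]))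
  have hwv : u * v ≠ v := by
    intro h
    exact invol_ne_one huo (mul_right_cancel (b := v) (by rw [h, one_mul]))
  have hall' : ∀ x ∈ (P : Subgroup G), x = 1 ∨ x = u ∨ x = v ∨ x = u * v := by
    intro x hx
    by_cases h1 : x = 1
    · exact Or.inl h1
    · by_cases h2 : x = u
      · exact Or.inr (Or.inl h2)
      · by_cases h3 : x = v
        · exact Or.inr (Or.inr (Or.inl h3))
        · right; right; right
          haveI := hP
          have h4 := IsKleinFour.eq_mul_of_ne_all (x := (⟨u, hu⟩ : (P : Subgroup G)))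
            (y := ⟨v, hv⟩) (z := ⟨x, hx⟩)
            (fun h => invol_ne_one huo (congrArg Subtype.val h))
            (fun h => invol_ne_one hvo (congrArg Subtype.val h))
            (fun h => huv (congrArg Subtype.val h))
            (fun h => h1 (congrArg Subtype.val h)) (fun h => h2 (congrArg Subtype.val h))
            (fun h => h3 (congrArg Subtype.val h))
          exact congrArg Subtype.val h4
  have hmvP : m * v * m⁻¹ ∈ (P : Subgroup G) :=
    (Subgroup.mem_normalizer_iff.mp hm v).mp hv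
  have hmv_ne_v : m * v * m⁻¹ ≠ v := by
    intro h
    have h' : m * v * m⁻¹ = m * u * m⁻¹ := h.trans hm1.symm
    have h1 : v = u := mul_left_cancel (mul_right_cancel h')
    exact huv h1.symm
  have hmv_ne_1 : m * v * m⁻¹ ≠ 1 := invol_ne_one (invol_conj hvo m)
  have hmv_ne_u : m * v * m⁻¹ ≠ u := by
    intro hm2
    -- 2-part of m
    have ho : orderOf m ≠ 0 := (orderOf_pos m).ne'
    obtain ⟨e, k, hk, hek⟩ := Nat.exists_eq_two_pow_mul_odd ho
    obtain ⟨j, rfl⟩ := hk
    have hz : m ^ (2 * j + 1) * u * (m ^ (2 * j + 1))⁻¹ = v := swap_odd_pow hm1 hm2 j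
    have hzo : orderOf (m ^ (2 * j + 1)) = 2 ^ e := by
      rw [orderOf_pow' m (by omega), hek, Nat.gcd_mul_left_left, Nat.mul_div_cancel _ (by omega)]
    have hzpg : IsPGroup 2 (Subgroup.zpowers (m ^ (2 * j + 1))) :=
      IsPGroup.of_card (n := e) (by rw [Nat.card_zpowers, hzo])
    have hzn : m ^ (2 * j + 1) ∈ Subgroup.normalizer ((P : Subgroup G) : Set G) :=
      Subgroup.pow_mem _ hm _
    have hzP := mem_sylow_of_normalizes P hzpg hzn
    have h1 := hcomm _ hzP u hu
    rw [h1, mul_assoc, mul_inv_cancel, mul_one] at hz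
    exact huv hz
  have hmv : m * v * m⁻¹ = u * v := by
    rcases hall' _ hmvP with h | h | h | h
    · exact absurd h hmv_ne_1
    · exact absurd h hmv_ne_u
    · exact absurd h hmv_ne_v
    · exact h
  have hcw : IsConj u (u * v) := hconj.trans (isConj_iff.mpr ⟨m, hmv⟩)
  intro t ht ht1
  rcases hall' t ht with h | h | h | h
  · exact absurd h ht1
  · rw [h]
  · rw [h]; exact hconj
  · rw [h]; exact hcw

/-- The set of classes of involutions. -/
def involClasses (G : Type*) [Group G] : Set (ConjClasses G) :=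
  {C | ∃ t : G, orderOf t = 2 ∧ ConjClasses.mk t = C}

theorem invol_conj_into_sylow {G : Type*} [Group G] [Finite G] (P : Sylow 2 G) {t : G}
    (ht : orderOf t = 2) : ∃ s ∈ (P : Subgroup G), s ≠ 1 ∧ IsConj t s := by
  obtain ⟨g, hg⟩ := sylow_conj_mem P (Subgroup.zpowers t) (isPGroup_zpowers_invol ht)
  exact ⟨g * t * g⁻¹, hg t (Subgroup.mem_zpowers t), invol_ne_one (invol_conj ht g),
    isConj_iff.mpr ⟨g, rfl⟩⟩

theorem klein_classes_one {G : Type*} [Group G] [Finite G] (P : Sylow 2 G)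
    (hP : IsKleinFour (P : Subgroup G)) {u v : G} (hu : u ∈ (P : Subgroup G))
    (hv : v ∈ (P : Subgroup G)) (huo : orderOf u = 2) (hvo : orderOf v = 2) (huv : u ≠ v)
    (hconj : IsConj u v) : (involClasses G).ncard = 1 := by
  rw [Set.ncard_eq_one]
  refine ⟨ConjClasses.mk u, ?_⟩
  ext C
  rw [Set.mem_singleton_iff]
  constructor
  · rintro ⟨t, ht, rfl⟩
    obtain ⟨s, hs, hs1, hts⟩ := invol_conj_into_sylow P ht
    rw [ConjClasses.mk_eq_mk_iff_isConj]
    exact hts.trans (klein_fusion P hP hu hv huo hvo huv hconj s hs hs1).symm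
  · rintro rfl
    exact ⟨u, huo, rfl⟩

theorem klein_classes_three {G : Type*} [Group G] [Finite G] (P : Sylow 2 G)
    (hP : IsKleinFour (P : Subgroup G))
    (hno : ∀ u ∈ (P : Subgroup G), ∀ v ∈ (P : Subgroup G), orderOf u = 2 → orderOf v = 2 →
      IsConj u v → u = v) : (involClasses G).ncard = 3 := by
  obtain ⟨a, b, haP, hbP, hao, hbo, hab, hall, hsq, hcomm⟩ := klein_setup (P : Subgroup G) hP
  have hcP : a * b ∈ (P : Subgroup G) := Subgroup.mul_mem _ haP hbP
  have hc1 : a * b ≠ 1 := by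
    intro h
    apply hab
    have h1 : b = a⁻¹ := eq_inv_of_mul_eq_one_right h
    rw [h1, invol_inv hao]
  have hco : orderOf (a * b) = 2 := invol_iff.mpr ⟨hc1, hsq _ hcP⟩
  have hca : a * b ≠ a := by
    intro h
    exact invol_ne_one hbo (mul_left_cancel (a := a) (by rw [h, mul_one]))
  have hcb : a * b ≠ b := by
    intro h
    exact invol_ne_one hao (mul_right_cancel (b := b) (by rw [h, one_mul]))
  rw [Set.ncard_eq_three]
  refine ⟨ConjClasses.mk a, ConjClasses.mk b, ConjClasses.mk (a * b), ?_, ?_, ?_, ?_⟩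
  · intro h
    exact hab (hno a haP b hbP hao hbo (ConjClasses.mk_eq_mk_iff_isConj.mp h))
  · intro h
    exact hca (hno a haP _ hcP hao hco (ConjClasses.mk_eq_mk_iff_isConj.mp h)).symm
  · intro h
    exact hcb (hno b hbP _ hcP hbo hco (ConjClasses.mk_eq_mk_iff_isConj.mp h)).symm
  · ext C
    simp only [Set.mem_insert_iff, Set.mem_singleton_iff]
    constructor
    · rintro ⟨t, ht, rfl⟩
      obtain ⟨s, hs, hs1, hts⟩ := invol_conj_into_sylow P ht
      rcases hall s hs with h | h | h | h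
      · exact absurd h hs1
      · left; rw [ConjClasses.mk_eq_mk_iff_isConj, ← h]; exact hts
      · right; left; rw [ConjClasses.mk_eq_mk_iff_isConj, ← h]; exact hts
      · right; right; rw [ConjClasses.mk_eq_mk_iff_isConj, ← h]; exact hts
    · rintro (rfl | rfl | rfl)
      · exact ⟨a, hao, rfl⟩
      · exact ⟨b, hbo, rfl⟩
      · exact ⟨a * b, hco, rfl⟩

theorem klein_classes_dichotomy {G : Type*} [Group G] [Finite G] (P : Sylow 2 G)
    (hP : IsKleinFour (P : Subgroup G)) :
    ((involClasses G).ncard = 1 ∧ ∃ u ∈ (P : Subgroup G), ∃ v ∈ (P : Subgroup G),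
        orderOf u = 2 ∧ orderOf v = 2 ∧ u ≠ v ∧ IsConj u v) ∨
    ((involClasses G).ncard = 3 ∧ ∀ u ∈ (P : Subgroup G), ∀ v ∈ (P : Subgroup G),
        orderOf u = 2 → orderOf v = 2 → IsConj u v → u = v) := by
  by_cases h : ∃ u ∈ (P : Subgroup G), ∃ v ∈ (P : Subgroup G),
        orderOf u = 2 ∧ orderOf v = 2 ∧ u ≠ v ∧ IsConj u v
  · left
    obtain ⟨u, hu, v, hv, huo, hvo, huv, hc⟩ := h
    exact ⟨klein_classes_one P hP hu hv huo hvo huv hc, u, hu, v, hv, huo, hvo, huv, hc⟩
  · right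
    have hno : ∀ u ∈ (P : Subgroup G), ∀ v ∈ (P : Subgroup G), orderOf u = 2 → orderOf v = 2 →
        IsConj u v → u = v := by
      intro u hu v hv huo hvo hc
      by_contra huv
      exact h ⟨u, hu, v, hv, huo, hvo, huv, hc⟩
    exact ⟨klein_classes_three P hP hno, hno⟩

theorem card_involClasses (G : Type*) [Group G] :
    Nat.card {C : ConjClasses G // ∃ t : G, orderOf t = 2 ∧ ConjClasses.mk t = C} =
      (involClasses G).ncard := by
  rw [← Nat.card_coe_set_eq]
  rfl

end Cfsg.Agent.Lib.Lead
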