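import Mathlib
import Cfsg.Agent.Lib.Lead.SylowAux

set_option autoImplicit false

namespace Cfsg.Agent.Lib.Lead

theorem card_modEq_card_centralizer_of_pelement {G : Type*} [Group G] [Finite G] (T : Subgroup G)
    (x : G) (hx : x ∈ Subgroup.normalizer (T : Set G)) (r : ℕ) [Fact r.Prime]
    (hr : IsPGroup r (Subgroup.zpowers x)) :
    Nat.card T ≡ Nat.card (T ⊓ Subgroup.centralizer {x} : Subgroup G) [MOD r] := by
  classical
  letI : MulAction (Subgroup.zpowers x) T := {
    smul := fun c t => ⟨(c:G) * t * (c:G)⁻¹,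
      (Subgroup.mem_normalizer_iff.mp ((Subgroup.zpowers_le.mpr hx) c.2) t).mp t.2⟩
    one_smul := fun t => Subtype.ext (by
      show ((1 : Subgroup.zpowers x) : G) * t * ((1 : Subgroup.zpowers x) : G)⁻¹ = t
      simp)
    mul_smul := fun a b t => Subtype.ext (by
      show ((a * b : Subgroup.zpowers x) : G) * t * ((a * b : Subgroup.zpowers x) : G)⁻¹
        = (a:G) * ((b:G) * t * (b:G)⁻¹) * (a:G)⁻¹
      simp [mul_assoc]) }
  have h1 := hr.card_modEq_card_fixedPoints T
  have h2 : Nat.card (MulAction.fixedPoints (Subgroup.zpowers x) T)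
      = Nat.card (T ⊓ Subgroup.centralizer {x} : Subgroup G) := by
    apply Nat.card_congr
    refine ⟨fun t => ⟨t.1.1, Subgroup.mem_inf.mpr ⟨t.1.2, ?_⟩⟩, fun f => ⟨⟨f.1, f.2.1⟩, ?_⟩,
      fun t => rfl, fun f => rfl⟩
    · rw [Subgroup.mem_centralizer_singleton_iff]
      have := t.2 ⟨x, Subgroup.mem_zpowers x⟩
      have h3 : x * (t.1 : G) * x⁻¹ = t.1 := congrArg Subtype.val this
      calc (t.1 : G) * x = (x * t.1 * x⁻¹) * x := by rw [h3]
        _ = x * t.1 := by group
    · intro c
      apply Subtype.ext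
      show (c:G) * f.1 * (c:G)⁻¹ = f.1
      have hc : f.1 ∈ Subgroup.centralizer {x} := f.2.2
      obtain ⟨k, hk⟩ := Subgroup.mem_zpowers_iff.mp c.2
      rw [← hk]
      have hcomm : Commute x f.1 := (Subgroup.mem_centralizer_singleton_iff.mp hc).symm
      rw [(hcomm.zpow_left k).eq, mul_inv_cancel_right]
  rw [h2] at h1
  exact h1

/-- An abelian Sylow subgroup is central in its normalizer as soon as no other prime can act
nontrivially for counting reasons. -/
theorem normalizer_le_centralizer_of_sylow {G : Type*} [Group G] [Finite G] {p : ℕ}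
    [Fact p.Prime] (T : Sylow p G) (hT : IsMulCommutative T)
    (hF : ∀ r : ℕ, r.Prime → r ≠ p → r ∣ Nat.card G → ∀ F : Subgroup G, F ≤ T →
      Nat.card T ≡ Nat.card F [MOD r] → F = T) :
    Subgroup.normalizer ((T : Subgroup G) : Set G)
      ≤ Subgroup.centralizer ((T : Subgroup G) : Set G) := by
  classical
  have key : ∀ (r : ℕ) [Fact r.Prime], ∀ x : G,
      x ∈ Subgroup.normalizer ((T : Subgroup G) : Set G) → IsPGroup r (Subgroup.zpowers x) →
      x ∈ Subgroup.centralizer ((T : Subgroup G) : Set G) := by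
    intro r hrf x hx hxr
    by_cases hrp : r = p
    · subst hrp
      have hxT : x ∈ T := mem_sylow_of_normalizes T hxr hx
      rw [Subgroup.mem_centralizer_iff]
      intro t ht
      have := hT.is_comm.comm (⟨t, ht⟩ : T) ⟨x, hxT⟩
      exact congrArg Subtype.val this
    · by_cases hx1 : x = 1
      · rw [hx1]; exact Subgroup.one_mem _
      have hrG : r ∣ Nat.card G := by
        obtain ⟨k, hk⟩ := IsPGroup.iff_card.mp hxr
        have hk0 : k ≠ 0 := by
          rintro rfl
          rw [pow_zero, Nat.card_zpowers] at hk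
          exact hx1 (orderOf_eq_one_iff.mp hk)
        have h1 : r ∣ Nat.card (Subgroup.zpowers x) := by rw [hk]; exact dvd_pow_self r hk0
        exact h1.trans (Subgroup.card_subgroup_dvd_card _)
      have h1 := card_modEq_card_centralizer_of_pelement (T : Subgroup G) x hx r hxr
      have h2 := hF r hrf.out hrp hrG _ inf_le_left h1
      rw [Subgroup.mem_centralizer_iff]
      intro t ht
      have ht' : t ∈ (T : Subgroup G) ⊓ Subgroup.centralizer {x} := by rw [h2]; exact ht
      exact (Subgroup.mem_centralizer_singleton_iff.mp ht'.2)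
  by_contra hnot
  have hC : (Subgroup.centralizer ((T : Subgroup G) : Set G)).subgroupOf
      (Subgroup.normalizer ((T : Subgroup G) : Set G)) ≠ ⊤ :=
    fun h => hnot (Subgroup.subgroupOf_eq_top.mp h)
  have hidx : ((Subgroup.centralizer ((T : Subgroup G) : Set G)).subgroupOf
      (Subgroup.normalizer ((T : Subgroup G) : Set G))).index ≠ 1 :=
    fun h => hC (Subgroup.index_eq_one.mp h)
  obtain ⟨r, hr, hrd⟩ := Nat.exists_prime_and_dvd hidx
  haveI : Fact r.Prime := ⟨hr⟩
  have Q : Sylow r (Subgroup.normalizer ((T : Subgroup G) : Set G)) := default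
  have hQ : (Q : Subgroup (Subgroup.normalizer ((T : Subgroup G) : Set G)))
      ≤ (Subgroup.centralizer ((T : Subgroup G) : Set G)).subgroupOf
        (Subgroup.normalizer ((T : Subgroup G) : Set G)) := by
    intro y hy
    rw [Subgroup.mem_subgroupOf]
    apply key r (y : G) y.2
    have h1 : IsPGroup r (Subgroup.zpowers y) := Q.isPGroup'.to_le (Subgroup.zpowers_le.mpr hy)
    have h2 := h1.map (Subgroup.normalizer ((T : Subgroup G) : Set G)).subtype
    rw [MonoidHom.map_zpowers] at h2
    exact h2
  have h3 := Subgroup.index_dvd_of_le hQ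
  exact Q.not_dvd_index (hrd.trans h3)

theorem isMulCommutative_of_sq_eq_one {T : Type*} [Group T] (h : ∀ x : T, x * x = 1) :
    IsMulCommutative T := by
  refine ⟨⟨fun a b => ?_⟩⟩
  have h1 := h (a * b)
  have ha := h a
  have hb := h b
  calc a * b = a * (a * b * (a * b)) * b := by rw [h1, mul_one]
    _ = (a * a) * b * a * (b * b) := by group
    _ = b * a := by rw [ha, hb, one_mul, mul_one]

end Cfsg.Agent.Lib.Lead
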