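import Mathlib
import Cfsg.Agent.Lib.Lead.OmegaOdd
import Cfsg.Agent.Lib.Helper3.PGroup

set_option autoImplicit false

namespace Cfsg.Agent.Lib.Lead

/-- a normal subgroup of a finite `p`-group contains normal subgroups of every smaller order -/
theorem exists_normal_le_card_pow {P : Type*} [Group P] [Finite P] {p : ℕ} [Fact p.Prime]
    (hP : IsPGroup p P) (A : Subgroup P) [A.Normal] : ∀ k : ℕ, p ^ k ≤ Nat.card A →
    ∃ B : Subgroup P, B.Normal ∧ B ≤ A ∧ Nat.card B = p ^ k := by
  intro k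
  induction k with
  | zero => intro _; exact ⟨⊥, inferInstance, bot_le, by rw [Subgroup.card_bot, pow_zero]⟩
  | succ k ih =>
    intro hk
    have hp : p.Prime := Fact.out
    obtain ⟨B, hBn, hBA, hBc⟩ := ih (le_trans (Nat.pow_le_pow_right hp.pos (Nat.le_succ k)) hk)
    haveI := hBn
    have hne : A.map (QuotientGroup.mk' B) ≠ ⊥ := by
      intro h
      rw [Subgroup.map_eq_bot_iff, QuotientGroup.ker_mk'] at h
      have h1 := Subgroup.card_le_of_le h
      rw [hBc] at h1
      have h2 : p ^ k < p ^ (k + 1) := Nat.pow_lt_pow_right hp.one_lt (Nat.lt_succ_self k)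
      omega
    haveI : (A.map (QuotientGroup.mk' B)).Normal :=
      Subgroup.Normal.map inferInstance _ (QuotientGroup.mk'_surjective B)
    have hPq : IsPGroup p (P ⧸ B) := hP.to_quotient B
    obtain ⟨z, hzA, hz1, hzZ⟩ := Cfsg.Agent.Lib.Helper3.exists_ne_one_mem_center_of_normal hPq
      (A.map (QuotientGroup.mk' B)) hne
    obtain ⟨N, hNdef⟩ : ∃ N : Subgroup (P ⧸ B),
        N = A.map (QuotientGroup.mk' B) ⊓ Subgroup.center (P ⧸ B) := ⟨_, rfl⟩
    have hzN : z ∈ N := by rw [hNdef]; exact ⟨hzA, hzZ⟩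
    have hdvd : p ∣ Nat.card N := by
      obtain ⟨j, hj⟩ := IsPGroup.iff_card.1 (hPq.to_subgroup N)
      rw [hj]
      apply dvd_pow_self
      rintro rfl
      rw [pow_zero] at hj
      have h0 := Subgroup.eq_bot_of_card_eq N hj
      rw [h0] at hzN
      exact hz1 (Subgroup.mem_bot.1 hzN)
    obtain ⟨y, hy⟩ := exists_prime_orderOf_dvd_card' (G := N) p hdvd
    have hyN : (y : P ⧸ B) ∈ A.map (QuotientGroup.mk' B) ⊓ Subgroup.center (P ⧸ B) :=
      hNdef.le y.2
    rw [← Subgroup.orderOf_coe] at hy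
    obtain ⟨D, hDn, hBD, hrel, hDy⟩ := exists_normal_over (p := p) B (y : P ⧸ B) hyN.2 hy
    refine ⟨D, hDn, ?_, ?_⟩
    · intro x hx
      obtain ⟨i, hi⟩ := hDy x hx
      have h1 : (QuotientGroup.mk x : P ⧸ B) ∈ A.map (QuotientGroup.mk' B) := by
        rw [hi]; exact Subgroup.zpow_mem _ hyN.1 i
      obtain ⟨a, ha, hax⟩ := Subgroup.mem_map.1 h1
      have h2 : a⁻¹ * x ∈ B := QuotientGroup.eq.1 hax
      have h3 : x = a * (a⁻¹ * x) := by group
      rw [h3]; exact A.mul_mem ha (hBA h2)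
    · have h1 := Subgroup.relIndex_mul_relIndex (H := ⊥) (K := B) (L := D) bot_le hBD
      rw [Subgroup.relIndex_bot_left, Subgroup.relIndex_bot_left, hBc, hrel] at h1
      rw [← h1, pow_succ]

/-- a normal subgroup of prime order of a finite `p`-group is central -/
theorem normal_card_prime_le_center {P : Type*} [Group P] [Finite P] {p : ℕ} [Fact p.Prime]
    (hP : IsPGroup p P) (N : Subgroup P) [N.Normal] (hN : Nat.card N = p) :
    N ≤ Subgroup.center P := by
  have hp : p.Prime := Fact.out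
  have hne : N ≠ ⊥ := by
    rintro rfl
    rw [Subgroup.card_bot] at hN
    exact hp.one_lt.ne hN
  obtain ⟨z, hzN, hz1, hzZ⟩ :=
    Cfsg.Agent.Lib.Helper3.exists_ne_one_mem_center_of_normal hP N hne
  have hzp : Subgroup.zpowers z ≤ N := by rw [Subgroup.zpowers_le]; exact hzN
  have hcz : Nat.card (Subgroup.zpowers z) = p := by
    have hd : Nat.card (Subgroup.zpowers z) ∣ p := by
      rw [← hN]; exact Subgroup.card_dvd_of_le hzp
    rcases (Nat.dvd_prime hp).1 hd with h | h
    · exfalso; rw [Nat.card_zpowers] at h; exact hz1 (orderOf_eq_one_iff.1 h)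
    · exact h
  have heq : Subgroup.zpowers z = N := Subgroup.eq_of_le_of_card_ge hzp (by rw [hcz, hN])
  rw [← heq, Subgroup.zpowers_le]; exact hzZ

end Cfsg.Agent.Lib.Lead
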