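import Mathlib
import Cfsg.Agent.Lib.Helper4.SL2Nonsplit
import Cfsg.Agent.S0243

/-! Elements of order four in `PSL₂(q)` for `q ≡ 3, 5 (mod 8)`. -/

namespace Cfsg.Agent.Lib.Lead

open Cfsg.Agent.Lib.Helper4

variable {F : Type*} [Field F]

theorem mat2_cayley_hamilton (M : Matrix (Fin 2) (Fin 2) F)
    (hdet : M 0 0 * M 1 1 - M 0 1 * M 1 0 = 1) :
    M * M = (M 0 0 + M 1 1) • M - 1 := by
  ext i j
  fin_cases i <;> fin_cases j <;> simp [Matrix.mul_apply, Fin.sum_univ_two] <;>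
    first | ring1 | linear_combination (-1 : F) * hdet

theorem mat2_trace_sq (M : Matrix (Fin 2) (Fin 2) F)
    (hdet : M 0 0 * M 1 1 - M 0 1 * M 1 0 = 1) (hM4 : M * M * (M * M) = -1) :
    (M 0 0 + M 1 1) ^ 2 = 2 := by
  have hCH := mat2_cayley_hamilton M hdet
  generalize ht : M 0 0 + M 1 1 = t at *
  have key : (t ^ 3 - 2 * t) • M = (t ^ 2 - 2) • (1 : Matrix (Fin 2) (Fin 2) F) := by
    have e : M * M * (M * M) =
        (t ^ 3 - 2 * t) • M + (1 - t ^ 2) • (1 : Matrix (Fin 2) (Fin 2) F) := by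
      have h1 : (t • M - 1) * (t • M - 1) = (t * t) • (M * M) - (2 * t) • M + 1 := by
        simp only [sub_mul, mul_sub, Matrix.smul_mul, Matrix.mul_smul, one_mul, mul_one,
          smul_smul]
        module
      rw [hCH, h1, hCH]; module
    rw [hM4] at e
    have e2 : (t ^ 3 - 2 * t) • M =
        (-1 : Matrix (Fin 2) (Fin 2) F) - (1 - t ^ 2) • (1 : Matrix (Fin 2) (Fin 2) F) := by
      rw [e]; abel
    rw [e2]; module
  by_contra hne
  have hne' : t ^ 2 - 2 ≠ 0 := sub_ne_zero.2 hne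
  have k00 := congrFun (congrFun key 0) 0
  have k01 := congrFun (congrFun key 0) 1
  have k10 := congrFun (congrFun key 1) 0
  have k11 := congrFun (congrFun key 1) 1
  simp only [Matrix.smul_apply, Matrix.one_apply_eq, smul_eq_mul, mul_one, Matrix.one_apply_ne,
    ne_eq, zero_ne_one, one_ne_zero, not_false_eq_true, mul_zero] at k00 k01 k10 k11
  have hfac : t ^ 3 - 2 * t = t * (t ^ 2 - 2) := by ring
  have ht0 : t ≠ 0 := by
    intro h0
    rw [hfac, h0, zero_mul, zero_mul] at k00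
    rw [h0] at hne'
    exact hne' k00.symm
  have hcoef : t ^ 3 - 2 * t ≠ 0 := by rw [hfac]; exact mul_ne_zero ht0 hne'
  have hb : M 0 1 = 0 := by
    rcases mul_eq_zero.1 k01 with h | h
    · exact absurd h hcoef
    · exact h
  have hc : M 1 0 = 0 := by
    rcases mul_eq_zero.1 k10 with h | h
    · exact absurd h hcoef
    · exact h
  have ha : t * M 0 0 = 1 := by
    apply mul_right_cancel₀ hne'
    linear_combination k00
  have hd : t * M 1 1 = 1 := by
    apply mul_right_cancel₀ hne'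
    linear_combination k11
  apply hne
  calc t ^ 2 = t * (M 0 0 + M 1 1) := by rw [ht]; ring
    _ = 2 := by linear_combination ha + hd

theorem psl2_sq_eq_one_of_pow_four [Fintype F]
    (hq : Fintype.card F % 8 = 3 ∨ Fintype.card F % 8 = 5)
    (y : Matrix.ProjectiveSpecialLinearGroup (Fin 2) F) (hy : y ^ 4 = 1) : y ^ 2 = 1 := by
  have hodd : Odd (Fintype.card F) := by rw [Nat.odd_iff]; omega
  have h2 : (2 : F) ≠ 0 := two_ne_zero_of_odd_card hodd
  obtain ⟨g, rfl⟩ := QuotientGroup.mk_surjective y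
  rw [← QuotientGroup.mk_pow, QuotientGroup.eq_one_iff] at hy ⊢
  rcases (sl2_mem_center_iff _).1 hy with h | h
  · have h' : (g ^ 2) * (g ^ 2) = 1 := by rw [← pow_add]; exact h
    exact (sl2_mem_center_iff _).2 (sl2_sq_eq_one_odd h2 _ h')
  · exfalso
    have h' : (g : Matrix (Fin 2) (Fin 2) F) * g * ((g : Matrix (Fin 2) (Fin 2) F) * g) = -1 := by
      rw [← sl2PM_false_coe, ← h]
      simp [pow_succ, mul_assoc]
    have h3 := mat2_trace_sq (g : Matrix (Fin 2) (Fin 2) F) (sl2_det g) h'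
    have hsq : IsSquare (2 : F) := ⟨(g : Matrix (Fin 2) (Fin 2) F) 0 0 + (g : Matrix (Fin 2) (Fin 2) F) 1 1,
      by rw [← pow_two]; exact h3.symm⟩
    rw [FiniteField.isSquare_two_iff] at hsq
    omega

theorem psl2_two_mul_card [Fintype F] (hodd : Odd (Fintype.card F)) :
    2 * Nat.card (Matrix.ProjectiveSpecialLinearGroup (Fin 2) F) =
      Fintype.card F * (Fintype.card F ^ 2 - 1) := by
  have h1 := Cfsg.Agent.S0243.result (F := F) rfl 2 (by norm_num)
  rw [Fin.prod_univ_two] at h1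
  simp only [Fin.val_zero, Fin.val_one, pow_zero, pow_one] at h1
  obtain ⟨j, hj⟩ := hodd
  have hg : Nat.gcd 2 (Fintype.card F - 1) = 2 := by
    rw [hj]; simp
  have hq1 : 0 < Fintype.card F - 1 := by
    have : 2 ≤ Fintype.card F := Fintype.one_lt_card
    omega
  have e : Fintype.card F ^ 2 - Fintype.card F = Fintype.card F * (Fintype.card F - 1) := by
    rw [Nat.mul_sub, mul_one, pow_two]
  rw [hg, e] at h1
  apply Nat.eq_of_mul_eq_mul_left hq1
  calc (Fintype.card F - 1) * (2 * Nat.card (Matrix.ProjectiveSpecialLinearGroup (Fin 2) F))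
      = 2 * ((Fintype.card F - 1) *
          Nat.card (Matrix.ProjectiveSpecialLinearGroup (Fin 2) F)) := by ring
    _ = _ := h1
    _ = _ := by ring

theorem psl2_sylow_two_klein [Fintype F]
    (hq : Fintype.card F % 8 = 3 ∨ Fintype.card F % 8 = 5)
    (P : Sylow 2 (Matrix.ProjectiveSpecialLinearGroup (Fin 2) F)) :
    IsKleinFour (P : Subgroup (Matrix.ProjectiveSpecialLinearGroup (Fin 2) F)) := by
  have hodd : Odd (Fintype.card F) := by rw [Nat.odd_iff]; omega
  have h2N := psl2_two_mul_card hodd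
  obtain ⟨Y, hN, hY⟩ : ∃ Y, Nat.card (Matrix.ProjectiveSpecialLinearGroup (Fin 2) F) = 4 * Y ∧
      Odd Y := by
    rcases hq with hq | hq
    · obtain ⟨j, hj⟩ : ∃ j, Fintype.card F = 8 * j + 3 := ⟨Fintype.card F / 8, by omega⟩
      have e : (8 * j + 3) ^ 2 - 1 = 8 * ((4 * j + 1) * (2 * j + 1)) := by
        apply Nat.sub_eq_of_eq_add; ring
      refine ⟨Fintype.card F * ((4 * j + 1) * (2 * j + 1)), ?_,
        Nat.odd_mul.2 ⟨hodd, Nat.odd_mul.2 ⟨⟨2 * j, by ring⟩, ⟨j, by ring⟩⟩⟩⟩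
      have : 2 * Nat.card (Matrix.ProjectiveSpecialLinearGroup (Fin 2) F) =
          2 * (4 * (Fintype.card F * ((4 * j + 1) * (2 * j + 1)))) := by
        rw [h2N]; conv_lhs => rw [hj, e]
        rw [hj]; ring
      omega
    · obtain ⟨j, hj⟩ : ∃ j, Fintype.card F = 8 * j + 5 := ⟨Fintype.card F / 8, by omega⟩
      have e : (8 * j + 5) ^ 2 - 1 = 8 * ((2 * j + 1) * (4 * j + 3)) := by
        apply Nat.sub_eq_of_eq_add; ring
      refine ⟨Fintype.card F * ((2 * j + 1) * (4 * j + 3)), ?_,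
        Nat.odd_mul.2 ⟨hodd, Nat.odd_mul.2 ⟨⟨j, by ring⟩, ⟨2 * j + 1, by ring⟩⟩⟩⟩
      have : 2 * Nat.card (Matrix.ProjectiveSpecialLinearGroup (Fin 2) F) =
          2 * (4 * (Fintype.card F * ((2 * j + 1) * (4 * j + 3)))) := by
        rw [h2N]; conv_lhs => rw [hj, e]
        rw [hj]; ring
      omega
  have hY0 : Y ≠ 0 := by rintro rfl; exact absurd hY (by decide)
  haveI : Finite (Matrix.ProjectiveSpecialLinearGroup (Fin 2) F) :=
    Nat.finite_of_card_ne_zero (by rw [hN]; omega)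
  have hcard : Nat.card (P : Subgroup (Matrix.ProjectiveSpecialLinearGroup (Fin 2) F)) = 4 := by
    rw [Sylow.card_eq_multiplicity P, hN, show (4 : ℕ) = 2 ^ 2 from rfl,
      Nat.factorization_mul (by norm_num) hY0, Finsupp.add_apply,
      Nat.Prime.factorization_pow Nat.prime_two,
      Nat.factorization_eq_zero_of_not_dvd (fun h => (Nat.not_even_iff_odd.2 hY)
        (even_iff_two_dvd.2 h))]
    simp
  have hsq : ∀ x : (P : Subgroup (Matrix.ProjectiveSpecialLinearGroup (Fin 2) F)), x ^ 2 = 1 := by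
    intro x
    have h4 : x ^ 4 = 1 := by rw [← hcard]; exact pow_card_eq_one'
    apply Subtype.ext
    rw [Subgroup.coe_pow]
    exact psl2_sq_eq_one_of_pow_four hq _ (by rw [← Subgroup.coe_pow, h4]; rfl)
  refine ⟨hcard, ?_⟩
  have hdvd : Monoid.exponent (P : Subgroup (Matrix.ProjectiveSpecialLinearGroup (Fin 2) F)) ∣ 2 :=
    Monoid.exponent_dvd_of_forall_pow_eq_one hsq
  rcases (Nat.dvd_prime Nat.prime_two).1 hdvd with h | h
  · exfalso
    rw [Monoid.exp_eq_one_iff] at h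
    rw [Nat.card_of_subsingleton 1] at hcard
    omega
  · exact h

end Cfsg.Agent.Lib.Lead
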