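import Mathlib
import Cfsg.Agent.Lib.Lead.HallConverse

set_option autoImplicit false

namespace Cfsg.Agent.Lib.Lead

open scoped Pointwise commutatorElement

universe u

/-- Permuting subgroups: the join is the product set. -/
theorem coe_sup_of_perm {G : Type*} [Group G] (H K : Subgroup G)
    (h : (H : Set G) * (K : Set G) = (K : Set G) * (H : Set G)) :
    ((H ⊔ K : Subgroup G) : Set G) = (H : Set G) * (K : Set G) := by
  let L : Subgroup G :=
    { carrier := (H : Set G) * (K : Set G)
      one_mem' := ⟨1, H.one_mem, 1, K.one_mem, mul_one 1⟩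
      mul_mem' := by
        rintro _ _ ⟨h₁, hh₁, k₁, hk₁, rfl⟩ ⟨h₂, hh₂, k₂, hk₂, rfl⟩
        have h1 : k₁ * h₂ ∈ (H : Set G) * (K : Set G) := by
          rw [h]
          exact ⟨k₁, hk₁, h₂, hh₂, rfl⟩
        obtain ⟨h', hh', k', hk', h2⟩ := h1
        refine ⟨h₁ * h', H.mul_mem hh₁ hh', k' * k₂, K.mul_mem hk' hk₂, ?_⟩
        show h₁ * h' * (k' * k₂) = h₁ * k₁ * (h₂ * k₂)
        have h3 : h' * k' = k₁ * h₂ := h2
        calc h₁ * h' * (k' * k₂) = h₁ * (h' * k') * k₂ := by group
          _ = h₁ * (k₁ * h₂) * k₂ := by rw [h3]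
          _ = h₁ * k₁ * (h₂ * k₂) := by group
      inv_mem' := by
        rintro _ ⟨h₁, hh₁, k₁, hk₁, rfl⟩
        show (h₁ * k₁)⁻¹ ∈ (H : Set G) * (K : Set G)
        rw [h, mul_inv_rev]
        exact ⟨k₁⁻¹, K.inv_mem hk₁, h₁⁻¹, H.inv_mem hh₁, rfl⟩ }
  have hL : H ⊔ K = L := by
    apply le_antisymm
    · apply sup_le
      · intro x hx
        exact ⟨x, hx, 1, K.one_mem, mul_one x⟩
      · intro x hx
        exact ⟨1, H.one_mem, x, hx, one_mul x⟩
    · rintro _ ⟨h₁, hh₁, k₁, hk₁, rfl⟩
      exact Subgroup.mul_mem _ (Subgroup.mem_sup_left hh₁) (Subgroup.mem_sup_right hk₁)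
  rw [hL]
  rfl

theorem card_sup_of_perm {G : Type*} [Group G] [Finite G] (H K : Subgroup G)
    (h : (H : Set G) * (K : Set G) = (K : Set G) * (H : Set G)) (hd : H ⊓ K = ⊥) :
    Nat.card (H ⊔ K : Subgroup G) = Nat.card H * Nat.card K := by
  have hcoe := coe_sup_of_perm H K h
  rw [← Nat.card_prod]
  symm
  apply Nat.card_congr
  refine Equiv.ofBijective (fun x : H × K =>
    (⟨(x.1 : G) * (x.2 : G), Subgroup.mul_mem _ (Subgroup.mem_sup_left x.1.2)
      (Subgroup.mem_sup_right x.2.2)⟩ : (H ⊔ K : Subgroup G))) ⟨?_, ?_⟩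
  · rintro ⟨a, b⟩ ⟨c, d⟩ hab
    have h1 : (a : G) * (b : G) = (c : G) * (d : G) := Subtype.mk.inj hab
    have h2 : (c : G)⁻¹ * (a : G) = (d : G) * (b : G)⁻¹ := by
      calc (c : G)⁻¹ * (a : G) = (c : G)⁻¹ * ((a : G) * (b : G)) * (b : G)⁻¹ := by group
        _ = (c : G)⁻¹ * ((c : G) * (d : G)) * (b : G)⁻¹ := by rw [h1]
        _ = (d : G) * (b : G)⁻¹ := by group
    have h3 : (c : G)⁻¹ * (a : G) ∈ H ⊓ K := by
      refine Subgroup.mem_inf.mpr ⟨H.mul_mem (H.inv_mem c.2) a.2, ?_⟩
      rw [h2]
      exact K.mul_mem d.2 (K.inv_mem b.2)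
    rw [hd, Subgroup.mem_bot] at h3
    have h4 : (a : G) = (c : G) := by
      have := inv_mul_eq_one.mp h3
      exact this.symm
    have h5 : (b : G) = (d : G) := by
      rw [h4] at h1
      exact mul_left_cancel h1
    exact Prod.ext (Subtype.ext h4) (Subtype.ext h5)
  · rintro ⟨x, hx⟩
    have hx' : x ∈ ((H ⊔ K : Subgroup G) : Set G) := hx
    rw [hcoe] at hx'
    obtain ⟨a, ha, b, hb, rfl⟩ := hx'
    exact ⟨(⟨a, ha⟩, ⟨b, hb⟩), rfl⟩

/-- A group with a system of pairwise permuting Sylow subgroups is solvable. -/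
theorem solvable_of_sylow_system {G : Type u} [Group G] [Finite G]
    (S : (p : Nat.Primes) → Sylow (p : ℕ) G)
    (hS : ∀ p q : Nat.Primes, (S p : Set G) * (S q : Set G) = (S q : Set G) * (S p : Set G)) :
    Group.IsSolvable G := by
  classical
  have hn0 : Nat.card G ≠ 0 := Nat.card_pos.ne'
  have hS' : ∀ p q : Nat.Primes, ((S p : Subgroup G) : Set G) * ((S q : Subgroup G) : Set G) =
      ((S q : Subgroup G) : Set G) * ((S p : Subgroup G) : Set G) := fun p q => hS p q
  -- key induction
  have key : ∀ s : Finset Nat.Primes,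
      (∀ q : Nat.Primes, ((S q : Subgroup G) : Set G) *
          ((s.sup (fun r => (S r : Subgroup G)) : Subgroup G) : Set G) =
        ((s.sup (fun r => (S r : Subgroup G)) : Subgroup G) : Set G) * ((S q : Subgroup G) : Set G)) ∧
      Nat.card (s.sup (fun r => (S r : Subgroup G)) : Subgroup G) =
        ∏ r ∈ s, (r : ℕ) ^ (Nat.card G).factorization (r : ℕ) := by
    intro s
    induction s using Finset.induction_on with
    | empty =>
      refine ⟨fun q => ?_, ?_⟩
      · rw [Finset.sup_empty, Subgroup.coe_bot, Set.mul_singleton, Set.singleton_mul]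
        simp
      · rw [Finset.sup_empty, Subgroup.card_bot, Finset.prod_empty]
    | insert r s hr ih =>
      obtain ⟨iha, ihb⟩ := ih
      have hcoe := coe_sup_of_perm (S r : Subgroup G) (s.sup (fun r => (S r : Subgroup G))) (iha r)
      refine ⟨fun q => ?_, ?_⟩
      · rw [Finset.sup_insert, hcoe, ← mul_assoc, hS' q r, mul_assoc, iha q, mul_assoc]
      · rw [Finset.sup_insert, Finset.prod_insert hr]
        have hcr : Nat.card (S r : Subgroup G) = (r : ℕ) ^ (Nat.card G).factorization (r : ℕ) := by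
          haveI : Fact (r : ℕ).Prime := ⟨r.2⟩
          exact (S r).card_eq_multiplicity
        have hcop : (Nat.card (S r : Subgroup G)).Coprime
            (Nat.card (s.sup (fun r => (S r : Subgroup G)) : Subgroup G)) := by
          rw [hcr, ihb, Nat.coprime_prod_right_iff]
          intro q hq
          have hne : (r : ℕ) ≠ (q : ℕ) := by
            intro h
            apply hr
            have : r = q := Subtype.ext h
            rw [this]
            exact hq
          exact Nat.Coprime.pow _ _ ((Nat.coprime_primes r.2 q.2).mpr hne)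
        rw [card_sup_of_perm _ _ (iha r) (Subgroup.disjoint_of_coprime_natCard hcop).eq_bot,
          hcr, ihb]
  apply hall_converse _ G rfl
  intro p hp
  -- the finset of prime divisors other than p, as a finset of `Nat.Primes`
  have hprod := Nat.prod_primeFactors_pow_factorization hn0
  obtain ⟨t, ht⟩ : ∃ t : Finset Nat.Primes, ∀ f : ℕ → ℕ,
      ∏ r ∈ t, f (r : ℕ) = ∏ q ∈ (Nat.card G).primeFactors.erase p, f q := by
    refine ⟨((Nat.card G).primeFactors.erase p).subtype Nat.Prime, fun f => ?_⟩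
    have h1 := Finset.prod_map (((Nat.card G).primeFactors.erase p).subtype Nat.Prime)
      (Function.Embedding.subtype Nat.Prime) f
    rw [Finset.subtype_map, Finset.filter_true_of_mem] at h1
    · exact h1.symm
    · intro q hq
      exact Nat.prime_of_mem_primeFactors (Finset.mem_of_mem_erase hq)
  obtain ⟨-, hcard⟩ := key t
  have hcard' : Nat.card (t.sup (fun r => (S r : Subgroup G)) : Subgroup G) =
      ∏ q ∈ (Nat.card G).primeFactors.erase p, q ^ (Nat.card G).factorization q := by
    rw [hcard]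
    exact ht (fun q => q ^ (Nat.card G).factorization q)
  have hnd : ¬ p ∣ Nat.card (t.sup (fun r => (S r : Subgroup G)) : Subgroup G) := by
    rw [hcard']
    apply Prime.not_dvd_finsetProd hp.prime
    intro q hq hd
    rw [Finset.mem_erase, Nat.mem_primeFactors] at hq
    have h1 := hp.dvd_of_dvd_pow hd
    exact hq.1 ((Nat.prime_dvd_prime_iff_eq hp hq.2.1).mp h1).symm
  refine ⟨t.sup (fun r => (S r : Subgroup G)), ?_, hnd⟩
  have hidx := Subgroup.card_mul_index (t.sup (fun r => (S r : Subgroup G)) : Subgroup G)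
  have hpos : 0 < Nat.card (t.sup (fun r => (S r : Subgroup G)) : Subgroup G) := Nat.card_pos
  by_cases hpm : p ∈ (Nat.card G).primeFactors
  · refine ⟨(Nat.card G).factorization p, ?_⟩
    rw [← Finset.mul_prod_erase _ _ hpm, ← hcard'] at hprod
    apply Nat.eq_of_mul_eq_mul_left hpos
    rw [hidx, mul_comm]
    exact hprod
  · refine ⟨0, ?_⟩
    rw [Finset.erase_eq_of_notMem hpm, ← hprod] at hcard'
    rw [pow_zero]
    apply Nat.eq_of_mul_eq_mul_left hpos
    rw [hidx, mul_one, hcard']

end Cfsg.Agent.Lib.Lead
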