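import Mathlib

/-! Counting solutions of `x · y = c` over a finite field. -/

namespace Cfsg.Agent.Lib.Lead

theorem card_fiber_addHom {A B : Type*} [AddCommGroup A] [AddCommGroup B]
    (f : A →+ B) (hf : Function.Surjective f) (b : B) :
    Nat.card {a // f a = b} * Nat.card B = Nat.card A := by
  choose s hs using hf
  have e : A ≃ {a // f a = b} × B :=
    { toFun := fun a => (⟨a - s (f a) + s b, by simp [hs]⟩, f a)
      invFun := fun p => p.1.1 - s b + s p.2
      left_inv := fun a => by simp
      right_inv := fun p => by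
        have h1 : f (p.1.1 - s b + s p.2) = p.2 := by simp [hs, p.1.2]
        refine Prod.ext (Subtype.ext ?_) h1
        show p.1.1 - s b + s p.2 - s (f (p.1.1 - s b + s p.2)) + s b = p.1.1
        rw [h1]; abel }
  rw [Nat.card_congr e, Nat.card_prod]

variable {F : Type*} [Field F] [Fintype F]

/-- the dot product with a fixed vector, as an additive map -/
def dotHom {m : ℕ} (x : Fin m → F) : (Fin m → F) →+ F where
  toFun y := ∑ i, x i * y i
  map_zero' := by simp
  map_add' y z := by simp [mul_add, Finset.sum_add_distrib]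

theorem dotHom_surjective {m : ℕ} (x : Fin m → F) (hx : x ≠ 0) :
    Function.Surjective (dotHom x) := by
  classical
  obtain ⟨i₀, hi₀⟩ : ∃ i₀, x i₀ ≠ 0 := by
    by_contra hcon
    push Not at hcon
    exact hx (funext hcon)
  intro c
  refine ⟨Pi.single i₀ (c / x i₀), ?_⟩
  show ∑ i, x i * (Pi.single i₀ (c / x i₀) : Fin m → F) i = c
  rw [Finset.sum_eq_single i₀]
  · rw [Pi.single_eq_same]; field_simp
  · intro j _ hj
    rw [Pi.single_eq_of_ne hj, mul_zero]
  · intro h; exact absurd (Finset.mem_univ _) h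

theorem card_dot_ne_zero {m : ℕ} (x : Fin m → F) (hx : x ≠ 0) (c : F) :
    Nat.card {y : Fin m → F // ∑ i, x i * y i = c} = Fintype.card F ^ (m - 1) := by
  have h1 := card_fiber_addHom (dotHom x) (dotHom_surjective x hx) c
  have hm : 1 ≤ m := by
    rcases Nat.eq_zero_or_pos m with h | h
    · subst h
      exact absurd (Subsingleton.elim x 0) hx
    · exact h
  have h2 : Nat.card (Fin m → F) = Fintype.card F ^ (m - 1) * Fintype.card F := by
    rw [Nat.card_eq_fintype_card, Fintype.card_fun, Fintype.card_fin, ← pow_succ]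
    congr 1; omega
  rw [h2, Nat.card_eq_fintype_card (α := F)] at h1
  exact Nat.eq_of_mul_eq_mul_right Fintype.card_pos h1

theorem card_dot_zero_zero {m : ℕ} :
    Nat.card {y : Fin m → F // ∑ i, (0 : Fin m → F) i * y i = 0} = Fintype.card F ^ m := by
  have : ∀ y : Fin m → F, ∑ i, (0 : Fin m → F) i * y i = 0 := fun y => by simp
  rw [Nat.card_congr (Equiv.subtypeUnivEquiv this), Nat.card_eq_fintype_card,
    Fintype.card_fun, Fintype.card_fin]

theorem card_dot_zero_ne {m : ℕ} (c : F) (h : c ≠ 0) :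
    Nat.card {y : Fin m → F // ∑ i, (0 : Fin m → F) i * y i = c} = 0 := by
  have : IsEmpty {y : Fin m → F // ∑ i, (0 : Fin m → F) i * y i = c} := by
    constructor
    rintro ⟨y, hy⟩
    apply h
    rw [← hy]; simp
  exact Nat.card_of_isEmpty

theorem card_pairs_dot_aux (m : ℕ) (c : F) :
    Nat.card {p : (Fin m → F) × (Fin m → F) // ∑ i, p.1 i * p.2 i = c} =
      Nat.card {y : Fin m → F // ∑ i, (0 : Fin m → F) i * y i = c} +
        (Fintype.card F ^ m - 1) * Fintype.card F ^ (m - 1) := by
  classical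
  rw [Nat.card_congr (Equiv.subtypeProdEquivSigmaSubtype
    (fun (x y : Fin m → F) => ∑ i, x i * y i = c)), Nat.card_sigma,
    ← Finset.add_sum_erase Finset.univ _ (Finset.mem_univ (0 : Fin m → F))]
  congr 1
  rw [Finset.sum_congr rfl (fun x hx => card_dot_ne_zero x (Finset.ne_of_mem_erase hx) c),
    Finset.sum_const, Finset.card_erase_of_mem (Finset.mem_univ _), Finset.card_univ,
    Fintype.card_fun, Fintype.card_fin, smul_eq_mul]

theorem card_pairs_dot_zero (m : ℕ) :
    Nat.card {p : (Fin m → F) × (Fin m → F) // ∑ i, p.1 i * p.2 i = 0} =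
      Fintype.card F ^ m + (Fintype.card F ^ m - 1) * Fintype.card F ^ (m - 1) := by
  rw [card_pairs_dot_aux, card_dot_zero_zero]

theorem card_pairs_dot_ne (m : ℕ) (c : F) (hc : c ≠ 0) :
    Nat.card {p : (Fin m → F) × (Fin m → F) // ∑ i, p.1 i * p.2 i = c} =
      (Fintype.card F ^ m - 1) * Fintype.card F ^ (m - 1) := by
  rw [card_pairs_dot_aux, card_dot_zero_ne c hc, zero_add]

theorem card_form_zero {T : Type*} [Fintype T] (N : T → F) (t₀ : T)
    (h0 : ∀ t, N t = 0 ↔ t = t₀) (m : ℕ) :
    Nat.card {w : T × ((Fin m → F) × (Fin m → F)) // ∑ i, w.2.1 i * w.2.2 i + N w.1 = 0} =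
      Fintype.card F ^ m + (Fintype.card F ^ m - 1) * Fintype.card F ^ (m - 1) +
        (Fintype.card T - 1) * ((Fintype.card F ^ m - 1) * Fintype.card F ^ (m - 1)) := by
  classical
  rw [Nat.card_congr (Equiv.subtypeProdEquivSigmaSubtype
    (fun (t : T) (p : (Fin m → F) × (Fin m → F)) => ∑ i, p.1 i * p.2 i + N t = 0)),
    Nat.card_sigma, ← Finset.add_sum_erase Finset.univ _ (Finset.mem_univ t₀)]
  congr 1
  · rw [← card_pairs_dot_zero]
    exact Nat.card_congr (Equiv.subtypeEquivRight (fun p => by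
      rw [(h0 t₀).2 rfl, add_zero]))
  · have : ∀ t ∈ Finset.univ.erase t₀,
        Nat.card {p : (Fin m → F) × (Fin m → F) // ∑ i, p.1 i * p.2 i + N t = 0} =
          (Fintype.card F ^ m - 1) * Fintype.card F ^ (m - 1) := by
      intro t ht
      have hne : -N t ≠ 0 := by
        rw [neg_ne_zero]
        exact fun h => (Finset.ne_of_mem_erase ht) ((h0 t).1 h)
      rw [← card_pairs_dot_ne m (-N t) hne]
      exact Nat.card_congr (Equiv.subtypeEquivRight (fun p => by
        rw [add_eq_zero_iff_eq_neg]))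
    rw [Finset.sum_congr rfl this, Finset.sum_const,
      Finset.card_erase_of_mem (Finset.mem_univ _), Finset.card_univ, smul_eq_mul]

end Cfsg.Agent.Lib.Lead
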