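import Mathlib
import Cfsg.Agent.Lib.Lead.UniqueSub
import Cfsg.Agent.Lib.Lead.SL2Sylow
import Cfsg.Agent.Lib.Helper4.SL2Nonsplit

/-! Sylow `2`-subgroups of `SL₂(q)`, `q` odd, are generalised quaternion. -/

namespace Cfsg.Agent.Lib.Lead

open Cfsg.Agent.Lib.Helper4

variable {F : Type*} [Field F]

/-- an element of order four of `SL₂` -/
def sl2I : Matrix.SpecialLinearGroup (Fin 2) F :=
  ⟨!![0, 1; -1, 0], by simp [Matrix.det_fin_two]⟩

/-- a second element of order four of `SL₂`, anticommuting with `sl2I` -/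
def sl2J (α β : F) (h : α ^ 2 + β ^ 2 = -1) : Matrix.SpecialLinearGroup (Fin 2) F :=
  ⟨!![α, β; β, -α], by rw [Matrix.det_fin_two]; simp; linear_combination (-1 : F) * h⟩

theorem sl2I_val : ((sl2I : Matrix.SpecialLinearGroup (Fin 2) F) : Matrix (Fin 2) (Fin 2) F) =
    !![0, 1; -1, 0] := rfl

theorem sl2J_val (α β : F) (h : α ^ 2 + β ^ 2 = -1) :
    ((sl2J α β h : Matrix.SpecialLinearGroup (Fin 2) F) : Matrix (Fin 2) (Fin 2) F) =
      !![α, β; β, -α] := rfl

theorem sl2I_sq (α β : F) (h : α ^ 2 + β ^ 2 = -1) :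
    (sl2I : Matrix.SpecialLinearGroup (Fin 2) F) * sl2I = sl2J α β h * sl2J α β h := by
  apply Subtype.ext
  rw [Matrix.SpecialLinearGroup.coe_mul, Matrix.SpecialLinearGroup.coe_mul, sl2I_val, sl2J_val]
  ext i j
  fin_cases i <;> fin_cases j <;> simp [Matrix.mul_apply, Fin.sum_univ_two] <;>
    first | ring1 | linear_combination (-1 : F) * h

theorem sl2I_pow_four :
    (sl2I : Matrix.SpecialLinearGroup (Fin 2) F) * sl2I * (sl2I * sl2I) = 1 := by
  apply Subtype.ext
  simp only [Matrix.SpecialLinearGroup.coe_mul, sl2I_val, Matrix.SpecialLinearGroup.coe_one]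
  ext i j
  fin_cases i <;> fin_cases j <;> simp [Matrix.mul_apply, Fin.sum_univ_two]

theorem sl2IJI (α β : F) (h : α ^ 2 + β ^ 2 = -1) :
    (sl2I : Matrix.SpecialLinearGroup (Fin 2) F) * sl2J α β h * sl2I = sl2J α β h := by
  apply Subtype.ext
  simp only [Matrix.SpecialLinearGroup.coe_mul, sl2I_val, sl2J_val]
  ext i j
  fin_cases i <;> fin_cases j <;> simp [Matrix.mul_apply, Fin.sum_univ_two]

theorem sl2IJ_ne (h2 : (2 : F) ≠ 0) (α β : F) (h : α ^ 2 + β ^ 2 = -1) :
    (sl2I : Matrix.SpecialLinearGroup (Fin 2) F) * sl2J α β h ≠ sl2J α β h * sl2I := by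
  intro hc
  have h00 := congrArg (fun M : Matrix.SpecialLinearGroup (Fin 2) F =>
    (M : Matrix (Fin 2) (Fin 2) F) 0 0) hc
  have h01 := congrArg (fun M : Matrix.SpecialLinearGroup (Fin 2) F =>
    (M : Matrix (Fin 2) (Fin 2) F) 0 1) hc
  simp [Matrix.SpecialLinearGroup.coe_mul, sl2I_val, sl2J_val, Matrix.mul_apply,
    Fin.sum_univ_two] at h00 h01
  have hb : β = 0 := by
    have : (2 : F) * β = 0 := by linear_combination h00
    rcases mul_eq_zero.1 this with h' | h'
    · exact absurd h' h2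
    · exact h'
  have ha : α = 0 := by
    have : (2 : F) * α = 0 := by linear_combination (-1 : F) * h01
    rcases mul_eq_zero.1 this with h' | h'
    · exact absurd h' h2
    · exact h'
  rw [ha, hb] at h
  norm_num at h

theorem sl2_sylow_two_quat [Fintype F] (hF : Odd (Fintype.card F))
    (P : Sylow 2 (Matrix.SpecialLinearGroup (Fin 2) F)) :
    ∃ k : ℕ, 1 ≤ k ∧ Nonempty ((P : Subgroup (Matrix.SpecialLinearGroup (Fin 2) F)) ≃*
      QuaternionGroup (2 ^ k)) := by
  haveI := sl2_finite (F := F)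
  have h2 : (2 : F) ≠ 0 := two_ne_zero_of_odd_card hF
  have key : ∀ H : Subgroup (P : Subgroup (Matrix.SpecialLinearGroup (Fin 2) F)),
      Nat.card H = 2 → ∃ z : (P : Subgroup (Matrix.SpecialLinearGroup (Fin 2) F)),
        (z : Matrix.SpecialLinearGroup (Fin 2) F) = sl2PM false 0 ∧ H = Subgroup.zpowers z := by
    intro H hH
    obtain ⟨h, hh⟩ := exists_prime_orderOf_dvd_card' (G := H) 2 (by rw [hH])
    have h1 : (((h : (P : Subgroup (Matrix.SpecialLinearGroup (Fin 2) F))) :
        Matrix.SpecialLinearGroup (Fin 2) F)) * ((h : (P : Subgroup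
          (Matrix.SpecialLinearGroup (Fin 2) F))) : Matrix.SpecialLinearGroup (Fin 2) F) = 1 := by
      have e : h ^ 2 = 1 := by
        have e0 := pow_orderOf_eq_one h
        rwa [hh] at e0
      have e' := congrArg (fun t : H => (((t : (P : Subgroup
        (Matrix.SpecialLinearGroup (Fin 2) F))) : Matrix.SpecialLinearGroup (Fin 2) F))) e
      simpa [pow_two] using e'
    have h1' : (((h : (P : Subgroup (Matrix.SpecialLinearGroup (Fin 2) F))) :
        Matrix.SpecialLinearGroup (Fin 2) F)) ≠ 1 := by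
      intro h0
      have e : h = 1 := Subtype.ext (Subtype.ext h0)
      rw [e, orderOf_one] at hh
      norm_num at hh
    rcases sl2_sq_eq_one_odd h2 _ h1 with h3 | h3
    · exact absurd h3 h1'
    · refine ⟨(h : (P : Subgroup (Matrix.SpecialLinearGroup (Fin 2) F))), h3, ?_⟩
      symm
      apply Subgroup.eq_of_le_of_card_ge
      · rw [Subgroup.zpowers_le]; exact h.2
      · rw [hH, Nat.card_zpowers, Subgroup.orderOf_coe, hh]
  have huniq : ∀ H K : Subgroup (P : Subgroup (Matrix.SpecialLinearGroup (Fin 2) F)),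
      Nat.card H = 2 → Nat.card K = 2 → H = K := by
    intro H K hH hK
    obtain ⟨z, hz, hHz⟩ := key H hH
    obtain ⟨z', hz', hKz⟩ := key K hK
    have : z = z' := Subtype.ext (hz.trans hz'.symm)
    rw [hHz, hKz, this]
  have hnc : ¬ IsCyclic (P : Subgroup (Matrix.SpecialLinearGroup (Fin 2) F)) := by
    intro hc
    haveI : Fact (ringChar F).Prime := ⟨CharP.char_is_prime F (ringChar F)⟩
    haveI : NeZero (ringChar F) := ⟨(CharP.char_is_prime F (ringChar F)).ne_zero⟩
    obtain ⟨a, b, hab⟩ := CharP.sq_add_sq F (ringChar F) (-1)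
    have hab' : (a : F) ^ 2 + (b : F) ^ 2 = -1 := by simpa using hab
    have hxx := sl2I_sq (a : F) (b : F) hab'
    have hx4 : (sl2I : Matrix.SpecialLinearGroup (Fin 2) F) ^ (2 * 2) = 1 := by
      rw [pow_mul, pow_two, pow_two]; exact sl2I_pow_four
    have hyy : sl2J (a : F) (b : F) hab' * sl2J (a : F) (b : F) hab' =
        (sl2I : Matrix.SpecialLinearGroup (Fin 2) F) ^ 2 := by
      rw [pow_two]; exact hxx.symm
    have hconj : (sl2J (a : F) (b : F) hab')⁻¹ * sl2I * sl2J (a : F) (b : F) hab' =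
        (sl2I : Matrix.SpecialLinearGroup (Fin 2) F)⁻¹ := by
      apply eq_inv_of_mul_eq_one_left
      calc (sl2J (a : F) (b : F) hab')⁻¹ * sl2I * sl2J (a : F) (b : F) hab' * sl2I
          = (sl2J (a : F) (b : F) hab')⁻¹ * (sl2I * sl2J (a : F) (b : F) hab' * sl2I) := by
            simp only [mul_assoc]
        _ = 1 := by rw [sl2IJI, inv_mul_cancel]
    have hQ : IsPGroup 2 (QuaternionGroup 2) :=
      IsPGroup.of_card (n := 3) (by rw [Nat.card_eq_fintype_card, QuaternionGroup.card]; norm_num)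
    have hφ : IsPGroup 2 (quaternionLift 2 (sl2I : Matrix.SpecialLinearGroup (Fin 2) F)
        (sl2J (a : F) (b : F) hab') hx4 hyy hconj).range :=
      hQ.of_surjective _ (MonoidHom.rangeRestrict_surjective _)
    obtain ⟨P', hP'⟩ := hφ.exists_le_sylow
    have e := Sylow.equiv P P'
    haveI : IsCyclic (P' : Subgroup (Matrix.SpecialLinearGroup (Fin 2) F)) :=
      isCyclic_of_surjective e e.surjective
    have hx' : (sl2I : Matrix.SpecialLinearGroup (Fin 2) F) ∈
        (P' : Subgroup (Matrix.SpecialLinearGroup (Fin 2) F)) := by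
      apply hP'
      refine ⟨QuaternionGroup.a 1, ?_⟩
      show (sl2I : Matrix.SpecialLinearGroup (Fin 2) F) ^ (1 : ZMod (2 * 2)).val = sl2I
      rw [show (1 : ZMod (2 * 2)).val = 1 from rfl, pow_one]
    have hy' : sl2J (a : F) (b : F) hab' ∈
        (P' : Subgroup (Matrix.SpecialLinearGroup (Fin 2) F)) := by
      apply hP'
      refine ⟨QuaternionGroup.xa 0, ?_⟩
      show sl2J (a : F) (b : F) hab' *
        (sl2I : Matrix.SpecialLinearGroup (Fin 2) F) ^ (0 : ZMod (2 * 2)).val = _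
      rw [ZMod.val_zero, pow_zero, mul_one]
    obtain ⟨g, hg⟩ := IsCyclic.exists_generator
      (α := (P' : Subgroup (Matrix.SpecialLinearGroup (Fin 2) F)))
    obtain ⟨i, hi⟩ := Subgroup.mem_zpowers_iff.1 (hg ⟨_, hx'⟩)
    obtain ⟨j, hj⟩ := Subgroup.mem_zpowers_iff.1 (hg ⟨_, hy'⟩)
    have hcomm := ((Commute.refl g).zpow_zpow i j).eq
    rw [hi, hj] at hcomm
    exact sl2IJ_ne h2 _ _ hab' (congrArg Subtype.val hcomm)
  rcases unique_sub_cyclic_or_quat 2 P.isPGroup' huniq with hcyc | ⟨-, n, ⟨e⟩⟩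
  · exact absurd hcyc hnc
  · rcases Nat.eq_zero_or_pos n with hn | hn
    · exfalso
      subst hn
      haveI : IsCyclic (QuaternionGroup (2 ^ 0)) := QuaternionGroup.quaternionGroup_one_isCyclic
      exact hnc (isCyclic_of_surjective e.symm e.symm.surjective)
    · exact ⟨n, hn, ⟨e⟩⟩

end Cfsg.Agent.Lib.Lead
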