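import Mathlib
import Cfsg.Prelude.Def_Blocks
import Cfsg.Agent.Lib.Lead.SecondMainAux

/-!
# The second main theorem, idempotent form: the Brauer map argument
-/

set_option autoImplicit false

namespace Cfsg.Agent.Lib.Lead

open scoped ComplexConjugate

universe u

theorem second_main_key_lead {G : Type u} [Group G] [Fintype G] (p : ℕ) (hp : p.Prime)
    (M : Ideal Cfsg.AlgInt) (hMprime : M.IsPrime) (hpM : (p : Cfsg.AlgInt) ∈ M)
    (H : Subgroup G) [Fintype H] (ξ₀ : Cfsg.IrrCharacter H) (χ₁ : Cfsg.IrrCharacter G)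
    (hind : ∀ ξ ∈ Cfsg.blockOf M (ξ₀ : H → ℂ), ∀ χ ∈ Cfsg.blockOf M (χ₁ : G → ℂ), ∀ g : G,
      Cfsg.MemLocalIdeal M (Cfsg.inducedCentralChar H (ξ : H → ℂ) g -
        Cfsg.centralChar (χ : G → ℂ) g))
    (z : G) (hz : IsPGroup p (Subgroup.zpowers z))
    (hzH : Subgroup.centralizer ({z} : Set G) ≤ H) :
    ∀ c, z * c = c * z → Cfsg.MemLocalIdeal M
      (smW_lead H (Cfsg.blockOf M (ξ₀ : H → ℂ)) (Cfsg.blockOf M (χ₁ : G → ℂ)) c) := by
  classical
  haveI : Fintype (Cfsg.IrrCharacter H) := Fintype.ofFinite _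
  haveI : Fintype (Cfsg.IrrCharacter G) := Fintype.ofFinite _
  haveI : Fintype (ConjClasses G) := Fintype.ofFinite _
  have hMtop : M ≠ ⊤ := hMprime.ne_top
  obtain ⟨b, hb⟩ : ∃ b : Set (Cfsg.IrrCharacter H), b = Cfsg.blockOf M (ξ₀ : H → ℂ) :=
    ⟨_, rfl⟩
  obtain ⟨B, hB⟩ : ∃ B : Set (Cfsg.IrrCharacter G), B = Cfsg.blockOf M (χ₁ : G → ℂ) :=
    ⟨_, rfl⟩
  rw [← hb, ← hB] at hind
  rw [← hb, ← hB]
  obtain ⟨q, hq⟩ : ∃ q : G → ℂ, q = Cfsg.blockCoeff Bᶜ := ⟨_, rfl⟩
  have hqR : ∀ g, Cfsg.MemLocalRing M (q g) := by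
    intro g
    rw [hq, hB]
    exact blockCoeff_compl_local_lead p hp M hMprime hpM χ₁ g
  have hqc : ∀ g t : G, q (t * g * t⁻¹) = q g := by
    intro g t
    rw [hq]
    exact blockCoeff_classFun_lead _ g t
  have hbR : ∀ x : H, Cfsg.MemLocalRing M (Cfsg.blockCoeff b x) := by
    intro x
    rw [hb]
    exact osima_lead p hp M hMprime hpM ξ₀ x
  have hbc : Cfsg.IsClassFunction H (Cfsg.blockCoeff b) :=
    fun g t => blockCoeff_classFun_lead b g t
  have hqHc : Cfsg.IsClassFunction H (fun y : H => q (y : G)) := by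
    intro g t
    show q ((t * g * t⁻¹ : H) : G) = q (g : G)
    exact hqc (g : G) (t : G)
  obtain ⟨u, hu⟩ : ∃ u : H → ℂ, ∀ y : H, u y =
      ∑ x : H, Cfsg.blockCoeff b x * q ((x⁻¹ * y : H) : G) :=
    ⟨fun y : H => ∑ x : H, Cfsg.blockCoeff b x * q ((x⁻¹ * y : H) : G), fun _ => rfl⟩
  have hu' : u = fun y : H => ∑ x : H, Cfsg.blockCoeff b x * q ((x⁻¹ * y : H) : G) :=
    funext hu
  have huc : Cfsg.IsClassFunction H u := by
    rw [hu']
    exact conv_classFun_lead (Cfsg.blockCoeff b) (fun y : H => q (y : G)) hbc hqHc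
  have huR : ∀ x, Cfsg.MemLocalRing M (u x) := by
    intro x
    rw [hu x]
    exact memLocalRing_sum_lead hMprime _ _
      (fun y _ => memLocalRing_mul_lead hMprime (hbR y) (hqR _))
  obtain ⟨a, ha⟩ : ∃ a : Cfsg.IrrCharacter H → ℂ, ∀ ξ, a ξ =
      if ξ ∈ b then (∑ y : H, q (y : G) * (ξ : H → ℂ) y) / (ξ : H → ℂ) 1 else 0 :=
    ⟨fun ξ => if ξ ∈ b then (∑ y : H, q (y : G) * (ξ : H → ℂ) y) / (ξ : H → ℂ) 1 else 0,
      fun _ => rfl⟩
  have hT : ∀ ξ : Cfsg.IrrCharacter H,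
      ∑ g : H, u g * (ξ : H → ℂ) g = a ξ * (ξ : H → ℂ) 1 := by
    intro ξ
    have h1 := conv_transform_lead (Cfsg.blockCoeff b) (fun y : H => q (y : G)) hbc
      (ξ : H → ℂ) ξ.2
    have h3 : ∑ g : H, u g * (ξ : H → ℂ) g =
        ∑ g : H, (∑ x : H, Cfsg.blockCoeff b x * q ((x⁻¹ * g : H) : G)) * (ξ : H → ℂ) g :=
      Finset.sum_congr rfl (fun g _ => by rw [hu g])
    have h2 : ∑ g : H, u g * (ξ : H → ℂ) g =
        (∑ x : H, Cfsg.blockCoeff b x * (ξ : H → ℂ) x) *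
          (∑ y : H, q (y : G) * (ξ : H → ℂ) y) / (ξ : H → ℂ) 1 := h3.trans h1
    rw [h2, blockCoeff_sum_lead b ξ, ha ξ]
    by_cases hξ : ξ ∈ b
    · rw [if_pos hξ, if_pos hξ, mul_div_assoc]
      exact mul_comm _ _
    · rw [if_neg hξ, if_neg hξ, zero_mul, zero_div, zero_mul]
  have haI : ∀ ξ, Cfsg.MemLocalIdeal M (a ξ) := by
    intro ξ
    rw [ha ξ]
    by_cases hξ : ξ ∈ b
    · rw [if_pos hξ]
      have hχ₁B : χ₁ ∈ B := by
        rw [hB]
        exact sameBlock_refl_lead hMtop (χ₁ : G → ℂ)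
      have hcls : ∀ y : H, ∑ C : ConjClasses G,
          (if IsConj (Quotient.out C) (y : G) then
            q (Quotient.out C) * ((ξ : H → ℂ) y / (ξ : H → ℂ) 1) else 0) =
          q (y : G) * ((ξ : H → ℂ) y / (ξ : H → ℂ) 1) := by
        intro y
        rw [Finset.sum_eq_single (ConjClasses.mk (y : G))]
        · have hconj : IsConj (Quotient.out (ConjClasses.mk (y : G))) (y : G) := by
            rw [← ConjClasses.mk_eq_mk_iff_isConj]
            exact Quotient.out_eq _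
          obtain ⟨t, ht⟩ := isConj_iff.mp hconj
          have hq1 : q (Quotient.out (ConjClasses.mk (y : G))) = q (y : G) := by
            have h5 := hqc (Quotient.out (ConjClasses.mk (y : G))) t
            rw [ht] at h5
            exact h5.symm
          rw [if_pos hconj, hq1]
        · intro C _ hC
          have hnc : ¬ IsConj (Quotient.out C) (y : G) := by
            intro hconj
            apply hC
            exact (Quotient.out_eq C).symm.trans (ConjClasses.mk_eq_mk_iff_isConj.mpr hconj)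
          rw [if_neg hnc]
        · intro h
          exact absurd (Finset.mem_univ _) h
      have e1 : (∑ y : H, q (y : G) * (ξ : H → ℂ) y) / (ξ : H → ℂ) 1 =
          ∑ C : ConjClasses G, q (Quotient.out C) *
            Cfsg.inducedCentralChar H (ξ : H → ℂ) (Quotient.out C) := by
        rw [Finset.sum_div]
        calc ∑ y : H, q (y : G) * (ξ : H → ℂ) y / (ξ : H → ℂ) 1
            = ∑ y : H, ∑ C : ConjClasses G,
                (if IsConj (Quotient.out C) (y : G) then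
                  q (Quotient.out C) * ((ξ : H → ℂ) y / (ξ : H → ℂ) 1) else 0) := by
              refine Finset.sum_congr rfl (fun y _ => ?_)
              rw [hcls y, mul_div_assoc]
          _ = ∑ C : ConjClasses G, ∑ y : H,
                (if IsConj (Quotient.out C) (y : G) then
                  q (Quotient.out C) * ((ξ : H → ℂ) y / (ξ : H → ℂ) 1) else 0) :=
              Finset.sum_comm
          _ = _ := by
              refine Finset.sum_congr rfl (fun C _ => ?_)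
              rw [inducedCentralChar_ite_lead, Finset.mul_sum]
              refine Finset.sum_congr rfl (fun y _ => ?_)
              by_cases hc : IsConj (Quotient.out C) (y : G)
              · rw [if_pos hc, if_pos hc]
              · rw [if_neg hc, if_neg hc, mul_zero]
      rw [e1]
      have e2 : ∑ C : ConjClasses G, q (Quotient.out C) *
            Cfsg.inducedCentralChar H (ξ : H → ℂ) (Quotient.out C) =
          ∑ C : ConjClasses G, q (Quotient.out C) *
            (Cfsg.inducedCentralChar H (ξ : H → ℂ) (Quotient.out C) -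
              Cfsg.centralChar (χ₁ : G → ℂ) (Quotient.out C)) := by
        have h0 := blockCoeff_class_sum_lead Bᶜ χ₁
        rw [if_neg (Set.notMem_compl_iff.mpr hχ₁B)] at h0
        have h1 : ∑ C : ConjClasses G, q (Quotient.out C) *
            (Cfsg.inducedCentralChar H (ξ : H → ℂ) (Quotient.out C) -
              Cfsg.centralChar (χ₁ : G → ℂ) (Quotient.out C)) =
            ∑ C : ConjClasses G, q (Quotient.out C) *
              Cfsg.inducedCentralChar H (ξ : H → ℂ) (Quotient.out C) -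
            ∑ C : ConjClasses G, q (Quotient.out C) *
              Cfsg.centralChar (χ₁ : G → ℂ) (Quotient.out C) := by
          rw [← Finset.sum_sub_distrib]
          refine Finset.sum_congr rfl (fun C _ => ?_)
          ring
        rw [h1, hq, h0, sub_zero]
      rw [e2]
      refine memLocalIdeal_sum_lead hMprime _ _ (fun C _ => ?_)
      exact memLocalIdeal_mul_ring_lead hMprime (hqR _) (hind ξ hξ χ₁ hχ₁B _)
    · rw [if_neg hξ]
      exact memLocalIdeal_zero_lead hMtop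
  obtain ⟨q', hq0, hqs, hqcl, hqR', N, hN⟩ :=
    nilp_conv_lead p hp M hMprime hpM u huc huR a hT haI
  have hzmem : ∀ d ∈ Subgroup.zpowers z, d ∈ H := by
    intro d hd
    apply hzH
    rw [Subgroup.mem_centralizer_iff]
    intro w hw
    rw [Set.mem_singleton_iff] at hw
    rw [hw]
    obtain ⟨m, rfl⟩ := Subgroup.mem_zpowers_iff.mp hd
    exact ((Commute.refl z).zpow_right m).eq
  have hcent : ∀ c : G, z * c = c * z → c ∈ H := by
    intro c hc
    apply hzH
    rw [Subgroup.mem_centralizer_iff]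
    intro w hw
    rw [Set.mem_singleton_iff] at hw
    rw [hw]
    exact hc
  intro c hc
  refine brauer_nilp_idem_lead p hp M hMprime hpM z hz (smW_lead H b B) ?_ ?_
    (smW_idem_lead H b B) (fun n => Cfsg.extendByZero H (q' n)) ?_ ?_ ?_ ?_ N ?_ c hc
  · intro x
    rw [hb, hB]
    exact smW_local_lead p hp M hMprime hpM H ξ₀ χ₁ x
  · intro d hd x
    exact smW_conj_lead H b B d (hzmem d hd) x
  · intro n x
    exact extendByZero_memLocalRing_lead H hMtop _ (hqR' n) x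
  · intro n d hd x
    exact ext_conj_lead H (q' n) (hqcl n) d (hzmem d hd) x
  · intro n
    show convMat_lead (Cfsg.extendByZero H (q' (n + 1))) =
      convMat_lead (Cfsg.extendByZero H (q' n)) * convMat_lead (Cfsg.extendByZero H (q' 0))
    rw [convMat_mul_lead]
    congr 1
    funext c'
    rw [ext_conv_lead H (q' n) (q' 0) c']
    congr 1
    funext y
    rw [hqs n y, hq0]
  · intro c' hc'
    have hc'H : c' ∈ H := hcent c' hc'
    show smW_lead H b B c' = Cfsg.extendByZero H (q' 0) c'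
    rw [extendByZero_mem H _ hc'H, hq0, hu ⟨c', hc'H⟩, hq]
    exact sum_extendByZero H (Cfsg.blockCoeff b) (fun x => Cfsg.blockCoeff Bᶜ (x⁻¹ * c'))
  · intro x
    show Cfsg.MemLocalIdeal M (Cfsg.extendByZero H (q' N) x)
    by_cases hx : x ∈ H
    · rw [extendByZero_mem H _ hx]
      exact hN _
    · rw [extendByZero_not_mem H _ hx]
      exact memLocalIdeal_zero_lead hMtop

theorem second_main_lead {G : Type u} [Group G] [Finite G] (p : ℕ) [Fact p.Prime]
    (M : Ideal Cfsg.AlgInt) (hM : Cfsg.IsPModular p M) (H : Subgroup G)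
    (b : Set (Cfsg.IrrCharacter H)) (B : Set (Cfsg.IrrCharacter G))
    (hind : Cfsg.IsInducedBlock M H b B) (h : H)
    (hC : ∀ z : G, Cfsg.IsPPart p (h : G) z → Subgroup.centralizer ({z} : Set G) ≤ H)
    (χ : Cfsg.IrrCharacter G) (hχ : χ ∉ B) :
    ∑ᶠ k : H, Cfsg.blockCoeff b k * (χ : G → ℂ) ((k : G) * (h : G)) = 0 := by
  classical
  haveI : Fintype G := Fintype.ofFinite G
  haveI : Fintype H := Fintype.ofFinite H
  haveI : Fintype (Cfsg.IrrCharacter G) := Fintype.ofFinite _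
  obtain ⟨hp, hMmax, hpM⟩ := hM
  have hMprime : M.IsPrime := hMmax.isPrime
  have hMtop : M ≠ ⊤ := hMprime.ne_top
  obtain ⟨⟨ξ₀, hb⟩, ⟨χ₁, hB⟩, hcong⟩ := hind
  obtain ⟨z, hz⟩ := exists_isPPart_lead p hp (h : G)
  have hzH : Subgroup.centralizer ({z} : Set G) ≤ H := hC z hz
  have hzP : IsPGroup p (Subgroup.zpowers z) := by
    have hz' := hz
    obtain ⟨y, -, -, ⟨a, ha⟩, -⟩ := hz'
    apply IsPGroup.of_card (n := a)
    rw [Nat.card_zpowers, ha]
  have hkey : ∀ c, z * c = c * z → Cfsg.MemLocalIdeal M (smW_lead H b B c) := by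
    rw [hb, hB] at hcong
    rw [hb, hB]
    exact second_main_key_lead p hp M hMprime hpM H ξ₀ χ₁ hcong z hzP hzH
  have htr : ∀ k₀ : G, ∑ r : G, smW_lead H b B ((h : G)⁻¹ * r * k₀⁻¹ * r⁻¹) = 0 := by
    intro k₀
    obtain ⟨τ, hτ⟩ : ∃ τ : ℤ → G → G, ∀ j r, τ j r = (h : G)⁻¹ ^ j * r * k₀⁻¹ ^ j :=
      ⟨fun j r => (h : G)⁻¹ ^ j * r * k₀⁻¹ ^ j, fun _ _ => rfl⟩
    have hτ0 : ∀ r, τ 0 r = r := by
      intro r
      rw [hτ, zpow_zero, zpow_zero, one_mul, mul_one]
    have hτadd : ∀ i j r, τ (i + j) r = τ i (τ j r) := by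
      intro i j r
      rw [hτ, hτ, hτ, zpow_add (h : G)⁻¹ i j, add_comm i j, zpow_add k₀⁻¹ j i]
      simp only [mul_assoc]
    have hτ1 : ∀ r, τ 1 r = (h : G)⁻¹ * r * k₀⁻¹ := by
      intro r
      rw [hτ, zpow_one, zpow_one]
    have hQ : ∀ (i : ℤ) (r : G), (∃ j : ℤ, ¬ (p : ℤ) ∣ j ∧ τ j (τ i r) = τ i r) ↔
        (∃ j : ℤ, ¬ (p : ℤ) ∣ j ∧ τ j r = r) := by
      intro i r
      constructor
      · rintro ⟨j, hj, hfx⟩
        refine ⟨j, hj, ?_⟩
        have e0 : -i + (j + i) = j := by ring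
        have e1 : τ (-i) (τ j (τ i r)) = τ j r := by
          rw [← hτadd j i r, ← hτadd (-i) (j + i) r, e0]
        have e2 : τ (-i) (τ i r) = r := by
          rw [← hτadd (-i) i r, neg_add_cancel, hτ0]
        calc τ j r = τ (-i) (τ j (τ i r)) := e1.symm
          _ = τ (-i) (τ i r) := by rw [hfx]
          _ = r := e2
      · rintro ⟨j, hj, hfx⟩
        refine ⟨j, hj, ?_⟩
        rw [← hτadd j i r, add_comm j i, hτadd i j r, hfx]
    have hER : ∀ r s, Cfsg.MemLocalRing M (convMat_lead (smW_lead H b B) r s) := by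
      intro r s
      show Cfsg.MemLocalRing M (smW_lead H b B (r * s⁻¹))
      rw [hb, hB]
      exact smW_local_lead p hp M hMprime hpM H ξ₀ χ₁ _
    have hET : ∀ r s, convMat_lead (smW_lead H b B) (τ 1 r) (τ 1 s) =
        convMat_lead (smW_lead H b B) r s := by
      intro r s
      show smW_lead H b B (τ 1 r * (τ 1 s)⁻¹) = smW_lead H b B (r * s⁻¹)
      rw [hτ1, hτ1]
      have e : (h : G)⁻¹ * r * k₀⁻¹ * ((h : G)⁻¹ * s * k₀⁻¹)⁻¹ =
          (h : G)⁻¹ * (r * s⁻¹) * ((h : G)⁻¹)⁻¹ := by group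
      rw [e]
      exact smW_conj_lead H b B _ (H.inv_mem h.2) _
    have hEQ : ∀ r s, (∃ j : ℤ, ¬ (p : ℤ) ∣ j ∧ τ j r = r) →
        (∃ j : ℤ, ¬ (p : ℤ) ∣ j ∧ τ j s = s) →
        Cfsg.MemLocalIdeal M (convMat_lead (smW_lead H b B) r s) := by
      rintro r s ⟨j₁, hj₁, hf₁⟩ ⟨j₂, hj₂, hf₂⟩
      show Cfsg.MemLocalIdeal M (smW_lead H b B (r * s⁻¹))
      apply hkey
      rw [hτ] at hf₁ hf₂
      have hcomm := fix_commute_lead (h : G)⁻¹ k₀ r s j₁ j₂ hf₁ hf₂
      rw [inv_zpow'] at hcomm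
      have hpJ : ¬ (p : ℤ) ∣ -(j₁ * j₂) := by
        intro hd
        rcases (Nat.prime_iff_prime_int.mp hp).dvd_or_dvd (dvd_neg.mp hd) with h1 | h1
        · exact hj₁ h1
        · exact hj₂ h1
      exact (ppart_commute_lead p hp (h : G) z hz (-(j₁ * j₂)) hpJ (r * s⁻¹) hcomm).eq
    have hfix : ∀ (k : ℤ) (r : G), ¬ (∃ j : ℤ, ¬ (p : ℤ) ∣ j ∧ τ j r = r) → τ k r = r →
        (p : ℤ) ∣ k := by
      intro k r hnQ hk
      by_contra hpk
      exact hnQ ⟨k, hpk, hk⟩
    have hsum := perm_idem_trace_schur_lead p hp hMprime hpM τ hτ0 hτadd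
      (fun r => ∃ j : ℤ, ¬ (p : ℤ) ∣ j ∧ τ j r = r) hQ (convMat_lead (smW_lead H b B)) hER
      (smW_idem_lead H b B) hET hEQ hfix
    have e : ∀ r : G, smW_lead H b B ((h : G)⁻¹ * r * k₀⁻¹ * r⁻¹) =
        convMat_lead (smW_lead H b B) (τ 1 r) r := by
      intro r
      show smW_lead H b B ((h : G)⁻¹ * r * k₀⁻¹ * r⁻¹) = smW_lead H b B (τ 1 r * r⁻¹)
      rw [hτ1]
    rw [Finset.sum_congr rfl (fun r _ => e r)]
    exact hsum
  have hexp : ∀ k₀ : G, ∑ φ : Cfsg.IrrCharacter G,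
      (if φ ∈ Bᶜ then ∑ x : G, Cfsg.extendByZero H (Cfsg.blockCoeff b) x *
        (φ : G → ℂ) ((h : G) * x) else 0) * (φ : G → ℂ) k₀ = 0 := by
    intro k₀
    have h1 : ∀ x : G, ∑ r : G, Cfsg.blockCoeff Bᶜ (x⁻¹ * ((h : G)⁻¹ * r * k₀⁻¹ * r⁻¹)) =
        ∑ φ : Cfsg.IrrCharacter G, if φ ∈ Bᶜ then
          (φ : G → ℂ) ((h : G) * x) * (φ : G → ℂ) k₀ else 0 := by
      intro x
      have h2 := blockCoeff_twist_sum_lead Bᶜ ((h : G) * x) k₀⁻¹
      have h3 : ∑ r : G, Cfsg.blockCoeff Bᶜ (x⁻¹ * ((h : G)⁻¹ * r * k₀⁻¹ * r⁻¹)) =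
          ∑ g : G, Cfsg.blockCoeff Bᶜ (((h : G) * x)⁻¹ * g * k₀⁻¹ * g⁻¹) := by
        refine Finset.sum_congr rfl (fun r _ => ?_)
        congr 1
        group
      rw [h3, h2]
      refine Finset.sum_congr rfl (fun φ _ => ?_)
      have h4 : (starRingEnd ℂ) ((φ : G → ℂ) k₀⁻¹) = (φ : G → ℂ) k₀ := by
        rw [isCharacter_inv (isCharacter_of_isIrrCharacter φ.2) k₀, Complex.conj_conj]
      by_cases hφ : φ ∈ Bᶜ
      · rw [if_pos hφ, if_pos hφ, h4]
      · rw [if_neg hφ, if_neg hφ]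
    calc ∑ φ : Cfsg.IrrCharacter G,
          (if φ ∈ Bᶜ then ∑ x : G, Cfsg.extendByZero H (Cfsg.blockCoeff b) x *
            (φ : G → ℂ) ((h : G) * x) else 0) * (φ : G → ℂ) k₀
        = ∑ φ : Cfsg.IrrCharacter G, ∑ x : G, Cfsg.extendByZero H (Cfsg.blockCoeff b) x *
            (if φ ∈ Bᶜ then (φ : G → ℂ) ((h : G) * x) * (φ : G → ℂ) k₀ else 0) := by
          refine Finset.sum_congr rfl (fun φ _ => ?_)
          by_cases hφ : φ ∈ Bᶜ
          · rw [if_pos hφ, Finset.sum_mul]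
            refine Finset.sum_congr rfl (fun x _ => ?_)
            rw [if_pos hφ, mul_assoc]
          · rw [if_neg hφ, zero_mul]
            symm
            refine Finset.sum_eq_zero (fun x _ => ?_)
            rw [if_neg hφ, mul_zero]
      _ = ∑ x : G, ∑ φ : Cfsg.IrrCharacter G, Cfsg.extendByZero H (Cfsg.blockCoeff b) x *
            (if φ ∈ Bᶜ then (φ : G → ℂ) ((h : G) * x) * (φ : G → ℂ) k₀ else 0) :=
          Finset.sum_comm
      _ = ∑ x : G, ∑ r : G, Cfsg.extendByZero H (Cfsg.blockCoeff b) x *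
            Cfsg.blockCoeff Bᶜ (x⁻¹ * ((h : G)⁻¹ * r * k₀⁻¹ * r⁻¹)) := by
          refine Finset.sum_congr rfl (fun x _ => ?_)
          rw [← Finset.mul_sum, ← Finset.mul_sum, h1 x]
      _ = ∑ r : G, ∑ x : G, Cfsg.extendByZero H (Cfsg.blockCoeff b) x *
            Cfsg.blockCoeff Bᶜ (x⁻¹ * ((h : G)⁻¹ * r * k₀⁻¹ * r⁻¹)) := Finset.sum_comm
      _ = 0 := htr k₀
  obtain ⟨cf, hcf⟩ : ∃ cf : Cfsg.IrrCharacter G → ℂ, ∀ φ, cf φ =
      if φ ∈ Bᶜ then ∑ x : G, Cfsg.extendByZero H (Cfsg.blockCoeff b) x *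
        (φ : G → ℂ) ((h : G) * x) else 0 :=
    ⟨fun φ => if φ ∈ Bᶜ then ∑ x : G, Cfsg.extendByZero H (Cfsg.blockCoeff b) x *
        (φ : G → ℂ) ((h : G) * x) else 0, fun _ => rfl⟩
  have hlin : ∑ φ : Cfsg.IrrCharacter G, cf φ • (φ : G → ℂ) = 0 := by
    funext k₀
    have hk := hexp k₀
    rw [Finset.sum_apply]
    refine Eq.trans (Finset.sum_congr rfl (fun φ _ => ?_)) hk
    show cf φ * (φ : G → ℂ) k₀ = _
    rw [hcf φ]
  have hc0 := Fintype.linearIndependent_iff.mp (irr_linearIndependent G) cf hlin χ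
  rw [hcf, if_pos (Set.mem_compl hχ)] at hc0
  rw [finsum_eq_sum_of_fintype]
  have h5 := sum_extendByZero H (Cfsg.blockCoeff b) (fun x => (χ : G → ℂ) ((h : G) * x))
  have h6 : ∑ k : H, Cfsg.blockCoeff b k * (χ : G → ℂ) ((k : G) * (h : G)) =
      ∑ k : H, Cfsg.blockCoeff b k * (χ : G → ℂ) ((h : G) * (k : G)) := by
    refine Finset.sum_congr rfl (fun k _ => ?_)
    have h7 := isClassFunction_of_irr χ.2 ((k : G) * (h : G)) (h : G)
    have e : (h : G) * ((k : G) * (h : G)) * (h : G)⁻¹ = (h : G) * (k : G) := by group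
    rw [e] at h7
    rw [h7]
  rw [h6]
  exact h5.symm.trans hc0

end Cfsg.Agent.Lib.Lead
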