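import Mathlib
import Cfsg.Agent.Lib.Lead.BrauerFowler3
import Cfsg.Agent.Lib.Lead.OrbitCount
import Cfsg.Agent.Lib.Lead.CharInt

set_option autoImplicit false

namespace Cfsg.Agent.Lib.Lead

open scoped Pointwise commutatorElement

/-- Two non-conjugate involutions: the cyclic group generated by their product contains an
involution. -/
theorem exists_invol_mem_zpowers_of_not_conj {G : Type*} [Group G] [Finite G] {u v : G}
    (hu : orderOf u = 2) (hv : orderOf v = 2) (h : ¬ IsConj u v) :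
    ∃ z : G, orderOf z = 2 ∧ z ∈ Subgroup.zpowers (u * v) := by
  have hpos : 0 < orderOf (u * v) := orderOf_pos _
  rcases Nat.even_or_odd' (orderOf (u * v)) with ⟨j, hj | hj⟩
  · have hj0 : j ≠ 0 := by omega
    have hz1 : (u * v) ^ j ≠ 1 := pow_ne_one_of_lt_orderOf hj0 (by omega)
    have hz2 : (u * v) ^ j * (u * v) ^ j = 1 := by
      rw [← pow_add, ← two_mul, ← hj]
      exact pow_orderOf_eq_one _
    exact ⟨(u * v) ^ j, invol_iff.mpr ⟨hz1, hz2⟩, Subgroup.pow_mem _ (Subgroup.mem_zpowers _) j⟩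
  · exfalso
    apply h
    rw [isConj_iff]
    refine ⟨(u * v) ^ j, ?_⟩
    have h1 := pair_conj_zpow hu hv (-(j : ℤ))
    rw [neg_neg, zpow_neg, zpow_natCast] at h1
    rw [mul_assoc, h1, ← mul_assoc, ← pow_add]
    have h2 : (u * v) ^ (j + j) * (u * v) = 1 := by
      rw [← pow_succ]
      have h3 : j + j + 1 = orderOf (u * v) := by omega
      rw [h3]
      exact pow_orderOf_eq_one _
    have h3 : (u * v) ^ (j + j) = (u * v)⁻¹ := eq_inv_of_mul_eq_one_left h2
    rw [h3, mul_inv_rev, invol_inv hu, invol_inv hv, mul_assoc, invol_mul_self hu, mul_one]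

/-- Uniqueness of an involution in a cyclic subgroup. -/
theorem invol_unique_zpowers {G : Type*} [Group G] [Finite G] (d : G) {a b : G}
    (ha : orderOf a = 2) (hb : orderOf b = 2) (ha' : a ∈ Subgroup.zpowers d)
    (hb' : b ∈ Subgroup.zpowers d) : a = b := by
  have h1 : orderOf (⟨a, ha'⟩ : Subgroup.zpowers d) = 2 := by rw [Subgroup.orderOf_mk, ha]
  have h2 : orderOf (⟨b, hb'⟩ : Subgroup.zpowers d) = 2 := by rw [Subgroup.orderOf_mk, hb]
  have h3 := invol_unique_of_cyclic h1 h2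
  exact congrArg Subtype.val h3

section TOF
variable {G : Type*} [Group G] [Fintype G] [DecidableEq G]

/-- The finset of conjugates. -/
noncomputable def conjF (x : G) : Finset G := by
  classical exact Finset.univ.filter (fun u => IsConj x u)

theorem mem_conjF {x u : G} : u ∈ conjF x ↔ IsConj x u := by
  classical
  simp [conjF]

theorem card_conjF_mul (x : G) :
    (conjF x).card * Nat.card (Subgroup.centralizer ({x} : Set G)) = Fintype.card G := by
  rw [← Nat.card_eq_fintype_card, ← card_class_mul_card_centralizer x]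
  congr 1
  rw [← Fintype.card_coe, ← Nat.card_eq_fintype_card]
  exact Nat.card_congr (Equiv.subtypeEquivRight (fun g => by rw [mem_conjF, isConj_comm]))

/-- Number of pairs `(u, v)` in `x₁^G × x₂^G` with `z ∈ ⟨uv⟩`. -/
noncomputable def tofN (x₁ x₂ z : G) : ℕ := by
  classical exact ((conjF x₁ ×ˢ conjF x₂).filter
    (fun p => z ∈ Subgroup.zpowers (p.1 * p.2))).card

theorem tofN_eq (x₁ x₂ z : G) : tofN x₁ x₂ z =
    Nat.card {p : G × G // IsConj x₁ p.1 ∧ IsConj x₂ p.2 ∧ z ∈ Subgroup.zpowers (p.1 * p.2)} := by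
  classical
  unfold tofN
  rw [← Fintype.card_coe, ← Nat.card_eq_fintype_card]
  exact Nat.card_congr (Equiv.subtypeEquivRight (fun p => by
    rw [Finset.mem_filter, Finset.mem_product, mem_conjF, mem_conjF, and_assoc]))

theorem tofN_conj_le (x₁ x₂ z g : G) : tofN x₁ x₂ z ≤ tofN x₁ x₂ (g * z * g⁻¹) := by
  classical
  unfold tofN
  apply Finset.card_le_card_of_injOn (fun p => (g * p.1 * g⁻¹, g * p.2 * g⁻¹))
  · intro p hp
    rw [Finset.mem_coe, Finset.mem_filter, Finset.mem_product, mem_conjF, mem_conjF] at hp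
    rw [Finset.mem_coe, Finset.mem_filter, Finset.mem_product, mem_conjF, mem_conjF]
    refine ⟨⟨hp.1.1.trans (isConj_iff.mpr ⟨g, rfl⟩), hp.1.2.trans (isConj_iff.mpr ⟨g, rfl⟩)⟩, ?_⟩
    obtain ⟨k, hk⟩ := Subgroup.mem_zpowers_iff.mp hp.2
    rw [Subgroup.mem_zpowers_iff]
    refine ⟨k, ?_⟩
    have h1 : g * p.1 * g⁻¹ * (g * p.2 * g⁻¹) = g * (p.1 * p.2) * g⁻¹ := by group
    show (g * p.1 * g⁻¹ * (g * p.2 * g⁻¹)) ^ k = g * z * g⁻¹
    rw [h1, conj_zpow, hk]
  · intro p _ q _ h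
    have h1 := (Prod.ext_iff.mp h).1
    have h2 := (Prod.ext_iff.mp h).2
    exact Prod.ext (mul_left_cancel (mul_right_cancel h1)) (mul_left_cancel (mul_right_cancel h2))

theorem tofN_conj (x₁ x₂ z g : G) : tofN x₁ x₂ (g * z * g⁻¹) = tofN x₁ x₂ z := by
  apply le_antisymm
  · have h := tofN_conj_le x₁ x₂ (g * z * g⁻¹) g⁻¹
    have h1 : g⁻¹ * (g * z * g⁻¹) * g⁻¹⁻¹ = z := by group
    rw [h1] at h
    exact h
  · exact tofN_conj_le x₁ x₂ z g

theorem tofN_sum_class (x₁ x₂ x : G) :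
    ∑ z ∈ conjF x, tofN x₁ x₂ z = (conjF x).card * tofN x₁ x₂ x := by
  rw [← smul_eq_mul, ← Finset.sum_const]
  apply Finset.sum_congr rfl
  intro z hz
  rw [mem_conjF, isConj_iff] at hz
  obtain ⟨g, rfl⟩ := hz
  exact tofN_conj x₁ x₂ x g

theorem tofN_sum (x₁ x₂ : G) (h₁ : orderOf x₁ = 2) (h₂ : orderOf x₂ = 2) (hnc : ¬ IsConj x₁ x₂) :
    ∑ z ∈ invs G, tofN x₁ x₂ z = (conjF x₁).card * (conjF x₂).card := by
  classical
  unfold tofN
  simp only [Finset.card_filter]
  rw [Finset.sum_comm, ← Finset.card_product, Finset.card_eq_sum_ones]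
  apply Finset.sum_congr rfl
  intro p hp
  rw [Finset.mem_product, mem_conjF, mem_conjF] at hp
  rw [← Finset.card_filter]
  have hu : orderOf p.1 = 2 := by
    obtain ⟨c, hc⟩ := isConj_iff.mp hp.1
    rw [← hc]
    exact invol_conj h₁ c
  have hv : orderOf p.2 = 2 := by
    obtain ⟨c, hc⟩ := isConj_iff.mp hp.2
    rw [← hc]
    exact invol_conj h₂ c
  have hnc' : ¬ IsConj p.1 p.2 := fun h => hnc (hp.1.trans (h.trans hp.2.symm))
  obtain ⟨z, hz, hzm⟩ := exists_invol_mem_zpowers_of_not_conj hu hv hnc'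
  rw [Finset.card_eq_one]
  refine ⟨z, ?_⟩
  ext w
  rw [Finset.mem_filter, mem_invs, Finset.mem_singleton]
  constructor
  · rintro ⟨hw, hwm⟩
    exact invol_unique_zpowers (p.1 * p.2) hw hz hwm hzm
  · rintro rfl
    exact ⟨hz, hzm⟩

/-- Thompson order formula, two classes of involutions. -/
theorem thompson_order_formula (x₁ x₂ : G) (h₁ : orderOf x₁ = 2) (h₂ : orderOf x₂ = 2)
    (hnc : ¬ IsConj x₁ x₂) (hall : ∀ t : G, orderOf t = 2 → IsConj x₁ t ∨ IsConj x₂ t) :
    Fintype.card G = Nat.card (Subgroup.centralizer ({x₂} : Set G)) * tofN x₁ x₂ x₁ +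
      Nat.card (Subgroup.centralizer ({x₁} : Set G)) * tofN x₁ x₂ x₂ := by
  classical
  have hI : invs G = conjF x₁ ∪ conjF x₂ := by
    ext z
    rw [mem_invs, Finset.mem_union, mem_conjF, mem_conjF]
    constructor
    · exact hall z
    · rintro (h | h)
      · obtain ⟨c, hc⟩ := isConj_iff.mp h
        rw [← hc]
        exact invol_conj h₁ c
      · obtain ⟨c, hc⟩ := isConj_iff.mp h
        rw [← hc]
        exact invol_conj h₂ c
  have hdisj : Disjoint (conjF x₁) (conjF x₂) := by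
    rw [Finset.disjoint_left]
    intro z hz1 hz2
    rw [mem_conjF] at hz1 hz2
    exact hnc (hz1.trans hz2.symm)
  have hsum := tofN_sum x₁ x₂ h₁ h₂ hnc
  rw [hI, Finset.sum_union hdisj, tofN_sum_class, tofN_sum_class] at hsum
  have e1 := card_conjF_mul x₁
  have e2 := card_conjF_mul x₂
  have hpos : 0 < Fintype.card G := Fintype.card_pos
  generalize tofN x₁ x₂ x₁ = N₁ at *
  generalize tofN x₁ x₂ x₂ = N₂ at *
  generalize (conjF x₁).card = s₁ at *
  generalize (conjF x₂).card = s₂ at *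
  generalize Nat.card (Subgroup.centralizer ({x₁} : Set G)) = c₁ at *
  generalize Nat.card (Subgroup.centralizer ({x₂} : Set G)) = c₂ at *
  generalize Fintype.card G = g at *
  apply Nat.eq_of_mul_eq_mul_left hpos
  calc g * g = (s₁ * c₁) * (s₂ * c₂) := by rw [e1, e2]
    _ = (s₁ * s₂) * (c₁ * c₂) := by ring
    _ = (s₁ * N₁ + s₂ * N₂) * (c₁ * c₂) := by rw [hsum]
    _ = (s₁ * c₁) * (c₂ * N₁) + (s₂ * c₂) * (c₁ * N₂) := by ring
    _ = g * (c₂ * N₁ + c₁ * N₂) := by rw [e1, e2]; ring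

end TOF

end Cfsg.Agent.Lib.Lead
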