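import Mathlib
import Cfsg.Agent.Lib.Lead.Class2

set_option autoImplicit false

namespace Cfsg.Agent.Lib.Lead

/-- A central element of `G'` lying in a Sylow subgroup `P` lies in `P'` (transfer). -/
theorem central_comm_mem_commutator_sylow {G : Type*} [Group G] [Finite G] {p : ℕ}
    [Fact p.Prime] (P : Sylow p G) (z : G) (hzZ : z ∈ Subgroup.center G)
    (hzc : z ∈ commutator G) (hzP : z ∈ (P : Subgroup G)) :
    (⟨z, hzP⟩ : (P : Subgroup G)) ∈ commutator (P : Subgroup G) := by
  have hp : p.Prime := Fact.out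
  have key : ∀ (k : ℕ) (g₀ : G), g₀⁻¹ * z ^ k * g₀ ∈ (P : Subgroup G) →
      g₀⁻¹ * z ^ k * g₀ = z ^ k := by
    intro k g₀ _
    have h1 : z ^ k ∈ Subgroup.center G := Subgroup.pow_mem _ hzZ k
    rw [Subgroup.mem_center_iff] at h1
    rw [mul_assoc, ← h1 g₀, inv_mul_cancel_left]
  have h1 := MonoidHom.transfer_eq_pow
    (Abelianization.of : (P : Subgroup G) →* Abelianization (P : Subgroup G)) z key
  have h2 : MonoidHom.transfer
      (Abelianization.of : (P : Subgroup G) →* Abelianization (P : Subgroup G)) z = 1 := by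
    have h3 : commutator G ≤ (MonoidHom.transfer
        (Abelianization.of : (P : Subgroup G) →* Abelianization (P : Subgroup G))).ker :=
      Abelianization.commutator_subset_ker _
    exact h3 hzc
  rw [h2] at h1
  have h4 : (Abelianization.of (⟨z, hzP⟩ : (P : Subgroup G))) ^ (P : Subgroup G).index = 1 := by
    rw [← map_pow, h1]
    rfl
  have hpg : IsPGroup p (Abelianization (P : Subgroup G)) := P.isPGroup'.to_quotient _
  obtain ⟨k, hk⟩ := hpg (Abelianization.of (⟨z, hzP⟩ : (P : Subgroup G)))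
  have hcop : Nat.Coprime ((P : Subgroup G).index) (p ^ k) :=
    Nat.Coprime.pow_right k ((Nat.Prime.coprime_iff_not_dvd hp).mpr P.not_dvd_index).symm
  have h5 : Abelianization.of (⟨z, hzP⟩ : (P : Subgroup G)) = 1 := by
    have d1 := orderOf_dvd_of_pow_eq_one h4
    have d2 := orderOf_dvd_of_pow_eq_one hk
    exact orderOf_eq_one_iff.mp (Nat.eq_one_of_dvd_coprimes hcop d1 d2)
  have h6 : (⟨z, hzP⟩ : (P : Subgroup G))
      ∈ (Abelianization.of : (P : Subgroup G) →* Abelianization (P : Subgroup G)).ker := h5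
  rwa [Abelianization.ker_of] at h6

end Cfsg.Agent.Lib.Lead
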